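import Cfsg.Agent.H57.BG129Defs

/-!
helper73: piece S1420-B for helper57 (B&G Cor. 12.9, second conjunct): `E'` is abelian.
(Imports only `H57.BG129Defs`, so that it can be imported together with any other piece.)
-/

set_option autoImplicit false

namespace Cfsg.Agent.H73.BG12

open Cfsg Subgroup Cfsg.Agent.H58.BG10 Cfsg.Agent.H57.BG12

universe u

variable {G : Type u} [Group G] [Finite G]

omit [Finite G] in
/-- the order of `M` is the product of the orders of two complements of each other in `M`. -/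
theorem card_mul_card_of_isComplIn {A B M : Subgroup G} (h : IsComplIn A B M) :
    Nat.card M = Nat.card A * Nat.card B := by
  obtain ⟨hA, hB, hdisj, hsurj⟩ := h
  rw [← Nat.card_prod]
  symm
  apply Nat.card_congr
  refine Equiv.ofBijective
    (fun ab : A × B => (⟨(ab.1 : G) * ab.2, mul_mem (hA ab.1.2) (hB ab.2.2)⟩ : M)) ⟨?_, ?_⟩
  · rintro ⟨a, b⟩ ⟨a', b'⟩ hab
    have hab' : (a : G) * b = a' * b' := congrArg Subtype.val hab
    have h1 : (a' : G)⁻¹ * a = b' * (b : G)⁻¹ := by
      rw [inv_mul_eq_iff_eq_mul, ← mul_assoc, ← hab']; group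
    have h2 : (a' : G)⁻¹ * a ∈ A ⊓ B :=
      Subgroup.mem_inf.mpr
        ⟨mul_mem (inv_mem a'.2) a.2, by rw [h1]; exact mul_mem b'.2 (inv_mem b.2)⟩
    rw [hdisj, Subgroup.mem_bot] at h2
    have h3 : (a : G) = a' := (inv_mul_eq_one.mp h2).symm
    have h4 : (b : G) = b' := by
      rw [h3] at hab'
      exact mul_left_cancel hab'
    exact Prod.ext (Subtype.ext h3) (Subtype.ext h4)
  · rintro ⟨m, hm⟩
    obtain ⟨a, ha, b, hb, rfl⟩ := hsurj m hm
    exact ⟨(⟨a, ha⟩, ⟨b, hb⟩), rfl⟩

/-- the order of a complement of `B` in `M` is the index of `B` in `M`. -/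
theorem card_eq_relIndex_of_isComplIn {A B M : Subgroup G} (h : IsComplIn A B M) :
    Nat.card A = B.relIndex M := by
  have h1 := card_mul_card_of_isComplIn h
  have h2 : Nat.card B * B.relIndex M = Nat.card M := by
    have := Subgroup.relIndex_mul_relIndex (H := ⊥) (K := B) (L := M) bot_le h.2.1
    rwa [Subgroup.relIndex_bot_left, Subgroup.relIndex_bot_left] at this
  have hpos : 0 < Nat.card B := Nat.card_pos
  rw [h1, mul_comm] at h2
  exact (Nat.eq_of_mul_eq_mul_right hpos h2).symm

set_option linter.unusedVariables false in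
theorem bg129b (hG : IsMinSimpleOddOrder G) (h50 : St1350 G) (h15 : St1415 G) (ha : St1420a G) : St1420b G := by
  intro M hM E hE
  have hnil := (h15 M hM E hE).1
  have hEM : E ≤ M := hE.1
  have hle : ⁅E, E⁆ ≤ E := Subgroup.commutator_le_self E
  refine ha M hM ⁅E, E⁆ (hle.trans hEM) hnil ?_
  intro q hq hqd hqσ
  have h1 : q ∣ Nat.card E := hqd.trans (Subgroup.card_dvd_of_le hle)
  rw [card_eq_relIndex_of_isComplIn hE] at h1
  exact (h50 M hM).1.2.2 q hq hqσ h1

example (hG : IsMinSimpleOddOrder G) (h50 : St1350 G) (h15 : St1415 G) (ha : St1420a G) : St1420b G :=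
  bg129b hG h50 h15 ha

end Cfsg.Agent.H73.BG12

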