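import Cfsg.Agent.H57.BG129Defs
import Cfsg.Agent.Helper55.PRankOne
import Cfsg.Agent.H58.BG10FG

/-!
helper73: piece S1420-A for helper57 (B&G Cor. 12.9, first conjunct): nilpotent `σ(M)'`-subgroups
of a maximal subgroup `M` are abelian.
-/

set_option autoImplicit false

namespace Cfsg.Agent.H73.BG12

open Cfsg Subgroup Cfsg.Agent.H58.BG10 Cfsg.Agent.H57.BG12

universe u

/-- a finite nilpotent group all of whose Sylow subgroups are commutative is commutative. -/
theorem comm_of_nilpotent_of_sylow_comm {N : Type*} [Group N] [Finite N]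
    (hN : Group.IsNilpotent N)
    (h : ∀ (p : ℕ) (_ : Fact p.Prime) (P : Sylow p N), ∀ x ∈ P, ∀ y ∈ P, x * y = y * x)
    (x y : N) : x * y = y * x := by
  obtain ⟨e⟩ := ((Group.isNilpotent_of_finite_tfae (G := N)).out 0 4).mp hN
  obtain ⟨a, rfl⟩ := e.surjective x
  obtain ⟨b, rfl⟩ := e.surjective y
  rw [← map_mul, ← map_mul]
  congr 1
  funext p P
  apply Subtype.ext
  show (a p P : N) * (b p P : N) = (b p P : N) * (a p P : N)
  exact h p.1 ⟨Nat.prime_of_mem_primeFactors p.2⟩ P _ (a p P).2 _ (b p P).2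

/-- `p`-rank bounds pass to subgroups. -/
theorem pRankLE_sub {X : Type*} [Group X] {p k : ℕ} (h : PRankLE p k X) (H : Subgroup X) :
    PRankLE p k ↥H := by
  intro A hA hAp
  have h1 : IsMulCommutative ↥(A.map H.subtype) := by
    refine ⟨⟨fun x y => ?_⟩⟩
    obtain ⟨x, hx⟩ := x
    obtain ⟨y, hy⟩ := y
    obtain ⟨x', hx', rfl⟩ := hx
    obtain ⟨y', hy', rfl⟩ := hy
    apply Subtype.ext
    have := hA.is_comm.comm ⟨x', hx'⟩ ⟨y', hy'⟩
    have h2 : x' * y' = y' * x' := congrArg Subtype.val this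
    show H.subtype x' * H.subtype y' = H.subtype y' * H.subtype x'
    rw [← map_mul, ← map_mul, h2]
  have h2 : ∀ a ∈ A.map H.subtype, a ^ p = 1 := by
    rintro _ ⟨a, ha, rfl⟩
    rw [← map_pow, hAp a ha, map_one]
  have h3 := h (A.map H.subtype) h1 h2
  rwa [Subgroup.card_map_of_injective H.subtype_injective] at h3

/-- a cyclic group is commutative. -/
theorem comm_of_isCyclic {X : Type*} [Group X] (h : IsCyclic X) (a b : X) : a * b = b * a := by
  obtain ⟨g, hg⟩ := h.exists_generator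
  obtain ⟨i, rfl⟩ := hg a
  obtain ⟨j, rfl⟩ := hg b
  rw [← zpow_add, ← zpow_add, add_comm]

variable {G : Type u} [Group G] [Finite G]

/-- the Sylow `q`-subgroups of `M` are commutative for `q ∉ σ(M)` -/
theorem sylow_comm_of_not_sigma (hG : IsMinSimpleOddOrder G) (h96 : St1403 G) (h17 : St1417 G)
    (M : Subgroup G) (hM : IsCoatom M) (q : ℕ) [Fact q.Prime] (hq2 : q ≠ 2) (hqσ : q ∉ sigma M)
    (R : Sylow q M) : ∀ a ∈ R, ∀ b ∈ R, a * b = b * a := by
  have hqp : q.Prime := Fact.out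
  by_cases h1 : PRankLE q 1 ↥M
  · have hR1 : PRankLE q 1 ↥(R : Subgroup M) := pRankLE_sub h1 _
    have hcyc : IsCyclic ↥(R : Subgroup M) :=
      Cfsg.Agent.Helper55.isCyclic_of_pRankLE_one hq2 R.isPGroup' hR1
    intro a ha b hb
    have := comm_of_isCyclic hcyc ⟨a, ha⟩ ⟨b, hb⟩
    exact congrArg Subtype.val this
  · have h2 : PRankLE q 2 ↥M := by
      by_contra h2
      exact hqσ (alpha_subset_sigma hG h96 hM ⟨hqp, h2⟩)
    have h1' : ∃ A' : Subgroup ↥M, IsMulCommutative A' ∧ (∀ a ∈ A', a ^ q = 1) ∧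
        q ^ 1 < Nat.card A' := by
      by_contra hne
      apply h1
      intro A hA hAp
      by_contra hc
      exact hne ⟨A, hA, hAp, not_le.mp hc⟩
    obtain ⟨A', hA'c, hA'p, hA'card⟩ := h1'
    have hle := h2 A' hA'c hA'p
    have hpg : IsPGroup q ↥A' := by
      intro a
      refine ⟨1, ?_⟩
      apply Subtype.ext
      rw [pow_one]
      exact hA'p a.1 a.2
    obtain ⟨n, hn⟩ := IsPGroup.iff_card.mp hpg
    have hn2 : n = 2 := by
      rw [hn] at hA'card hle
      have ha : 1 < n := (Nat.pow_lt_pow_iff_right hqp.one_lt).mp hA'card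
      have hb : n ≤ 2 := (Nat.pow_le_pow_iff_right hqp.one_lt).mp hle
      omega
    subst hn2
    have hAel : IsElementaryAbelian q (A'.map M.subtype) := by
      refine ⟨⟨⟨fun x y => ?_⟩⟩, ?_⟩
      · obtain ⟨x, hx⟩ := x
        obtain ⟨y, hy⟩ := y
        obtain ⟨x', hx', rfl⟩ := hx
        obtain ⟨y', hy', rfl⟩ := hy
        apply Subtype.ext
        have := hA'c.is_comm.comm ⟨x', hx'⟩ ⟨y', hy'⟩
        have h2 : x' * y' = y' * x' := congrArg Subtype.val this
        show M.subtype x' * M.subtype y' = M.subtype y' * M.subtype x'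
        rw [← map_mul, ← map_mul, h2]
      · rintro _ ⟨a, ha, rfl⟩
        rw [← map_pow, hA'p a ha, map_one]
    have hAcard : Nat.card ↥(A'.map M.subtype) = q ^ 2 := by
      rw [Subgroup.card_map_of_injective M.subtype_injective, hn]
    have hAM : A'.map M.subtype ≤ M := Subgroup.map_subtype_le A'
    have key := (h17 M hM q ⟨hqp, hqσ, h2, h1⟩ (A'.map M.subtype) ⟨hAM, hAel, hAcard⟩).2.1 R
    have hRc := key.1
    intro a ha b hb
    have := hRc.is_comm.comm ⟨a, ha⟩ ⟨b, hb⟩
    exact congrArg Subtype.val this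

theorem bg129a (hG : IsMinSimpleOddOrder G) (h96 : St1403 G) (h17 : St1417 G) : St1420a G := by
  intro M hM N hNM hnil hprimes
  refine ⟨⟨fun x y => ?_⟩⟩
  refine comm_of_nilpotent_of_sylow_comm hnil ?_ x y
  intro q hq Q x hx y hy
  have hqp : q.Prime := hq.out
  by_cases hx1 : x = 1
  · rw [hx1, one_mul, mul_one]
  have hqd : q ∣ Nat.card ↥N := by
    have h1 : q ∣ Nat.card ↥(Q : Subgroup ↥N) := by
      rcases Q.isPGroup'.card_eq_or_dvd with h | h
      · exfalso
        apply hx1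
        have hsub : Subsingleton ↥(Q : Subgroup ↥N) := (Nat.card_eq_one_iff_unique.mp h).1
        have := Subsingleton.elim (⟨x, hx⟩ : ↥(Q : Subgroup ↥N)) 1
        exact congrArg Subtype.val this
      · exact h
    exact h1.trans (Subgroup.card_subgroup_dvd_card _)
  have hqσ : q ∉ sigma M := hprimes q hqp hqd
  have hq2 : q ≠ 2 := by
    rintro rfl
    have h2 : 2 ∣ Nat.card G := hqd.trans (Subgroup.card_subgroup_dvd_card N)
    have hodd : Odd (Nat.card G) := hG.1
    rw [Nat.odd_iff] at hodd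
    omega
  have hQ' : IsPGroup q ↥((Q : Subgroup ↥N).map (Subgroup.inclusion hNM)) :=
    Q.isPGroup'.map _
  obtain ⟨R, hR⟩ := hQ'.exists_le_sylow
  have hRcomm := sylow_comm_of_not_sigma hG h96 h17 M hM q hq2 hqσ R
  have := hRcomm (Subgroup.inclusion hNM x) (hR (Subgroup.mem_map_of_mem _ hx))
    (Subgroup.inclusion hNM y) (hR (Subgroup.mem_map_of_mem _ hy))
  apply Subgroup.inclusion_injective hNM
  rw [map_mul, map_mul]
  exact this

example (hG : IsMinSimpleOddOrder G) (h96 : St1403 G) (h17 : St1417 G) : St1420a G :=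
  bg129a hG h96 h17

end Cfsg.Agent.H73.BG12

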