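import Mathlib
import Cfsg.Agent.H64.JzDefs
import Cfsg.Agent.H64.JyDefs
import Cfsg.Agent.S2950
import Cfsg.Agent.Helper55.UqBase
import Cfsg.Agent.H7.JyNotin
import Cfsg.Agent.H20.JyPair
import Cfsg.Agent.H20.JtNormal
import Cfsg.Agent.H51.Local
import Cfsg.Agent.H48.JyV

/-!
# JY-KILL2 interface pieces (S2953, helper64's project): `V ≤ T'` and the maximality fact (i)

* `no_bigger`: for a configuration `Base S M T K L`, no nontrivial subgroup `U ≤ T` normalized by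
  `K` and `T` is normalized by an element of `S ∖ T` (`N_G(U)` is a 2-local over `K J(T)`, so it
  lies in `L`, and `S ⊓ L = T`).
* `core_facts`: `Q := O₂(K ⊔ T)` is nontrivial, `Q ≤ T`, `O₂(L) ≤ Q`, `K, T ≤ N_G(Q)`.
* `vLeT`: in the residual situation `RCtx2 S M K L T' K' L'`: `V := Ω₁Z(O₂(L)) ≤ T'`.
-/

set_option autoImplicit false
open Cfsg

namespace Cfsg.Agent.H73.JyVT

open Cfsg.Agent.H64.Jz Cfsg.Agent.H64.Jy
open Cfsg.Agent.Helper55 Cfsg.Agent.Helper55.ThJ Cfsg.Agent.Helper55.J48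

universe u

variable {G : Type u} [Group G]

/-- a group of order 2 containing `z ≠ 1` is `{1, z}` -/
theorem two_elts [Finite G] {H : Subgroup G} (h : Nat.card ↥H = 2) {z c : G} (hz : z ∈ H)
    (hz1 : z ≠ 1) (hc : c ∈ H) : c = 1 ∨ c = z := by
  classical
  by_contra hcon
  obtain ⟨hc1, hcz⟩ := not_or.mp hcon
  have : Fintype ↥H := Fintype.ofFinite _
  have n2 : (⟨z, hz⟩ : ↥H) ∉ ({⟨c, hc⟩} : Finset ↥H) := by
    rw [Finset.mem_singleton]
    intro h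
    exact hcz (congrArg Subtype.val h).symm
  have n1 : (1 : ↥H) ∉ insert (⟨z, hz⟩ : ↥H) ({⟨c, hc⟩} : Finset ↥H) := by
    rw [Finset.mem_insert, Finset.mem_singleton]
    rintro (h | h)
    · exact hz1 (congrArg Subtype.val h).symm
    · exact hc1 (congrArg Subtype.val h).symm
  have h3 : (insert (1 : ↥H) (insert (⟨z, hz⟩ : ↥H) ({⟨c, hc⟩} : Finset ↥H))).card = 3 := by
    rw [Finset.card_insert_of_notMem n1, Finset.card_insert_of_notMem n2, Finset.card_singleton]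
  have hle := Finset.card_le_univ (insert (1 : ↥H) (insert (⟨z, hz⟩ : ↥H) ({⟨c, hc⟩} : Finset ↥H)))
  rw [h3, ← Nat.card_eq_fintype_card, h] at hle
  omega

/-- (i): no nontrivial subgroup of `T` normalized by `K` and `T` is normalized by an element of
`S ∖ T`. -/
theorem no_bigger [Finite G] (S : Sylow 2 G) (M T K L : Subgroup G) (hB : Base S M T K L)
    (U : Subgroup G) (hU : U ≠ ⊥) (hUT : U ≤ T)
    (hKU : K ≤ Subgroup.normalizer (U : Set G)) (hTU : T ≤ Subgroup.normalizer (U : Set G)) :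
    ∀ y ∈ (S : Subgroup G), y ∈ Subgroup.normalizer (U : Set G) → y ∈ T := by
  intro y hyS hyU
  have hTS : T ≤ (S : Subgroup G) := hB.2.2.2.2.2.1
  have hU2 : IsPGroup 2 ↥U := S.isPGroup'.to_le (hUT.trans hTS)
  have hloc : IsTwoLocal (Subgroup.normalizer (U : Set G)) := ⟨U, hU2, hU, rfl⟩
  obtain ⟨Lm, hLm, hle⟩ := Cfsg.Agent.Helper55.Uq.exists_maximalTwoLocal hloc
  have h1 : K ⊔ thompsonSubgroupOf 2 T ≤ Lm :=
    (sup_le hKU ((J_le T).trans hTU)).trans hle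
  have e1 := Cfsg.Agent.H20.Jy.base_unique S M T K L hB Lm hLm h1
  have hyL : y ∈ L := e1 ▸ hle hyU
  have h2 := Cfsg.Agent.H7.JyNotin.inf_eq S M T K L hB
  rw [← h2]
  exact ⟨hyS, hyL⟩

/-- facts about `Q = O₂(K ⊔ T)` -/
theorem core_facts [Finite G] (S : Sylow 2 G) (M T K L : Subgroup G) (hB : Base S M T K L) :
    pCoreOf 2 (K ⊔ T) ≠ ⊥ ∧ pCoreOf 2 (K ⊔ T) ≤ T ∧ pCoreOf 2 L ≤ pCoreOf 2 (K ⊔ T) ∧
    K ≤ Subgroup.normalizer (pCoreOf 2 (K ⊔ T) : Set G) ∧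
    T ≤ Subgroup.normalizer (pCoreOf 2 (K ⊔ T) : Set G) := by
  have hsyl : IsSylowTwoIn T L := Cfsg.Agent.H7.JyNotin.sylIn_of_base S M T K L hB
  have hKL : K ≤ L := le_sup_left.trans hB.2.2.2.2.2.2.2.2
  have hPL : K ⊔ T ≤ L := sup_le hKL hsyl.1
  have hne : pCoreOf 2 (K ⊔ T) ≠ ⊥ := hB.2.2.2.2.2.2.1.2.2
  have hsylP : IsSylowTwoIn T (K ⊔ T) := by
    refine ⟨le_sup_right, hsyl.2.1, ?_⟩
    have h := Subgroup.relIndex_mul_relIndex T (K ⊔ T) L le_sup_right hPL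
    have h' : Odd (T.relIndex (K ⊔ T) * (K ⊔ T).relIndex L) := by rw [h]; exact hsyl.2.2
    exact (Nat.odd_mul.mp h').1
  have hQT : pCoreOf 2 (K ⊔ T) ≤ T := pCoreOf_le_of_sylowIn hsylP
  have hOL : pCoreOf 2 L ≤ pCoreOf 2 (K ⊔ T) :=
    Cfsg.Agent.H51.le_pCoreOf (p := 2) ((pCoreOf_le_of_sylowIn hsyl).trans le_sup_right)
      (hPL.trans (le_normalizer_pCoreOf L)) (Cfsg.Agent.Helper55.Uq.pCoreOf_isPGroup L)
  have hN := le_normalizer_pCoreOf (K ⊔ T)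
  exact ⟨hne, hQT, hOL, le_sup_left.trans hN, le_sup_right.trans hN⟩

/-- Step (1) of the kill: `V = Ω₁Z(O₂(L)) ≤ T'`. -/
theorem vLeT [Finite G] (S : Sylow 2 G) (M K L T' K' L' : Subgroup G)
    (hR : RCtx2 S M K L T' K' L') : omegaCenterOf (pCoreOf 2 L) ≤ T' := by
  obtain ⟨hB, hNS, hB', hne⟩ := hR
  obtain ⟨hV4, hV2, hNV, ⟨z, hzV, hz1, hzZ, hzO', -, -⟩, -, -⟩ :=
    Cfsg.Agent.H48.Jy.vfacts S M K L T' K' L' hB hNS hB' hne
  have hSL : (S : Subgroup G) ≤ L := Subgroup.le_normalizer.trans hNS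
  have hSV : (S : Subgroup G) ≤ Subgroup.normalizer (omegaCenterOf (pCoreOf 2 L) : Set G) := by
    rw [hNV]; exact hSL
  have hsylS : IsSylowTwoIn (S : Subgroup G) L :=
    Cfsg.Agent.H7.JyNotin.sylIn_of_base S M _ K L hB
  have hVS : omegaCenterOf (pCoreOf 2 L) ≤ (S : Subgroup G) :=
    ((Cfsg.Agent.H20.Jt.omegaCenterOf_le (pCoreOf 2 L)).trans inf_le_left).trans
      (pCoreOf_le_of_sylowIn hsylS)
  have hT'S : T' ≤ (S : Subgroup G) := hB'.2.2.2.2.2.1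
  obtain ⟨hQne, hQT, hOQ, hKQ, hTQ⟩ := core_facts S L T' K' L' hB'
  generalize hVdef : omegaCenterOf (pCoreOf 2 L) = V at *
  generalize hQdef : pCoreOf 2 (K' ⊔ T') = Q at *
  have hzQ : z ∈ Q := hOQ hzO'
  have hzT : z ∈ T' := hQT hzQ
  by_contra hVT
  obtain ⟨v, hvV, hvT⟩ := SetLike.not_le_iff_exists.mp hVT
  have hv2 : v * v = 1 := hV2 v hvV
  have hvinv : v⁻¹ = v := inv_eq_of_mul_eq_one_left hv2
  -- `V ⊓ T'` has order 2
  have hI2 : Nat.card ↥(V ⊓ T') = 2 := by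
    have hd : Nat.card ↥(V ⊓ T') ∣ Nat.card ↥V := Subgroup.card_dvd_of_le inf_le_left
    rw [hV4] at hd
    have h1 : Nat.card ↥(V ⊓ T') ≠ 1 := by
      intro h
      have hbot := Subgroup.card_eq_one.mp h
      have hz : z ∈ V ⊓ T' := ⟨hzV, hzT⟩
      rw [hbot, Subgroup.mem_bot] at hz
      exact hz1 hz
    have h4 : Nat.card ↥(V ⊓ T') ≠ 4 := by
      intro h
      have hEq : V ⊓ T' = V := Subgroup.eq_of_le_of_card_ge inf_le_left (by rw [h, hV4])
      exact hVT (hEq ▸ inf_le_right)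
    have hle : Nat.card ↥(V ⊓ T') ≤ 4 := Nat.le_of_dvd (by norm_num) hd
    have hpos : 0 < Nat.card ↥(V ⊓ T') := Nat.card_pos
    have h3 : Nat.card ↥(V ⊓ T') ≠ 3 := by
      intro h; rw [h] at hd; omega
    omega
  have hidx : ((V ⊓ T').subgroupOf V).index = 2 := by
    have h := Subgroup.card_mul_index ((V ⊓ T').subgroupOf V)
    rw [Nat.card_congr (Subgroup.subgroupOfEquivOfLe (inf_le_left : V ⊓ T' ≤ V)).toEquiv, hI2,
      hV4] at h
    omega
  have hprod : ∀ a ∈ V, ∀ b ∈ V, a ∉ T' → b ∉ T' → a * b ∈ V ⊓ T' := by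
    intro a ha b hb haT hbT
    have h := (Subgroup.mul_mem_iff_of_index_two hidx (a := (⟨a, ha⟩ : ↥V)) (b := ⟨b, hb⟩)).mpr
      (iff_of_false (fun h => haT (Subgroup.mem_subgroupOf.mp h).2)
        (fun h => hbT (Subgroup.mem_subgroupOf.mp h).2))
    exact Subgroup.mem_subgroupOf.mp h
  -- `v` normalizes `T'`
  have hvN : ∀ t ∈ T', v * t * v⁻¹ ∈ T' := by
    intro t ht
    have htS : t ∈ (S : Subgroup G) := hT'S ht
    have hw : t * v * t⁻¹ ∈ V := (Subgroup.mem_normalizer_iff.mp (hSV htS) v).mp hvV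
    have hwT : t * v * t⁻¹ ∉ T' := by
      intro h
      apply hvT
      have h5 := T'.mul_mem (T'.mul_mem (T'.inv_mem ht) h) ht
      have e : t⁻¹ * (t * v * t⁻¹) * t = v := by group
      rwa [e] at h5
    have h := (hprod v hvV _ hw hvT hwT).2
    have h2 := T'.mul_mem h ht
    have e : v * (t * v * t⁻¹) * t = v * t * v⁻¹ := by rw [hvinv]; group
    rwa [e] at h2
  -- `v` normalizes `Q`
  have hvQ : ∀ q ∈ Q, v * q * v⁻¹ ∈ Q := by
    intro q hq
    have hqT : q ∈ T' := hQT hq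
    have hqS : q ∈ (S : Subgroup G) := hT'S hqT
    have hc1 : v * q * v⁻¹ * q⁻¹ ∈ V := by
      have h1 : q * v⁻¹ * q⁻¹ ∈ V :=
        (Subgroup.mem_normalizer_iff.mp (hSV hqS) v⁻¹).mp (V.inv_mem hvV)
      have h5 := V.mul_mem hvV h1
      have e : v * (q * v⁻¹ * q⁻¹) = v * q * v⁻¹ * q⁻¹ := by group
      rwa [e] at h5
    have hc2 : v * q * v⁻¹ * q⁻¹ ∈ T' := T'.mul_mem (hvN q hqT) (T'.inv_mem hqT)
    have hc : v * q * v⁻¹ * q⁻¹ = 1 ∨ v * q * v⁻¹ * q⁻¹ = z :=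
      two_elts hI2 ⟨hzV, hzT⟩ hz1 ⟨hc1, hc2⟩
    have hcQ : v * q * v⁻¹ * q⁻¹ ∈ Q := by
      rcases hc with h | h
      · rw [h]; exact Q.one_mem
      · rw [h]; exact hzQ
    have h5 := Q.mul_mem hcQ hq
    have e : v * q * v⁻¹ * q⁻¹ * q = v * q * v⁻¹ := by group
    rwa [e] at h5
  have hvNQ : v ∈ Subgroup.normalizer (Q : Set G) := by
    rw [Subgroup.mem_normalizer_iff]
    intro h
    constructor
    · exact hvQ h
    · intro hh
      have h5 := hvQ _ hh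
      have e : v * (v * h * v⁻¹) * v⁻¹ = h := by
        rw [hvinv]
        calc v * (v * h * v) * v = (v * v) * h * (v * v) := by group
          _ = h := by rw [hv2]; group
      rwa [e] at h5
  exact hvT (no_bigger S L T' K' L' hB' Q hQne hQT hKQ hTQ v (hVS hvV) hvNQ)

/-- The same in the context of helper52's `StVKill`-style hypotheses, spelled out. -/
theorem vLeT' [Finite G] (S : Sylow 2 G) (M K L T' K' L' : Subgroup G)
    (hB : Base S M (S : Subgroup G) K L)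
    (hNS : Subgroup.normalizer ((S : Subgroup G) : Set G) ≤ L)
    (hB' : Base S L T' K' L') (hne : T' ≠ (S : Subgroup G)) :
    omegaCenterOf (pCoreOf 2 L) ≤ T' :=
  vLeT S M K L T' K' L' ⟨hB, hNS, hB', hne⟩

end Cfsg.Agent.H73.JyVT

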