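import Mathlib
import Cfsg.Agent.H52.JxDefs
import Cfsg.Agent.H73.JyVT
import Cfsg.Agent.H39.JzLex

/-!
# JX-STAR (X1), JX-PF (X2), JX-VNE (X3): pieces of JY-KILL2 (S2953, helper52's sub-project)

All three hypothesis-free, from `Cfsg.Agent.H73.JyVT` (`no_bigger`, `core_facts`, `vLeT`).
-/

set_option autoImplicit false
open Cfsg

namespace Cfsg.Agent.H73.Jx

open Cfsg.Agent.H64.Jz Cfsg.Agent.H64.Jy Cfsg.Agent.H52.Jx

universe u

/-- JX-STAR (X1). -/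
theorem star : StStar.{u} := by
  intro G _ _ S M T K L hB hne F hF hFT hPF hx
  have hTS : T ≤ (S : Subgroup G) := hB.2.2.2.2.2.1
  have hS2 : IsPGroup 2 ↥(S : Subgroup G) := S.isPGroup'
  obtain ⟨x, hxS, hxNT, hxT⟩ := Cfsg.Agent.H39.Jz.exists_normalizer_not_mem hS2 hTS hne
  exact hxT (Cfsg.Agent.H73.JyVT.no_bigger S M T K L hB F hF hFT (le_sup_left.trans hPF)
    (le_sup_right.trans hPF) x hxS (hx x hxS hxNT))

/-- JX-PF (X2). -/
theorem pf : StPF.{u} := by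
  intro G _ _ S M T K L hB
  obtain ⟨hne, hQT, -, hKQ, hTQ⟩ := Cfsg.Agent.H73.JyVT.core_facts S M T K L hB
  exact ⟨hQT, hne, sup_le hKQ hTQ⟩

/-- JX-VNE (X3). -/
theorem vne : StVne.{u} := by
  intro G _ _ S M K L T' K' L' hR
  refine ⟨?_, Cfsg.Agent.H73.JyVT.vLeT S M K L T' K' L' hR⟩
  obtain ⟨hB, hNS, hB', hne⟩ := hR
  obtain ⟨-, -, -, ⟨z, hzV, hz1, -⟩, -, -⟩ :=
    Cfsg.Agent.H48.Jy.vfacts S M K L T' K' L' hB hNS hB' hne
  intro h0
  have hz : z ∈ Vof L := hzV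
  rw [h0, Subgroup.mem_bot] at hz
  exact hz1 hz

example : Cfsg.Agent.H52.Jx.StStar.{u} := star
example : Cfsg.Agent.H52.Jx.StPF.{u} := pf
example : Cfsg.Agent.H52.Jx.StVne.{u} := vne

end Cfsg.Agent.H73.Jx

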