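import Mathlib

set_option autoImplicit false

namespace Cfsg.Agent.H73.Fz

open Polynomial

section
variable {F : Type*} [Field F] {W : Type*} [AddCommGroup W] [Module F W]

/-- commutation of `Xo` past polynomials in `C` -/
theorem xo_aeval (a : ℕ) (C Xo : Module.End F W) (hXC : Xo * C = C ^ a * Xo) (f : F[X]) :
    Xo * aeval C f = aeval C (f.comp (X ^ a)) * Xo := by
  have hpow : ∀ n : ℕ, Xo * C ^ n = (C ^ a) ^ n * Xo := by
    intro n
    induction n with
    | zero => simp
    | succ n ih => rw [pow_succ, ← mul_assoc, ih, mul_assoc, hXC, ← mul_assoc, ← pow_succ]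
  induction f using Polynomial.induction_on' with
  | add f g hf hg => simp only [map_add, add_comp, mul_add, add_mul, hf, hg]
  | monomial n c =>
    rw [← C_mul_X_pow_eq_monomial]
    simp only [map_mul, aeval_C, map_pow, aeval_X, mul_comp, C_comp, pow_comp, X_comp]
    rw [Algebra.algebraMap_eq_smul_one, smul_mul_assoc, one_mul, mul_smul_comm, hpow,
      smul_mul_assoc, one_mul, smul_mul_assoc]

theorem hhb_lin_aux [FiniteDimensional F W] (v a : ℕ) (C Xo : Module.End F W)
    (hXC : Xo * C = C ^ a * Xo) (hNv : (C - 1) ^ v = 0) (w' : W) (hw' : w' ≠ 0)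
    (g : F[X]) (hg : g.eval 1 = 1) (hXw : Xo w' = aeval C g w') :
    ∃ w : W, w ≠ 0 ∧ Xo w = w := by
  classical
  by_contra hcon
  push Not at hcon
  set N : Module.End F W := C - 1 with hN
  set T : Module.End F W := Xo - 1 with hT
  have hinj : Function.Injective T := by
    rw [injective_iff_map_eq_zero]
    intro w hw
    by_contra hw0
    apply hcon w hw0
    have : Xo w - w = 0 := by simpa [hT] using hw
    exact sub_eq_zero.1 this
  let Λ : F[X] →ₗ[F] W :=
    { toFun := fun f => aeval C f w'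
      map_add' := by intro x y; simp
      map_smul' := by intro c x; simp }
  have hΛ : ∀ f, Λ f = aeval C f w' := fun f => rfl
  have hstep : ∀ f : F[X], ∃ q : F[X], T (Λ f) = N (Λ q) := by
    intro f
    have hroot : (f.comp (X ^ a) * g - f).IsRoot 1 := by
      simp [IsRoot, hg]
    obtain ⟨q, hq⟩ := dvd_iff_isRoot.2 hroot
    refine ⟨q, ?_⟩
    have h1 : Xo (Λ f) = aeval C (f.comp (X ^ a) * g) w' := by
      rw [hΛ]
      have := congrArg (fun L : Module.End F W => L w') (xo_aeval a C Xo hXC f)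
      simp only [Module.End.mul_apply] at this
      rw [this, hXw, map_mul, Module.End.mul_apply]
    have h2 : T (Λ f) = aeval C (f.comp (X ^ a) * g - f) w' := by
      rw [hT, LinearMap.sub_apply, h1, hΛ, map_sub, LinearMap.sub_apply]
      simp
    rw [h2, hq, map_mul, Module.End.mul_apply, hΛ]
    simp [hN]
  set M : Submodule F W := LinearMap.range Λ with hM
  have hTM : M.map T ≤ M := by
    rintro x ⟨y, ⟨f, rfl⟩, rfl⟩
    obtain ⟨q, hq⟩ := hstep f
    refine ⟨(X - Polynomial.C 1) * q, ?_⟩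
    rw [hq, hΛ, hΛ, map_mul, Module.End.mul_apply]
    simp [hN]
  have hfin : Module.finrank F (M.map T) = Module.finrank F M :=
    (Submodule.equivMapOfInjective T hinj M).finrank_eq.symm
  have hMeq : M.map T = M := Submodule.eq_of_le_of_finrank_eq hTM hfin
  have hiter : ∀ k : ℕ, ∀ f : F[X], ∃ q : F[X], Λ f = (N ^ k) (Λ q) := by
    intro k
    induction k with
    | zero => intro f; exact ⟨f, by simp⟩
    | succ k ih =>
      intro f
      obtain ⟨q, hq⟩ := ih f
      have hmem : Λ q ∈ M.map T := by rw [hMeq]; exact ⟨q, rfl⟩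
      obtain ⟨y, ⟨f', rfl⟩, hy⟩ := hmem
      obtain ⟨q', hq'⟩ := hstep f'
      refine ⟨q', ?_⟩
      rw [hq, ← hy, hq', pow_succ, Module.End.mul_apply]
  obtain ⟨q, hq⟩ := hiter v 1
  apply hw'
  have : Λ 1 = w' := by simp [hΛ]
  rw [← this, hq, hNv]
  simp

end

theorem hhb_lin {F : Type*} [Field F] {W : Type*} [AddCommGroup W] [Module F W]
    [FiniteDimensional F W] (v p a : ℕ) [Fact v.Prime] [CharP F v] (hp : p.Prime)
    (ha1 : ¬ a ≡ 1 [MOD v]) (hap : a ^ p ≡ 1 [MOD v])
    (C Xo : Module.End F W) (hX : Xo ^ p = 1) (hCv : C ^ v = 1)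
    (hXC : Xo * C = C ^ a * Xo) (hC : (C - 1) ^ (v - 2) ≠ 0) :
    ∃ w : W, w ≠ 0 ∧ Xo w = w := by
  classical
  have hv : v.Prime := Fact.out
  have : Fact p.Prime := ⟨hp⟩
  set α : F := (a : F) with hα
  have hα1 : α ≠ 1 := by
    intro h
    apply ha1
    have h' : ((a : ℕ) : F) = ((1 : ℕ) : F) := by simpa using h
    exact (CharP.natCast_eq_natCast F v).1 h'
  have hαp : α ^ p = 1 := by
    have h' : ((a ^ p : ℕ) : F) = ((1 : ℕ) : F) := (CharP.natCast_eq_natCast F v).2 hap
    simpa using h'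
  have hα0 : α ≠ 0 := by
    intro h
    rw [h, zero_pow hp.ne_zero] at hαp
    exact zero_ne_one hαp
  have hord : orderOf α = p := orderOf_eq_prime hαp hα1
  have hfrob : α ^ v = α := by
    have h' := map_natCast (frobenius F v) a
    rwa [frobenius_def] at h'
  have hαv : α ^ (v - 1) = 1 := by
    have h' : α * α ^ (v - 1) = α * 1 := by
      rw [← pow_succ', Nat.sub_add_cancel hv.one_lt.le, hfrob, mul_one]
    exact mul_left_cancel₀ hα0 h'
  have hpv : p ≤ v - 1 := by
    have hdvd : p ∣ v - 1 := hord ▸ orderOf_dvd_of_pow_eq_one hαv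
    exact Nat.le_of_dvd (Nat.sub_pos_of_lt hv.one_lt) hdvd
  have hpF : (p : F) ≠ 0 := by
    intro h
    have hdvd : v ∣ p := (CharP.cast_eq_zero_iff F v p).1 h
    have := Nat.le_of_dvd hp.pos hdvd
    have := hp.pos
    omega
  set N : Module.End F W := C - 1 with hN
  -- N ^ v = 0
  have hNv : N ^ v = 0 := by
    have hpoly : ((X : F[X]) - 1) ^ v = X ^ v - 1 := by
      rw [sub_pow_char, one_pow]
    have h' := congrArg (aeval C) hpoly
    simpa [hCv, hN] using h'
  -- the eigen-projections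
  set b : F := α⁻¹ with hb
  have hbp : b ^ p = 1 := by rw [hb, inv_pow, hαp, inv_one]
  let e : ℕ → Module.End F W := fun j => ∑ i ∈ Finset.range p, (b ^ j • Xo) ^ i
  have he1 : ∀ j, (b ^ j • Xo) * e j = e j := by
    intro j
    have h' : (b ^ j • Xo - 1) * e j = (b ^ j • Xo) ^ p - 1 := mul_geom_sum _ _
    have h'' : (b ^ j • Xo) ^ p = 1 := by
      rw [_root_.smul_pow, hX, ← pow_mul, mul_comm, pow_mul, hbp, one_pow, one_smul]
    rw [h'', sub_self, sub_mul, one_mul, sub_eq_zero] at h'
    exact h'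
  have hesum : ∑ j ∈ Finset.range p, e j = (p : F) • (1 : Module.End F W) := by
    have hterm : ∀ i ∈ Finset.range p, ∑ j ∈ Finset.range p, (b ^ j • Xo) ^ i =
        if i = 0 then (p : F) • (1 : Module.End F W) else 0 := by
      intro i hi
      by_cases hi0 : i = 0
      · subst hi0
        simp [Nat.cast_smul_eq_nsmul]
      · rw [if_neg hi0]
        have hbi : b ^ i ≠ 1 := by
          intro h
          have hαi : α ^ i = 1 := by
            have : (α ^ i)⁻¹ = 1 := by rw [← inv_pow, ← hb, h]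
            simpa using this
          have hdvd : p ∣ i := hord ▸ orderOf_dvd_of_pow_eq_one hαi
          have := Nat.le_of_dvd (Nat.pos_of_ne_zero hi0) hdvd
          have := Finset.mem_range.1 hi
          omega
        have hgeom : ∑ j ∈ Finset.range p, (b ^ i) ^ j = 0 := by
          have h' : (b ^ i - 1) * ∑ j ∈ Finset.range p, (b ^ i) ^ j = (b ^ i) ^ p - 1 :=
            mul_geom_sum _ _
          have hbip : (b ^ i) ^ p = 1 := by rw [← pow_mul, mul_comm, pow_mul, hbp, one_pow]
          rw [hbip, sub_self] at h'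
          exact (mul_eq_zero.1 h').resolve_left (sub_ne_zero.2 hbi)
        have : ∀ j ∈ Finset.range p, (b ^ j • Xo) ^ i = (b ^ i) ^ j • Xo ^ i := by
          intro j _
          rw [_root_.smul_pow, ← pow_mul, ← pow_mul, mul_comm]
        rw [Finset.sum_congr rfl this, ← Finset.sum_smul, hgeom, zero_smul]
    show ∑ j ∈ Finset.range p, ∑ i ∈ Finset.range p, (b ^ j • Xo) ^ i = _
    rw [Finset.sum_comm, Finset.sum_congr rfl hterm, Finset.sum_ite_eq']
    simp [hp.pos]
  -- an eigenvector not killed by N ^ (v - 2)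
  have hex : ∃ j ∈ Finset.range p, N ^ (v - 2) * e j ≠ 0 := by
    by_contra hcon
    push Not at hcon
    have h' : N ^ (v - 2) * ∑ j ∈ Finset.range p, e j = 0 := by
      rw [Finset.mul_sum]
      exact Finset.sum_eq_zero hcon
    rw [hesum, mul_smul_comm, mul_one] at h'
    exact hC ((smul_eq_zero.1 h').resolve_left hpF)
  obtain ⟨j, hj, hNe⟩ := hex
  have hj' : j < p := Finset.mem_range.1 hj
  obtain ⟨w, hw⟩ : ∃ w : W, (N ^ (v - 2) * e j) w ≠ 0 := by
    by_contra hcon
    push Not at hcon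
    exact hNe (LinearMap.ext fun w => by simpa using hcon w)
  set w₀ : W := e j w with hw₀
  have hXw₀ : Xo w₀ = α ^ j • w₀ := by
    have h' : (b ^ j • Xo) w₀ = w₀ := by
      have := congrArg (fun L : Module.End F W => L w) (he1 j)
      simpa [Module.End.mul_apply] using this
    rw [LinearMap.smul_apply] at h'
    have h'' : α ^ j • (b ^ j • Xo w₀) = α ^ j • w₀ := by rw [h']
    rw [smul_smul, ← mul_pow, hb, mul_inv_cancel₀ hα0, one_pow, one_smul] at h''
    exact h''
  -- the shift
  obtain ⟨i₀, hi₀, hαi₀⟩ : ∃ i₀ : ℕ, i₀ ≤ v - 2 ∧ α ^ (j + i₀) = 1 := by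
    by_cases hj0 : j = 0
    · exact ⟨0, Nat.zero_le _, by simp [hj0]⟩
    · refine ⟨p - j, by omega, ?_⟩
      rw [Nat.add_sub_cancel' hj'.le, hαp]
  set w' : W := (N ^ i₀) w₀ with hw'
  have hw'0 : w' ≠ 0 := by
    intro h
    apply hw
    have hsplit : v - 2 = (v - 2 - i₀) + i₀ := by omega
    rw [Module.End.mul_apply, ← hw₀, hsplit, pow_add, Module.End.mul_apply, ← hw', h, map_zero]
  -- the polynomial σ
  set σ : F[X] := ∑ l ∈ Finset.range a, X ^ l with hσ
  have hσmul : ((X : F[X]) - 1) * σ = X ^ a - 1 := mul_geom_sum _ _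
  have hσ1 : σ.eval 1 = α := by
    simp [hσ, eval_finsetSum, hα]
  set g : F[X] := Polynomial.C (α ^ j) * σ ^ i₀ with hg
  have hg1 : g.eval 1 = 1 := by
    rw [hg, eval_mul, eval_C, eval_pow, hσ1, ← pow_add, hαi₀]
  have hNi : N ^ i₀ = aeval C (((X : F[X]) - 1) ^ i₀) := by
    simp [hN]
  have hXw' : Xo w' = aeval C g w' := by
    have h1 := congrArg (fun L : Module.End F W => L w₀)
      (xo_aeval a C Xo hXC (((X : F[X]) - 1) ^ i₀))
    simp only [Module.End.mul_apply] at h1
    rw [hw', hNi, h1, hXw₀]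
    have hcomp : (((X : F[X]) - 1) ^ i₀).comp (X ^ a) = σ ^ i₀ * (X - 1) ^ i₀ := by
      rw [pow_comp, sub_comp, X_comp, one_comp, ← hσmul, mul_pow, mul_comm]
    rw [hcomp, map_smul, hg, map_mul, map_mul, Module.End.mul_apply, Module.End.mul_apply,
      aeval_C, Algebra.algebraMap_eq_smul_one, LinearMap.smul_apply, Module.End.one_apply]
  exact hhb_lin_aux v a C Xo hXC hNv w' hw'0 g hg1 hXw'

end Cfsg.Agent.H73.Fz
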