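import Mathlib
import Cfsg.Agent.H74.W2PDefs

set_option autoImplicit false

namespace Cfsg.Agent.H73.W2P

open Cfsg.Agent.H74.W2P Equiv MulAction

variable {Ω : Type*} [Fintype Ω] [DecidableEq Ω]

/-- each `x`-cycle has exactly `p` points -/
theorem card_cycle {G : Subgroup (Perm Ω)} {p : ℕ} {x : Perm Ω} (hyp : Hyp G p x) (a : Ω) :
    (Finset.univ.filter (fun ω => x.SameCycle a ω)).card = p := by
  have hxa : x a ≠ a := hyp.hxfix a
  have hcyc := Equiv.Perm.isCycle_cycleOf x hxa
  have h1 : orderOf (x.cycleOf a) ∣ p := hyp.hxord ▸ Equiv.Perm.orderOf_cycleOf_dvd_orderOf x a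
  have h2 : orderOf (x.cycleOf a) ≠ 1 := by
    intro h
    rw [orderOf_eq_one_iff] at h
    have := Equiv.Perm.cycleOf_apply_self x a
    rw [h] at this
    exact hxa this.symm
  have h3 : orderOf (x.cycleOf a) = p := ((Nat.dvd_prime hyp.hp).mp h1).resolve_left h2
  rw [hcyc.orderOf] at h3
  rw [← h3]
  congr 1
  ext ω
  simp only [Finset.mem_filter, Finset.mem_univ, true_and]
  exact (Equiv.Perm.mem_support_cycleOf_iff' hxa).symm

/-- there are exactly two `x`-cycles -/
theorem two_cycles {G : Subgroup (Perm Ω)} {p : ℕ} {x : Perm Ω} (hyp : Hyp G p x) (a b : Ω)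
    (hab : ¬ x.SameCycle a b) (ω : Ω) : x.SameCycle a ω ∨ x.SameCycle b ω := by
  have hdisj : Disjoint (Finset.univ.filter (fun ω => x.SameCycle a ω))
      (Finset.univ.filter (fun ω => x.SameCycle b ω)) := by
    rw [Finset.disjoint_left]
    intro ω h1 h2
    simp only [Finset.mem_filter, Finset.mem_univ, true_and] at h1 h2
    exact hab (h1.trans h2.symm)
  have hcard : ((Finset.univ.filter (fun ω => x.SameCycle a ω)) ∪
      (Finset.univ.filter (fun ω => x.SameCycle b ω))).card = Fintype.card Ω := by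
    rw [Finset.card_union_of_disjoint hdisj, card_cycle hyp a, card_cycle hyp b, hyp.hcard]
    ring
  have huniv := Finset.eq_univ_of_card _ hcard
  have hmem : ω ∈ (Finset.univ.filter (fun ω => x.SameCycle a ω)) ∪
      (Finset.univ.filter (fun ω => x.SameCycle b ω)) := by
    rw [huniv]; exact Finset.mem_univ ω
  simpa using hmem

/-- a point outside the cycle of `a` -/
theorem exists_not_sameCycle {G : Subgroup (Perm Ω)} {p : ℕ} {x : Perm Ω} (hyp : Hyp G p x)
    (a : Ω) : ∃ b : Ω, ¬ x.SameCycle a b := by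
  by_contra hcon
  push Not at hcon
  have h1 : (Finset.univ.filter (fun ω => x.SameCycle a ω)) = Finset.univ := by
    ext ω; simp [hcon ω]
  have h2 := card_cycle hyp a
  rw [h1, Finset.card_univ, hyp.hcard] at h2
  have := hyp.hp.pos
  omega

/-- the complement of a cycle has `p` points -/
theorem card_compl_cycle {G : Subgroup (Perm Ω)} {p : ℕ} {x : Perm Ω} (hyp : Hyp G p x) (a : Ω) :
    (Finset.univ.filter (fun ω => ¬ x.SameCycle a ω)).card = p := by
  have h := Finset.card_filter_add_card_filter_not (s := (Finset.univ : Finset Ω))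
    (fun ω => x.SameCycle a ω)
  rw [card_cycle hyp a, Finset.card_univ, hyp.hcard] at h
  omega

/-- `σ` has sum `0` -/
theorem sum_sig {G : Subgroup (Perm Ω)} {p : ℕ} {x : Perm Ω} (hyp : Hyp G p x) (a₀ : Ω) :
    ∑ ω, sig x a₀ ω = 0 := by
  unfold sig
  rw [Finset.sum_ite, Finset.sum_const, Finset.sum_const, card_cycle hyp a₀,
    card_compl_cycle hyp a₀]
  simp

end Cfsg.Agent.H73.W2P
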