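import Mathlib
import Cfsg.Agent.H95.OhDefs

namespace Cfsg.Agent.H73.Oh

open Cfsg.Agent.H95.Oh

/-- `c = i` or `2 i` according to the parity of `i` is even and positive. -/
theorem ar_c_even (i c : ℕ) (hi : 0 < i) (hc : c = (if Even i then i else 2 * i)) :
    ∃ c', c = 2 * c' ∧ 0 < c' := by
  by_cases h : Even i
  · rw [if_pos h] at hc
    obtain ⟨t, ht⟩ := h
    exact ⟨t, by omega, by omega⟩
  · rw [if_neg h] at hc
    exact ⟨i, hc, hi⟩

theorem arBackH : StArBackH := by
  intro n m i c k₀ a hn hm hm2 hmn hi hc hnk h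
  obtain ⟨c', hc', hc'pos⟩ := ar_c_even i c hi hc
  obtain ⟨m', hm'⟩ := hm
  obtain ⟨n', hn'⟩ := hn
  have hdm := Nat.div_add_mod m c
  have hnc : n % c = k₀ % c := by rw [hnk]; exact Nat.add_mul_mod_self_left _ _ _
  have hk0 : k₀ % c ≤ k₀ := Nat.mod_le _ _
  have hmodeven : m % c = 2 * (m' % c') := by
    rw [hm', hc', ← two_mul]; exact Nat.mul_mod_mul_left 2 m' c'
  have hca : c * a = 2 * (c' * a) := by rw [hc']; ring
  by_cases hle : m / c ≤ a
  · have h1 : c * (m / c) ≤ c * a := Nat.mul_le_mul_left c hle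
    refine ⟨m / c, m % c, by omega, ⟨m' % c', by omega⟩, ?_, hdm, ?_⟩
    · rcases h with ⟨_, _, h | h⟩ | ⟨_, _, h, _⟩ <;> omega
    · intro he
      rcases h with ⟨ho, _⟩ | ⟨hie, _, _, h | h⟩
      · exact Or.inl ho
      · omega
      · right; rw [if_pos hie] at hc; rw [hc]; exact h
  · have hle' : a + 1 ≤ m / c := by omega
    have h1 : c * (a + 1) ≤ c * (m / c) := Nat.mul_le_mul_left c hle'
    have h2 : c * (a + 1) = c * a + c := by ring
    refine ⟨a, m - c * a, by omega, ⟨m' - c' * a, by omega⟩, by omega, by omega, ?_⟩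
    intro he; exfalso; omega

theorem arBackE : StArBackE := by
  intro n m i c k₀ a hn hm hm2 hmn hi hc hnk h
  obtain ⟨c', hc', hc'pos⟩ := ar_c_even i c hi hc
  obtain ⟨m', hm'⟩ := hm
  obtain ⟨n', hn'⟩ := hn
  have hdm := Nat.div_add_mod m c
  have hnc : n % c = k₀ % c := by rw [hnk]; exact Nat.add_mul_mod_self_left _ _ _
  have hk0 : k₀ % c ≤ k₀ := Nat.mod_le _ _
  have hmodeven : m % c = 2 * (m' % c') := by
    rw [hm', hc', ← two_mul]; exact Nat.mul_mod_mul_left 2 m' c'
  have hca : c * a = 2 * (c' * a) := by rw [hc']; ring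
  by_cases hle : m / c ≤ a
  · have h1 : c * (m / c) ≤ c * a := Nat.mul_le_mul_left c hle
    refine ⟨m / c, m % c, by omega, ⟨m' % c', by omega⟩, ?_, hdm, ?_⟩
    · rcases h with ⟨_, _, h⟩ | ⟨_, _, h, _⟩ <;> omega
    · intro he
      rcases h with ⟨ho, _, h, _⟩ | ⟨hie, _, _, h | h⟩
      · omega
      · omega
      · rw [if_pos hie] at hc
        rw [← hc] at h
        rintro (ho | hev)
        · exact (Nat.not_even_iff_odd.mpr ho) hie
        · exact (Nat.not_even_iff_odd.mpr h) hev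
  · have hle' : a + 1 ≤ m / c := by omega
    have h1 : c * (a + 1) ≤ c * (m / c) := Nat.mul_le_mul_left c hle'
    have h2 : c * (a + 1) = c * a + c := by ring
    refine ⟨a, m - c * a, by omega, ⟨m' - c' * a, by omega⟩, by omega, by omega, ?_⟩
    intro he; exfalso; omega

example : StArBackH := arBackH
example : StArBackE := arBackE

end Cfsg.Agent.H73.Oh
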