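import Mathlib
import Cfsg.Agent.H95.OhDefs
import Cfsg.Agent.H73.OhArBack

namespace Cfsg.Agent.H73.Oh

open Cfsg.Agent.H95.Oh

theorem arFwdH : StArFwdH := by
  intro n m i c kW j hn hm hm2 hi hc hmk hnj hkW h0 hnot
  obtain ⟨c', hc', hc'pos⟩ := ar_c_even i c hi hc
  obtain ⟨m', hm'⟩ := hm
  obtain ⟨n', hn'⟩ := hn
  have hcpos : 0 < c := by omega
  have hnc : n % c < c := Nat.mod_lt _ hcpos
  have hkc : kW < c := by omega
  have hmod : m % c = kW := by
    rw [hmk, Nat.add_mul_mod_self_left]; exact Nat.mod_eq_of_lt hkc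
  have hdiv : m / c = j := by
    rw [hmk, Nat.add_mul_div_left _ _ hcpos, Nat.div_eq_of_lt hkc, zero_add]
  have hcj : c * j = 2 * (c' * j) := by rw [hc']; ring
  have hnodd : n % c % 2 = 1 := by
    have : n % c % 2 = n % 2 := Nat.mod_mod_of_dvd n ⟨c', hc'⟩
    omega
  have hlt : kW < n % c := by omega
  have hcm : c ≤ m := by
    by_contra hcon
    have := Nat.mod_eq_of_lt (show m < c by omega)
    exact hnot ⟨by omega, by omega⟩
  by_cases hie : Even i
  · right
    have hci : c = i := by rw [if_pos hie] at hc; exact hc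
    refine ⟨hie, by omega, by omega, ?_⟩
    by_cases hk0 : kW = 0
    · right
      rcases h0 hk0 with ho | he
      · exact absurd hie (Nat.not_even_iff_odd.mpr ho)
      · rw [← hci, hdiv]; exact he
    · left; omega
  · left
    exact ⟨Nat.not_even_iff_odd.mp hie, hcm, by omega⟩

theorem arFwdE : StArFwdE := by
  intro n m i c kW j hn hm hm2 hi hc hmk hnj hkW h0 hnot
  obtain ⟨c', hc', hc'pos⟩ := ar_c_even i c hi hc
  obtain ⟨m', hm'⟩ := hm
  obtain ⟨n', hn'⟩ := hn
  have hcpos : 0 < c := by omega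
  have hnc : n % c < c := Nat.mod_lt _ hcpos
  have hkc : kW < c := by omega
  have hmod : m % c = kW := by
    rw [hmk, Nat.add_mul_mod_self_left]; exact Nat.mod_eq_of_lt hkc
  have hdiv : m / c = j := by
    rw [hmk, Nat.add_mul_div_left _ _ hcpos, Nat.div_eq_of_lt hkc, zero_add]
  have hcj : c * j = 2 * (c' * j) := by rw [hc']; ring
  have hnodd : n % c % 2 = 1 := by
    have : n % c % 2 = n % 2 := Nat.mod_mod_of_dvd n ⟨c', hc'⟩
    omega
  have hlt : kW < n % c := by omega
  have hcm : c ≤ m := by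
    by_contra hcon
    have := Nat.mod_eq_of_lt (show m < c by omega)
    exact hnot ⟨by omega, by omega⟩
  by_cases hie : Even i
  · right
    have hci : c = i := by rw [if_pos hie] at hc; exact hc
    refine ⟨hie, by omega, by omega, ?_⟩
    by_cases hk0 : kW = 0
    · right
      have hne := h0 hk0
      rw [← hci, hdiv]
      exact Nat.not_even_iff_odd.mp (fun he => hne (Or.inr he))
    · left; omega
  · left
    have hio : Odd i := Nat.not_even_iff_odd.mp hie
    refine ⟨hio, hcm, ?_, by omega⟩
    by_contra hk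
    exact h0 (by omega) (Or.inl hio)

example : StArFwdH := arFwdH
example : StArFwdE := arFwdE

end Cfsg.Agent.H73.Oh
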