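import Mathlib
import Cfsg.Agent.H95.OhDefs

namespace Cfsg.Agent.H73.Oh

open Cfsg.Agent.H45 Cfsg.Agent.H42.Spd Cfsg.Agent.H42.Ti Cfsg.Agent.H14.Ot Cfsg.Agent.H95.Oh Module

universe u v

/-- S5992-RESTRICT: an invariant nondegenerate subspace is an orthogonal context of its own. -/
theorem restrict : StRestrict.{u,v} := by
  intro F _ _ V _ _ _ r B T hC W hW hnd
  have hW' : ∀ x ∈ W, T x ∈ W := fun x hx => ((Module.End.mem_invtSubmodule T).mp hW) hx
  refine ⟨↥W, inferInstance, inferInstance, inferInstance, B.compl₁₂ W.subtype W.subtype,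
    T.restrict hW', W.subtype, ?_, Subtype.val_injective, Submodule.range_subtype W, ?_, ?_⟩
  · refine ⟨hC.prime, hC.ne_two, hC.cast_ne, hC.two_ne, ?_, ?_, ?_, ?_⟩
    · intro x y
      simp only [LinearMap.compl₁₂_apply]
      exact hC.symm _ _
    · intro x hx
      have hmem : (x : V) ∈ W ⊓ perp B W := by
        refine ⟨x.2, ?_⟩
        intro u hu
        have h1 := hx ⟨u, hu⟩
        simp only [LinearMap.compl₁₂_apply] at h1
        rw [hC.symm]
        exact h1
      rw [hnd] at hmem
      exact Subtype.ext ((Submodule.mem_bot F).mp hmem)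
    · intro x y
      simp only [LinearMap.compl₁₂_apply, Submodule.subtype_apply, LinearMap.coe_restrict_apply]
      exact hC.isom _ _
    · rw [Module.End.pow_restrict]
      ext x
      simp [hC.pow]
  · intro x
    rfl
  · intro x y
    rfl

example : StRestrict.{u,v} := restrict

end Cfsg.Agent.H73.Oh
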