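import Mathlib
import Cfsg.Agent.H95.OhDefs

namespace Cfsg.Agent.H73.Oh

open Cfsg.Agent.H45 Cfsg.Agent.H42.Spd Cfsg.Agent.H42.Ti Cfsg.Agent.H14.Ot Cfsg.Agent.H95.Oh Module

universe u v

/-- In a finite field, a product of two nonzero elements is a square iff both or none are. -/
theorem isSquare_mul_iff_ff {F : Type*} [Field F] [Fintype F] {a b : F} (ha : a ≠ 0)
    (hb : b ≠ 0) : IsSquare (a * b) ↔ (IsSquare a ↔ IsSquare b) := by
  classical
  rw [← quadraticChar_one_iff_isSquare ha, ← quadraticChar_one_iff_isSquare hb,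
    ← quadraticChar_one_iff_isSquare (mul_ne_zero ha hb), map_mul]
  rcases quadraticChar_dichotomy ha with h1 | h1 <;>
    rcases quadraticChar_dichotomy hb with h2 | h2 <;>
    rw [h1, h2] <;> norm_num

/-- `StDisc` for a family indexed by `Fin n` with `n = 2 t`. -/
theorem disc_cast (hD : StDisc.{u,v}) (F : Type u) [Field F] [Fintype F] (V : Type v)
    [AddCommGroup V] [Module F V] [FiniteDimensional F V] (B : V →ₗ[F] V →ₗ[F] F)
    (h2 : (2 : F) ≠ 0) (hsym : ∀ x y, B x y = B y x) (n t : ℕ) (hn : n = 2 * t)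
    (v : Fin n → V) (ho : ∀ a b, a ≠ b → B (v a) (v b) = 0) (hns : ∀ a, B (v a) (v a) ≠ 0) :
    Plus B (Submodule.span F (Set.range v)) ↔ IsSquare ((-1 : F) ^ t * ∏ a, B (v a) (v a)) := by
  subst hn
  exact hD F V B h2 hsym t v ho hns

/-- S5992-SUMTYPE. -/
theorem sumType (hO : StOrtho.{u,v}) (hD : StDisc.{u,v}) : StSumType.{u,v} := by
  intro F _ _ V _ _ _ B h2 hsym W₀ W₁ hnd₀ hnd₁ hperp he₀ he₁
  have horth : ∀ x ∈ W₀, ∀ y ∈ W₁, B x y = 0 := fun x hx y hy => hperp hy x hx
  have hinf : W₀ ⊓ W₁ = ⊥ := by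
    rw [eq_bot_iff]
    intro x hx
    rw [← hnd₀]
    exact ⟨hx.1, hperp hx.2⟩
  have hfin : Module.finrank F ↥(W₀ ⊔ W₁) = Module.finrank F W₀ + Module.finrank F W₁ := by
    have h := Submodule.finrank_sup_add_finrank_inf_eq W₀ W₁
    rw [hinf, finrank_bot] at h
    omega
  refine ⟨?_, hfin, ?_⟩
  · rw [eq_bot_iff]
    intro x hx
    obtain ⟨hx1, hx2⟩ := hx
    obtain ⟨w₀, hw₀, w₁, hw₁, rfl⟩ := Submodule.mem_sup.mp hx1
    have h0 : w₀ = 0 := by
      have hmem : w₀ ∈ W₀ ⊓ perp B W₀ := by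
        refine ⟨hw₀, fun u hu => ?_⟩
        have h := hx2 u (Submodule.mem_sup_left hu)
        rw [map_add, horth u hu w₁ hw₁, add_zero] at h
        exact h
      rw [hnd₀] at hmem
      exact (Submodule.mem_bot F).mp hmem
    have h1 : w₁ = 0 := by
      have hmem : w₁ ∈ W₁ ⊓ perp B W₁ := by
        refine ⟨hw₁, fun u hu => ?_⟩
        have h := hx2 u (Submodule.mem_sup_right hu)
        rw [map_add, hsym u w₀, horth w₀ hw₀ u hu, zero_add] at h
        exact h
      rw [hnd₁] at hmem
      exact (Submodule.mem_bot F).mp hmem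
    rw [h0, h1, add_zero]
    exact Submodule.zero_mem _
  · obtain ⟨t₀, ht₀⟩ := he₀
    obtain ⟨t₁, ht₁⟩ := he₁
    obtain ⟨v₀, hv₀m, hv₀o, hv₀n, hv₀s⟩ := hO F V B h2 hsym W₀ hnd₀
    obtain ⟨v₁, hv₁m, hv₁o, hv₁n, hv₁s⟩ := hO F V B h2 hsym W₁ hnd₁
    have hP₀ := disc_cast hD F V B h2 hsym _ t₀ (by omega) v₀ hv₀o hv₀n
    have hP₁ := disc_cast hD F V B h2 hsym _ t₁ (by omega) v₁ hv₁o hv₁n
    rw [hv₀s] at hP₀
    rw [hv₁s] at hP₁
    -- the concatenated family
    have hao : ∀ a b, a ≠ b →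
        B (Fin.append v₀ v₁ a) (Fin.append v₀ v₁ b) = 0 := by
      intro a b
      induction a using Fin.addCases with
      | left i =>
        induction b using Fin.addCases with
        | left j =>
          intro hab
          rw [Fin.append_left, Fin.append_left]
          exact hv₀o i j (fun h => hab (by rw [h]))
        | right j =>
          intro _
          rw [Fin.append_left, Fin.append_right]
          exact horth _ (hv₀m i) _ (hv₁m j)
      | right i =>
        induction b using Fin.addCases with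
        | left j =>
          intro _
          rw [Fin.append_left, Fin.append_right, hsym]
          exact horth _ (hv₀m j) _ (hv₁m i)
        | right j =>
          intro hab
          rw [Fin.append_right, Fin.append_right]
          exact hv₁o i j (fun h => hab (by rw [h]))
    have han : ∀ a, B (Fin.append v₀ v₁ a) (Fin.append v₀ v₁ a) ≠ 0 := by
      intro a
      induction a using Fin.addCases with
      | left i => rw [Fin.append_left]; exact hv₀n i
      | right i => rw [Fin.append_right]; exact hv₁n i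
    have hspan : Submodule.span F (Set.range (Fin.append v₀ v₁)) = W₀ ⊔ W₁ := by
      apply le_antisymm
      · rw [Submodule.span_le]
        rintro _ ⟨a, rfl⟩
        induction a using Fin.addCases with
        | left i => rw [Fin.append_left]; exact Submodule.mem_sup_left (hv₀m i)
        | right i => rw [Fin.append_right]; exact Submodule.mem_sup_right (hv₁m i)
      · apply sup_le
        · refine le_trans (le_of_eq hv₀s.symm) (Submodule.span_mono ?_)
          rintro _ ⟨i, rfl⟩
          exact ⟨Fin.castAdd _ i, Fin.append_left _ _ _⟩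
        · refine le_trans (le_of_eq hv₁s.symm) (Submodule.span_mono ?_)
          rintro _ ⟨i, rfl⟩
          exact ⟨Fin.natAdd _ i, Fin.append_right _ _ _⟩
    have hP := disc_cast hD F V B h2 hsym _ (t₀ + t₁) (by omega) (Fin.append v₀ v₁) hao han
    rw [hspan] at hP
    have hprod : (-1 : F) ^ (t₀ + t₁) *
        ∏ a, B (Fin.append v₀ v₁ a) (Fin.append v₀ v₁ a) =
        ((-1 : F) ^ t₀ * ∏ a, B (v₀ a) (v₀ a)) * ((-1 : F) ^ t₁ * ∏ a, B (v₁ a) (v₁ a)) := by
      rw [Fin.prod_univ_add]
      simp only [Fin.append_left, Fin.append_right]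
      ring
    have hne₀ : (-1 : F) ^ t₀ * ∏ a, B (v₀ a) (v₀ a) ≠ 0 :=
      mul_ne_zero (pow_ne_zero _ (neg_ne_zero.mpr one_ne_zero))
        (Finset.prod_ne_zero_iff.mpr (fun a _ => hv₀n a))
    have hne₁ : (-1 : F) ^ t₁ * ∏ a, B (v₁ a) (v₁ a) ≠ 0 :=
      mul_ne_zero (pow_ne_zero _ (neg_ne_zero.mpr one_ne_zero))
        (Finset.prod_ne_zero_iff.mpr (fun a _ => hv₁n a))
    rw [hP, hprod, isSquare_mul_iff_ff hne₀ hne₁, hP₀, hP₁]

example (hO : StOrtho.{u,v}) (hD : StDisc.{u,v}) : StSumType.{u,v} := sumType hO hD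

end Cfsg.Agent.H73.Oh
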