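import Mathlib

set_option autoImplicit false

namespace Cfsg.Agent.H73.D4

open scoped commutatorElement

section core

variable {E : Type*} [Group E]

/-- A central factor on the left of a commutator can be dropped. -/
theorem comm_central_left {z g h : E} (hz : ∀ k : E, k * z = z * k) : ⁅z * g, h⁆ = ⁅g, h⁆ := by
  have h1 : ⁅z * g, h⁆ = z * ⁅g, h⁆ * z⁻¹ * ⁅z, h⁆ := by
    simp only [commutatorElement_def]; group
  have h2 : ⁅z, h⁆ = 1 := commutatorElement_eq_one_iff_mul_comm.mpr (hz h).symm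
  rw [h1, h2, mul_one, ← hz ⁅g, h⁆, mul_inv_cancel_right]

/-- A central factor on the right of a commutator can be dropped. -/
theorem comm_central_right {z g h : E} (hz : ∀ k : E, k * z = z * k) : ⁅g, z * h⁆ = ⁅g, h⁆ := by
  rw [← commutatorElement_inv, comm_central_left hz, commutatorElement_inv]

/-- The Hall–Witt type computation: if `[xa, xβ] = d` and `[xβ, xγ] = b` modulo central elements,
`xa` commutes with `xγ`, `d` commutes with `b`, and `[d, xγ]` is central, then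
`[xa, b] = [d, xγ]`. -/
theorem hw_core (xa xβ xγ d b z1 z2 : E)
    (hz1 : ∀ g : E, g * z1 = z1 * g) (hz2 : ∀ g : E, g * z2 = z2 * g)
    (e1 : ⁅xa, xβ⁆ = z1 * d) (e2 : ⁅xβ, xγ⁆ = z2 * b)
    (hc1 : xa * xγ = xγ * xa) (hc2 : d * b = b * d)
    (hQ : ∀ g : E, g * ⁅d, xγ⁆ = ⁅d, xγ⁆ * g) :
    ⁅xa, b⁆ = ⁅d, xγ⁆ := by
  have S2 : xa * xγ * xa⁻¹ = xγ := by rw [hc1, mul_inv_cancel_right]
  have S3 : xa * xβ * xa⁻¹ = ⁅xa, xβ⁆ * xβ := by simp only [commutatorElement_def]; group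
  have hdc : d * ⁅xβ, xγ⁆ * d⁻¹ = ⁅xβ, xγ⁆ := by
    rw [e2, ← mul_assoc, hz2 d, mul_assoc z2 d b, hc2, mul_assoc z2, mul_inv_cancel_right]
  have S5 : ⁅d * xβ, xγ⁆ = d * ⁅xβ, xγ⁆ * d⁻¹ * ⁅d, xγ⁆ := by
    simp only [commutatorElement_def]; group
  calc ⁅xa, b⁆ = ⁅xa, z2 * b⁆ := (comm_central_right hz2).symm
    _ = ⁅xa, ⁅xβ, xγ⁆⁆ := by rw [e2]
    _ = xa * ⁅xβ, xγ⁆ * xa⁻¹ * ⁅xβ, xγ⁆⁻¹ := commutatorElement_def _ _
    _ = ⁅xa * xβ * xa⁻¹, xa * xγ * xa⁻¹⁆ * ⁅xβ, xγ⁆⁻¹ := by rw [conjugate_commutatorElement]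
    _ = ⁅z1 * (d * xβ), xγ⁆ * ⁅xβ, xγ⁆⁻¹ := by rw [S2, S3, e1, mul_assoc z1 d xβ]
    _ = ⁅d * xβ, xγ⁆ * ⁅xβ, xγ⁆⁻¹ := by rw [comm_central_left hz1]
    _ = d * ⁅xβ, xγ⁆ * d⁻¹ * ⁅d, xγ⁆ * ⁅xβ, xγ⁆⁻¹ := by rw [S5]
    _ = ⁅xβ, xγ⁆ * ⁅d, xγ⁆ * ⁅xβ, xγ⁆⁻¹ := by rw [hdc]
    _ = ⁅d, xγ⁆ := by rw [hQ, mul_inv_cancel_right]

end core

theorem orth_comm_odd {ι E K : Type*} [Group E] [Field K] (h2ne : (2 : K) ≠ 0)
    (A : Subgroup E) (hA : A ≤ Subgroup.center E)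
    (x : ι → K → E) (Adj : ι → ι → ι → K → Prop) (NonAdj Orth : ι → ι → Prop)
    (hε : ∀ β γ q ε, Adj β γ q ε → ε * ε = 1)
    (h1 : ∀ q t u, x q (t + u) * (x q t * x q u)⁻¹ ∈ A)
    (h2 : ∀ β γ q ε, Adj β γ q ε → ∀ t u, x β t * x γ u * (x β t)⁻¹ * (x γ u)⁻¹ * (x q (ε * t * u))⁻¹ ∈ A)
    (h3 : ∀ a b, NonAdj a b → ∀ t u, x a t * x b u * (x a t)⁻¹ * (x b u)⁻¹ ∈ A)
    (hex : ∀ a b, NonAdj a b → ¬ Orth a b → ∀ t u, x a t * x b u = x b u * x a t)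
    (cO : ∀ a b, NonAdj a b → Orth a b → ∃ β γ δ β' ε ε₁ ε' ε₁',
      Adj β γ b ε ∧ Adj a β δ ε₁ ∧ Adj β' δ b ε' ∧ Adj a β' γ ε₁' ∧ ε * ε₁ = ε' * ε₁' ∧
      (NonAdj a γ ∧ ¬ Orth a γ) ∧ (NonAdj a δ ∧ ¬ Orth a δ) ∧ (NonAdj δ b ∧ ¬ Orth δ b) ∧
      (NonAdj γ b ∧ ¬ Orth γ b) ∧ NonAdj δ γ) :
    ∀ a b, NonAdj a b → Orth a b → ∀ t u, x a t * x b u = x b u * x a t := by
  intro a b hab hO
  obtain ⟨β, γ, δ, β', ε, ε₁, ε', ε₁', hA1, hA2, hA3, hA4, hsign, ⟨hn1, ho1⟩, ⟨hn2, ho2⟩,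
    ⟨hn3, ho3⟩, ⟨hn4, ho4⟩, hn5⟩ := cO a b hab hO
  have hcen : ∀ z ∈ A, ∀ g : E, g * z = z * g :=
    fun z hz g => Subgroup.mem_center_iff.mp (hA hz) g
  have hP : ∀ s v, ⁅x a s, x b v⁆ ∈ A := fun s v => h3 a b hab s v
  have hQ : ∀ p r, ⁅x δ p, x γ r⁆ ∈ A := fun p r => h3 δ γ hn5 p r
  have hQ' : ∀ p r, ⁅x γ p, x δ r⁆ ∈ A := fun p r => by
    rw [← commutatorElement_inv]; exact A.inv_mem (hQ r p)
  have key1 : ∀ s t u, ⁅x a s, x b (ε * t * u)⁆ = ⁅x δ (ε₁ * s * t), x γ u⁆ := by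
    intro s t u
    exact hw_core (x a s) (x β t) (x γ u) (x δ (ε₁ * s * t)) (x b (ε * t * u))
      (⁅x a s, x β t⁆ * (x δ (ε₁ * s * t))⁻¹) (⁅x β t, x γ u⁆ * (x b (ε * t * u))⁻¹)
      (hcen _ (h2 a β δ ε₁ hA2 s t)) (hcen _ (h2 β γ b ε hA1 t u))
      (by rw [inv_mul_cancel_right]) (by rw [inv_mul_cancel_right])
      (hex a γ hn1 ho1 s u) (hex δ b hn3 ho3 _ _) (hcen _ (hQ _ _))
  have key2 : ∀ s t u, ⁅x a s, x b (ε' * t * u)⁆ = ⁅x γ (ε₁' * s * t), x δ u⁆ := by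
    intro s t u
    exact hw_core (x a s) (x β' t) (x δ u) (x γ (ε₁' * s * t)) (x b (ε' * t * u))
      (⁅x a s, x β' t⁆ * (x γ (ε₁' * s * t))⁻¹) (⁅x β' t, x δ u⁆ * (x b (ε' * t * u))⁻¹)
      (hcen _ (h2 a β' γ ε₁' hA4 s t)) (hcen _ (h2 β' δ b ε' hA3 t u))
      (by rw [inv_mul_cancel_right]) (by rw [inv_mul_cancel_right])
      (hex a δ hn2 ho2 s u) (hex γ b hn4 ho4 _ _) (hcen _ (hQ' _ _))
  have e1 : ε * ε = 1 := hε _ _ _ _ hA1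
  have e2 : ε₁ * ε₁ = 1 := hε _ _ _ _ hA2
  have e3 : ε' * ε' = 1 := hε _ _ _ _ hA3
  have e4 : ε₁' * ε₁' = 1 := hε _ _ _ _ hA4
  have key3 : ∀ p r, ⁅x δ p, x γ r⁆ = ⁅x a 1, x b (ε * ε₁ * p * r)⁆ := by
    intro p r
    have h := key1 1 (ε₁ * p) r
    have ha : ε₁ * 1 * (ε₁ * p) = p := by
      calc ε₁ * 1 * (ε₁ * p) = (ε₁ * ε₁) * p := by ring
        _ = p := by rw [e2, one_mul]
    have hb : ε * (ε₁ * p) * r = ε * ε₁ * p * r := by ring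
    rw [ha, hb] at h
    exact h.symm
  have key4 : ∀ w, ⁅x a 1, x b w⁆ = (⁅x a 1, x b w⁆)⁻¹ := by
    intro w
    have h := key2 1 1 (ε' * w)
    rw [← commutatorElement_inv (x δ (ε' * w)) (x γ (ε₁' * 1 * 1)), key3] at h
    have ha : ε' * 1 * (ε' * w) = w := by
      calc ε' * 1 * (ε' * w) = (ε' * ε') * w := by ring
        _ = w := by rw [e3, one_mul]
    have hb : ε * ε₁ * (ε' * w) * (ε₁' * 1 * 1) = w := by
      calc ε * ε₁ * (ε' * w) * (ε₁' * 1 * 1) = (ε * ε₁) * ε₁' * ε' * w := by ring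
        _ = (ε' * ε₁') * ε₁' * ε' * w := by rw [hsign]
        _ = (ε' * ε') * (ε₁' * ε₁') * w := by ring
        _ = w := by rw [e3, e4, one_mul, one_mul]
    rw [ha, hb] at h
    exact h
  have key5 : ∀ s v, ⁅x a s, x b v⁆ = ⁅x a 1, x b (s * v)⁆ := by
    intro s v
    have h := key1 s 1 (ε * v)
    rw [key3] at h
    have ha : ε * 1 * (ε * v) = v := by
      calc ε * 1 * (ε * v) = (ε * ε) * v := by ring
        _ = v := by rw [e1, one_mul]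
    have hb : ε * ε₁ * (ε₁ * s * 1) * (ε * v) = s * v := by
      calc ε * ε₁ * (ε₁ * s * 1) * (ε * v) = (ε * ε) * (ε₁ * ε₁) * (s * v) := by ring
        _ = s * v := by rw [e1, e2, one_mul, one_mul]
    rw [ha, hb] at h
    exact h
  have key6 : ∀ s v, ⁅x a s, x b v⁆ * ⁅x a s, x b v⁆ = 1 := by
    intro s v
    rw [key5 s v]
    calc ⁅x a 1, x b (s * v)⁆ * ⁅x a 1, x b (s * v)⁆
        = ⁅x a 1, x b (s * v)⁆ * (⁅x a 1, x b (s * v)⁆)⁻¹ := by rw [← key4 (s * v)]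
      _ = 1 := mul_inv_cancel _
  have key7 : ∀ s s' v, ⁅x a (s + s'), x b v⁆ = ⁅x a s, x b v⁆ * ⁅x a s', x b v⁆ := by
    intro s s' v
    have hz := hcen _ (h1 a s s')
    have e : x a (s + s') = (x a (s + s') * (x a s * x a s')⁻¹) * (x a s * x a s') := by
      rw [inv_mul_cancel_right]
    have hc := hcen _ (hP s' v)
    calc ⁅x a (s + s'), x b v⁆
        = ⁅(x a (s + s') * (x a s * x a s')⁻¹) * (x a s * x a s'), x b v⁆ :=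
          congrArg (fun g => ⁅g, x b v⁆) e
      _ = ⁅x a s * x a s', x b v⁆ := comm_central_left hz
      _ = x a s * ⁅x a s', x b v⁆ * (x a s)⁻¹ * ⁅x a s, x b v⁆ := by
          simp only [commutatorElement_def]; group
      _ = ⁅x a s', x b v⁆ * ⁅x a s, x b v⁆ := by rw [hc (x a s), mul_inv_cancel_right]
      _ = ⁅x a s, x b v⁆ * ⁅x a s', x b v⁆ := (hc _).symm
  intro t u
  have ht : t / 2 + t / 2 = t := by field_simp; ring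
  have hfin : ⁅x a t, x b u⁆ = 1 := by
    calc ⁅x a t, x b u⁆ = ⁅x a (t / 2 + t / 2), x b u⁆ := by rw [ht]
      _ = ⁅x a (t / 2), x b u⁆ * ⁅x a (t / 2), x b u⁆ := key7 _ _ _
      _ = 1 := key6 _ _
  exact commutatorElement_eq_one_iff_mul_comm.mp hfin

example {ι E K : Type*} [Group E] [Field K] (h2ne : (2 : K) ≠ 0)
    (A : Subgroup E) (hA : A ≤ Subgroup.center E)
    (x : ι → K → E) (Adj : ι → ι → ι → K → Prop) (NonAdj Orth : ι → ι → Prop)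
    (hε : ∀ β γ q ε, Adj β γ q ε → ε * ε = 1)
    (h1 : ∀ q t u, x q (t + u) * (x q t * x q u)⁻¹ ∈ A)
    (h2 : ∀ β γ q ε, Adj β γ q ε → ∀ t u, x β t * x γ u * (x β t)⁻¹ * (x γ u)⁻¹ * (x q (ε * t * u))⁻¹ ∈ A)
    (h3 : ∀ a b, NonAdj a b → ∀ t u, x a t * x b u * (x a t)⁻¹ * (x b u)⁻¹ ∈ A)
    (hex : ∀ a b, NonAdj a b → ¬ Orth a b → ∀ t u, x a t * x b u = x b u * x a t)
    (cO : ∀ a b, NonAdj a b → Orth a b → ∃ β γ δ β' ε ε₁ ε' ε₁',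
      Adj β γ b ε ∧ Adj a β δ ε₁ ∧ Adj β' δ b ε' ∧ Adj a β' γ ε₁' ∧ ε * ε₁ = ε' * ε₁' ∧
      (NonAdj a γ ∧ ¬ Orth a γ) ∧ (NonAdj a δ ∧ ¬ Orth a δ) ∧ (NonAdj δ b ∧ ¬ Orth δ b) ∧
      (NonAdj γ b ∧ ¬ Orth γ b) ∧ NonAdj δ γ) :
    ∀ a b, NonAdj a b → Orth a b → ∀ t u, x a t * x b u = x b u * x a t :=
  orth_comm_odd h2ne A hA x Adj NonAdj Orth hε h1 h2 h3 hex cO

end Cfsg.Agent.H73.D4
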