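import Mathlib
import Cfsg.Agent.H46.B2F3Defs
import Cfsg.Agent.H73.D4Odd

set_option autoImplicit false

/-! S2400-F3A: the lifts of the short root elements of B2 over the field with three elements. -/

namespace Cfsg.Agent.H73.B2F3

open Cfsg.Agent.H46.B2 Cfsg.Agent.H73.D4
open scoped commutatorElement

universe u v w

section aux

variable {G : Type v} [Group G] {E : Type w} [Group E]

theorem ker_central {ρ : E →* G} (hρc : ρ.ker ≤ Subgroup.center E) {z : E} (hz : ρ z = 1) :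
    ∀ g : E, g * z = z * g :=
  fun g => Subgroup.mem_center_iff.mp (hρc (MonoidHom.mem_ker.mpr hz)) g

theorem comm_of_map_eq {ρ : E →* G} (hρc : ρ.ker ≤ Subgroup.center E) {e e' : E}
    (h : ρ e = ρ e') : e * e' = e' * e := by
  have hz : ρ (e * e'⁻¹) = 1 := by rw [map_mul, map_inv, h, mul_inv_cancel]
  have h1 := ker_central hρc hz e'
  calc e * e' = (e * e'⁻¹ * e') * e' := by group
    _ = (e' * (e * e'⁻¹)) * e' := by rw [h1, mul_assoc (e * e'⁻¹)]
    _ = e' * e := by group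

theorem comm_of_map_eq_inv {ρ : E →* G} (hρc : ρ.ker ≤ Subgroup.center E) {e e' : E}
    (h : ρ e = (ρ e')⁻¹) : e * e' = e' * e := by
  have h1 : e * e'⁻¹ = e'⁻¹ * e := comm_of_map_eq hρc (by rw [map_inv, h])
  have hc : Commute e e'⁻¹ := h1
  exact (Commute.inv_right_iff.mp hc).eq

end aux

/-- S2400-F3A. -/
theorem pA : Cfsg.Agent.H46.B2.PA.{u, v, w} := by
  intro K _ G _ E _ ρ x h H
  obtain ⟨hK, h2, hρc, hx, hxl, ⟨hh0, hhh0⟩, hh, hS, hL⟩ := H
  have h3' : (3 : K) = 0 := by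
    rcases hK 2 with h | h | h
    · exact absurd h h2
    · exfalso
      have h1 : (1 : K) = 0 := by linear_combination h
      exact one_ne_zero h1
    · linear_combination h
  have h3 : ∀ t : K, -t + -t = t := by
    intro t
    linear_combination (-t) * h3'
  have hx0 : ∀ q < 8, x q 0 = 1 := by
    intro q hq
    have h1 := hx.add q hq 0 0
    rw [add_zero] at h1
    exact mul_eq_left.mp h1
  have hxinv : ∀ q < 8, ∀ t : K, (x q t)⁻¹ = x q (-t) := by
    intro q hq t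
    have h1 := hx.add q hq t (-t)
    rw [add_neg_cancel, hx0 q hq] at h1
    exact inv_eq_of_mul_eq_one_right h1
  have hex : ∀ (q : ℕ) (t : K), ∃ e : E, q < 8 → ρ e = x q t := by
    intro q t
    by_cases hq : q < 8
    · obtain ⟨e, he⟩ := hxl q hq t; exact ⟨e, fun _ => he⟩
    · exact ⟨1, fun h => absurd h hq⟩
  choose e he using hex
  refine ⟨fun q t => ⁅hh0, e q t⁆, ?_⟩
  intro q hq
  have hq8 : q < 8 := by simp at hq; omega
  have hSq := hS q hq
  have hρY : ∀ t : K, ρ ⁅hh0, e q t⁆ = x q t := by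
    intro t
    rw [commutatorElement_def, map_mul, map_mul, map_mul, map_inv, map_inv, hhh0, he q t hq8,
      hSq t, hxinv q hq8 t, hx.add q hq8, h3 t]
  have hcomm : ∀ (a b : E) (t u : K), ρ a = x q t → ρ b = x q u → a * b = b * a := by
    intro a b t u ha hb
    rcases hK t with rfl | rfl | rfl
    · have ha1 : ρ a = 1 := by rw [ha, hx0 q hq8]
      exact (ker_central hρc ha1 b).symm
    · rcases hK u with rfl | rfl | rfl
      · have hb1 : ρ b = 1 := by rw [hb, hx0 q hq8]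
        exact ker_central hρc hb1 a
      · exact comm_of_map_eq hρc (by rw [ha, hb])
      · exact comm_of_map_eq_inv hρc (by rw [ha, hb, hxinv q hq8, neg_neg])
    · rcases hK u with rfl | rfl | rfl
      · have hb1 : ρ b = 1 := by rw [hb, hx0 q hq8]
        exact ker_central hρc hb1 a
      · exact comm_of_map_eq_inv hρc (by rw [ha, hb, hxinv q hq8])
      · exact comm_of_map_eq hρc (by rw [ha, hb])
  refine ⟨hρY, ?_, ?_⟩
  · intro t u
    have hz : ρ (e q (t + u) * (e q t * e q u)⁻¹) = 1 := by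
      rw [map_mul, map_inv, map_mul, he q _ hq8, he q t hq8, he q u hq8, hx.add q hq8,
        mul_inv_cancel]
    have hzc := ker_central hρc hz
    have e1 : e q (t + u) = (e q (t + u) * (e q t * e q u)⁻¹) * (e q t * e q u) := by
      rw [inv_mul_cancel_right]
    have e2 : ⁅hh0, e q t * e q u⁆ = ⁅hh0, e q t⁆ * (e q t * ⁅hh0, e q u⁆ * (e q t)⁻¹) := by
      simp only [commutatorElement_def]; group
    have e3 : e q t * ⁅hh0, e q u⁆ * (e q t)⁻¹ = ⁅hh0, e q u⁆ := by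
      rw [hcomm (e q t) ⁅hh0, e q u⁆ t u (he q t hq8) (hρY u), mul_inv_cancel_right]
    show ⁅hh0, e q (t + u)⁆ = ⁅hh0, e q t⁆ * ⁅hh0, e q u⁆
    calc ⁅hh0, e q (t + u)⁆
        = ⁅hh0, (e q (t + u) * (e q t * e q u)⁻¹) * (e q t * e q u)⁆ :=
          congrArg (fun w => ⁅hh0, w⁆) e1
      _ = ⁅hh0, e q t * e q u⁆ := comm_central_right hzc
      _ = ⁅hh0, e q t⁆ * ⁅hh0, e q u⁆ := by rw [e2, e3]
  · intro g t hg
    have hζ : ρ (g * hh0⁻¹) = 1 := by rw [map_mul, map_inv, hg, hhh0, mul_inv_cancel]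
    have hζc := ker_central hρc hζ
    show g * ⁅hh0, e q t⁆ * g⁻¹ = ⁅hh0, e q (-t)⁆
    have e1 : g * ⁅hh0, e q t⁆ * g⁻¹ = hh0 * ⁅hh0, e q t⁆ * hh0⁻¹ := by
      calc g * ⁅hh0, e q t⁆ * g⁻¹
          = (g * hh0⁻¹) * (hh0 * ⁅hh0, e q t⁆ * hh0⁻¹) * (g * hh0⁻¹)⁻¹ := by group
        _ = hh0 * ⁅hh0, e q t⁆ * hh0⁻¹ := by rw [← hζc, mul_inv_cancel_right]
    have e2 : hh0 * ⁅hh0, e q t⁆ * hh0⁻¹ = ⁅hh0, hh0 * e q t * hh0⁻¹⁆ := by
      simp only [commutatorElement_def]; group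
    have hζ' : ρ (hh0 * e q t * hh0⁻¹ * (e q (-t))⁻¹) = 1 := by
      rw [map_mul, map_mul, map_mul, map_inv, map_inv, hhh0, he q t hq8, he q (-t) hq8, hSq t,
        mul_inv_cancel]
    have hζ'c := ker_central hρc hζ'
    have e3 : hh0 * e q t * hh0⁻¹ = (hh0 * e q t * hh0⁻¹ * (e q (-t))⁻¹) * e q (-t) := by
      rw [inv_mul_cancel_right]
    rw [e1, e2]
    calc ⁅hh0, hh0 * e q t * hh0⁻¹⁆
        = ⁅hh0, (hh0 * e q t * hh0⁻¹ * (e q (-t))⁻¹) * e q (-t)⁆ :=
          congrArg (fun w => ⁅hh0, w⁆) e3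
      _ = ⁅hh0, e q (-t)⁆ := comm_central_right hζ'c

example : Cfsg.Agent.H46.B2.PA.{u, v, w} := pA.{u, v, w}

end Cfsg.Agent.H73.B2F3
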