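import Mathlib
import Cfsg.Agent.H46.B2F3Defs
import Cfsg.Agent.H73.B2F3A

set_option autoImplicit false

/-! S2400-F3E: long root lifts commute with the lifts of orthogonal long root elements
(B2 over the field with three elements). -/

namespace Cfsg.Agent.H73.B2F3

open Cfsg.Agent.H46.B2

universe u v w

/-- If `e` centralizes `A`, and `M = e⁻¹ S⁻¹ e S` commutes with `A` and with `S⁻¹ A⁻¹ S A`, then `e`
centralizes `S⁻¹ A⁻¹ S A`. -/
theorem conj_fix {E : Type w} [Group E] (e S A M : E) (hAe : A * e = e * A)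
    (hM : M = e⁻¹ * S⁻¹ * e * S) (hMA : M * A = A * M)
    (hML : M * (S⁻¹ * A⁻¹ * S * A) = (S⁻¹ * A⁻¹ * S * A) * M) :
    (S⁻¹ * A⁻¹ * S * A) * e = e * (S⁻¹ * A⁻¹ * S * A) := by
  have h1 : e⁻¹ * A * e = A := by rw [mul_assoc, hAe, ← mul_assoc, inv_mul_cancel, one_mul]
  have h1' : e⁻¹ * A⁻¹ * e = A⁻¹ := by
    have h0 : e⁻¹ * A⁻¹ * e = (e⁻¹ * A * e)⁻¹ := by group
    rw [h0, h1]
  have h2 : e⁻¹ * S⁻¹ * e = M * S⁻¹ := by rw [hM]; group
  have h2' : e⁻¹ * S * e = S * M⁻¹ := by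
    have h0 : e⁻¹ * S * e = (e⁻¹ * S⁻¹ * e)⁻¹ := by group
    rw [h0, h2]; group
  have h3 : M⁻¹ * A = A * M⁻¹ := by
    have hc : Commute M A := hMA
    exact hc.inv_left.eq
  have key : e⁻¹ * (S⁻¹ * A⁻¹ * S * A) * e = S⁻¹ * A⁻¹ * S * A := by
    calc e⁻¹ * (S⁻¹ * A⁻¹ * S * A) * e
        = (e⁻¹ * S⁻¹ * e) * (e⁻¹ * A⁻¹ * e) * (e⁻¹ * S * e) * (e⁻¹ * A * e) := by group
      _ = M * S⁻¹ * A⁻¹ * (S * M⁻¹) * A := by rw [h2, h1', h2', h1]
      _ = M * S⁻¹ * A⁻¹ * S * (M⁻¹ * A) := by group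
      _ = M * S⁻¹ * A⁻¹ * S * (A * M⁻¹) := by rw [h3]
      _ = M * (S⁻¹ * A⁻¹ * S * A) * M⁻¹ := by group
      _ = S⁻¹ * A⁻¹ * S * A := by rw [hML, mul_inv_cancel_right]
  calc (S⁻¹ * A⁻¹ * S * A) * e = e * (e⁻¹ * (S⁻¹ * A⁻¹ * S * A) * e) := by group
    _ = e * (S⁻¹ * A⁻¹ * S * A) := by rw [key]

/-- The uniform argument for one pair of orthogonal long roots `(l, l')`: `l = r + s` with `r` at
45° to `l'` and `s` at 135° to `l'`. -/
theorem cll_core {K : Type u} [Field K] {G : Type v} [Group G] {E : Type w} [Group E]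
    {ρ : E →* G} {x : ℕ → K → G} {h : G} {Y : ℕ → K → E}
    (H : Hyp3 ρ x h) (hSh : Sh ρ x h Y) (hC45 : C45 ρ x Y) (hLg : Lg ρ x Y)
    (l l' r s : ℕ) (C C1 C2 : ℤ)
    (hl : l ∈ [0, 3, 4, 7]) (hl' : l' ∈ [0, 3, 4, 7]) (hr : r ∈ [1, 2, 5, 6])
    (hs : s ∈ [1, 2, 5, 6]) (hsr : s ≠ r) (hsr' : s ≠ 7 - r) (hC : C = 2 ∨ C = -2)
    (h1 : terms r s = [(l, C, 1, 1)]) (h2 : terms r l' = []) (h3 : terms r l = [])
    (h4 : terms s l' = [(r, C1, 1, 1), (l, C2, 2, 1)]) :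
    ∀ (e : E) (t u : K), ρ e = x l' u → Y l t * e = e * Y l t := by
  intro e t u he
  have hCK : (C : K) ≠ 0 := by
    rcases hC with rfl | rfl
    · simpa using H.h2
    · simpa using H.h2
  have hs8 : s < 8 := by simp at hs; omega
  have hl'8 : l' < 8 := by simp at hl'; omega
  have hl's : l' ≠ s := by simp at hs hl'; omega
  have hl's' : l' ≠ 7 - s := by simp at hs hl'; omega
  obtain ⟨hYr, hYradd, -⟩ := hSh r hr
  obtain ⟨hYs, hYsadd, -⟩ := hSh s hs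
  obtain ⟨hYl, hYladd⟩ := hLg.1 l hl
  obtain ⟨a, ha⟩ : ∃ a : K, a = -t / C := ⟨_, rfl⟩
  have hL : Y l t = (Y s 1)⁻¹ * (Y r a)⁻¹ * Y s 1 * Y r a := by
    have h5 := hLg.2 r hr s hs hsr hsr' a 1
    rw [h5]
    simp only [word, h1, List.map_cons, List.map_nil, List.prod_cons, List.prod_nil, mul_one,
      pow_one]
    congr 1
    rw [ha]; field_simp
  have hG := H.hx.comm s hs8 l' hl'8 hl's hl's' 1 u
  obtain ⟨α, β, hαβ⟩ : ∃ α β : K,
      (x l' u)⁻¹ * (x s 1)⁻¹ * x l' u * x s 1 = x r α * x l β := by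
    refine ⟨(C1 : K) * (-1) ^ 1 * u ^ 1, (C2 : K) * (-1) ^ 2 * u ^ 1, ?_⟩
    rw [hG]
    simp only [word, h4, List.map_cons, List.map_nil, List.prod_cons, List.prod_nil, mul_one]
  obtain ⟨M, hM⟩ : ∃ M : E, M = e⁻¹ * (Y s 1)⁻¹ * e * Y s 1 := ⟨_, rfl⟩
  have hζ : ρ (M * (Y r α * Y l β)⁻¹) = 1 := by
    rw [hM, map_mul, map_inv, map_mul, map_mul, map_mul, map_mul, map_inv, map_inv, he, hYs, hYr,
      hYl, hαβ, mul_inv_cancel]
  have hζc := ker_central H.hρc hζ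
  have cζ : ∀ g : E, Commute (M * (Y r α * Y l β)⁻¹) g := fun g => (hζc g).symm
  have hMeq : M = (M * (Y r α * Y l β)⁻¹) * (Y r α * Y l β) := by rw [inv_mul_cancel_right]
  have hrA : Commute (Y r α) (Y r a) := by
    show Y r α * Y r a = Y r a * Y r α
    rw [← hYradd, ← hYradd, add_comm]
  have hlA : Commute (Y l β) (Y r a) := (hC45 r hr l hl h3 (Y l β) a β (hYl β)).symm
  have hrL : Commute (Y r α) (Y l t) := hC45 r hr l hl h3 (Y l t) α t (hYl t)
  have hlL : Commute (Y l β) (Y l t) := by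
    show Y l β * Y l t = Y l t * Y l β
    rw [← hYladd, ← hYladd, add_comm]
  have hMA : Commute M (Y r a) := by
    rw [hMeq]; exact (cζ _).mul_left (hrA.mul_left hlA)
  have hML : Commute M (Y l t) := by
    rw [hMeq]; exact (cζ _).mul_left (hrL.mul_left hlL)
  have hAe : Y r a * e = e * Y r a := hC45 r hr l' hl' h2 e a u he
  rw [hL] at hML ⊢
  exact conj_fix e (Y s 1) (Y r a) M hAe hM hMA.eq hML.eq

/-- S2400-F3E. -/
theorem pE : Cfsg.Agent.H46.B2.PE.{u, v, w} := by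
  intro K _ G _ E _ ρ x h Y H hSh hC45 hLg
  have c03 := cll_core H hSh hC45 hLg 0 3 1 2 2 1 (-1) (by simp) (by simp) (by simp) (by simp)
    (by decide) (by decide) (Or.inl rfl) rfl rfl rfl rfl
  have c04 := cll_core H hSh hC45 hLg 0 4 2 1 (-2) 1 1 (by simp) (by simp) (by simp) (by simp)
    (by decide) (by decide) (Or.inr rfl) rfl rfl rfl rfl
  have c30 := cll_core H hSh hC45 hLg 3 0 1 5 (-2) (-1) (-1) (by simp) (by simp) (by simp) (by simp)
    (by decide) (by decide) (Or.inr rfl) rfl rfl rfl rfl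
  have c37 := cll_core H hSh hC45 hLg 3 7 5 1 2 (-1) 1 (by simp) (by simp) (by simp) (by simp)
    (by decide) (by decide) (Or.inl rfl) rfl rfl rfl rfl
  have c40 := cll_core H hSh hC45 hLg 4 0 2 6 (-2) 1 1 (by simp) (by simp) (by simp) (by simp)
    (by decide) (by decide) (Or.inr rfl) rfl rfl rfl rfl
  have c47 := cll_core H hSh hC45 hLg 4 7 6 2 2 1 (-1) (by simp) (by simp) (by simp) (by simp)
    (by decide) (by decide) (Or.inl rfl) rfl rfl rfl rfl
  have c73 := cll_core H hSh hC45 hLg 7 3 5 6 2 (-1) 1 (by simp) (by simp) (by simp) (by simp)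
    (by decide) (by decide) (Or.inl rfl) rfl rfl rfl rfl
  have c74 := cll_core H hSh hC45 hLg 7 4 6 5 (-2) (-1) (-1) (by simp) (by simp) (by simp) (by simp)
    (by decide) (by decide) (Or.inr rfl) rfl rfl rfl rfl
  intro l hl l' hl' h1 h2
  simp only [List.mem_cons, List.not_mem_nil, or_false] at hl hl'
  rcases hl with rfl | rfl | rfl | rfl <;> rcases hl' with rfl | rfl | rfl | rfl <;>
    first
    | exact absurd rfl h1
    | exact absurd rfl h2
    | exact c03 | exact c04 | exact c30 | exact c37 | exact c40 | exact c47 | exact c73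
    | exact c74

example : Cfsg.Agent.H46.B2.PE.{u, v, w} := pE.{u, v, w}

end Cfsg.Agent.H73.B2F3
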