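import Mathlib

/-!
# S2399-DESC (helper73, for helper46): descent of lifts along an injection which reflects
the centre.
-/

set_option autoImplicit false

namespace Cfsg.Agent.H73.S2399

open scoped commutatorElement

/-- Central factors do not change a commutator. -/
theorem commutator_mul_central {E : Type*} [Group E] (A B a b : E)
    (ha : a ∈ Subgroup.center E) (hb : b ∈ Subgroup.center E) :
    ⁅A * a, B * b⁆ = ⁅A, B⁆ := by
  have ha' : ∀ t : E, t * a = a * t := Subgroup.mem_center_iff.1 ha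
  have hb' : ∀ t : E, t * b = b * t := Subgroup.mem_center_iff.1 hb
  rw [commutatorElement_def, commutatorElement_def]
  calc A * a * (B * b) * (A * a)⁻¹ * (B * b)⁻¹
      = A * (a * B) * (b * a⁻¹) * A⁻¹ * b⁻¹ * B⁻¹ := by group
    _ = A * (B * a) * (a⁻¹ * b) * A⁻¹ * b⁻¹ * B⁻¹ := by rw [← ha' B, ← hb' a⁻¹]
    _ = A * B * (b * A⁻¹) * b⁻¹ * B⁻¹ := by group
    _ = A * B * (A⁻¹ * b) * b⁻¹ * B⁻¹ := by rw [← hb' A⁻¹]
    _ = A * B * A⁻¹ * B⁻¹ := by group

theorem lift_descent {Δ G E E' : Type*} [Group Δ] [Group G] [Group E] [Group E'] (hperf : commutator Δ = ⊤)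
    (ι : E →* E') (hι : Function.Injective ι)
    (hcen : ∀ g : E, ι g ∈ Subgroup.center E' ↔ g ∈ Subgroup.center E)
    (θ : Δ →* G) (φ : G →* E ⧸ Subgroup.center E)
    (hlift : ∀ φ' : G →* E' ⧸ Subgroup.center E',
      ∃ ψ' : Δ →* E', (QuotientGroup.mk' (Subgroup.center E')).comp ψ' = φ'.comp θ) :
    ∃ ψ : Δ →* E, (QuotientGroup.mk' (Subgroup.center E)).comp ψ = φ.comp θ := by
  have hle : Subgroup.center E ≤ (Subgroup.center E').comap ι := fun g hg => (hcen g).2 hg
  obtain ⟨ψ', hψ'⟩ := hlift ((QuotientGroup.map (Subgroup.center E) (Subgroup.center E') ι hle).comp φ)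
  -- the key relation
  have key : ∀ (x : Δ) (g : E), (g : E ⧸ Subgroup.center E) = φ (θ x) →
      (ι g)⁻¹ * ψ' x ∈ Subgroup.center E' := by
    intro x g hg
    have h1 := DFunLike.congr_fun hψ' x
    simp only [MonoidHom.comp_apply, QuotientGroup.mk'_apply] at h1
    rw [← hg, QuotientGroup.map_mk] at h1
    exact QuotientGroup.eq.1 h1.symm
  have hex : ∀ x : Δ, ∃ g : E, (g : E ⧸ Subgroup.center E) = φ (θ x) := fun x =>
    QuotientGroup.mk_surjective (φ (θ x))
  -- ψ' maps into the range of ι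
  have hrange : ∀ x : Δ, ψ' x ∈ ι.range := by
    have h1 : commutator Δ ≤ ι.range.comap ψ' := by
      rw [commutator_eq_closure, Subgroup.closure_le]
      rintro _ ⟨x, y, rfl⟩
      obtain ⟨g, hg⟩ := hex x
      obtain ⟨h, hh⟩ := hex y
      have hx : ψ' x = ι g * ((ι g)⁻¹ * ψ' x) := by group
      have hy : ψ' y = ι h * ((ι h)⁻¹ * ψ' y) := by group
      change ψ' ⁅x, y⁆ ∈ ι.range
      rw [map_commutatorElement, hx, hy, commutator_mul_central _ _ _ _ (key x g hg) (key y h hh),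
        ← map_commutatorElement]
      exact ⟨_, rfl⟩
    intro x
    have : x ∈ commutator Δ := by rw [hperf]; trivial
    exact h1 this
  refine ⟨(MonoidHom.ofInjective hι).symm.toMonoidHom.comp (ψ'.codRestrict ι.range hrange), ?_⟩
  ext x
  simp only [MonoidHom.comp_apply, QuotientGroup.mk'_apply]
  obtain ⟨g, hg⟩ := hex x
  have hιψ : ι ((MonoidHom.ofInjective hι).symm (ψ'.codRestrict ι.range hrange x)) = ψ' x :=
    MonoidHom.apply_ofInjective_symm hι _
  rw [← hg]
  symm
  rw [QuotientGroup.eq, ← hcen, map_mul, map_inv]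
  change (ι g)⁻¹ * ι ((MonoidHom.ofInjective hι).symm (ψ'.codRestrict ι.range hrange x)) ∈ _
  rw [hιψ]
  exact key x g hg

example {Δ G E E' : Type*} [Group Δ] [Group G] [Group E] [Group E'] (hperf : commutator Δ = ⊤)
    (ι : E →* E') (hι : Function.Injective ι)
    (hcen : ∀ g : E, ι g ∈ Subgroup.center E' ↔ g ∈ Subgroup.center E)
    (θ : Δ →* G) (φ : G →* E ⧸ Subgroup.center E)
    (hlift : ∀ φ' : G →* E' ⧸ Subgroup.center E',
      ∃ ψ' : Δ →* E', (QuotientGroup.mk' (Subgroup.center E')).comp ψ' = φ'.comp θ) :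
    ∃ ψ : Δ →* E, (QuotientGroup.mk' (Subgroup.center E)).comp ψ = φ.comp θ :=
  lift_descent hperf ι hι hcen θ φ hlift

end Cfsg.Agent.H73.S2399

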