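import Mathlib

/-!
# S2399-REL (helper73, for helper46): lifting a projective representation of a presented group
when the generators and relators live in finite `p`-subgroups which lift uniquely.
-/

set_option autoImplicit false

namespace Cfsg.Agent.H73.S2399

theorem exists_lift_presented {α : Type*} (rels : Set (FreeGroup α)) {E : Type*} [Group E] (p : ℕ) [Fact p.Prime]
    (hU : ∀ P : Subgroup (E ⧸ Subgroup.center E), Finite P → IsPGroup p P →
      ∃ S : Subgroup E, IsPGroup p S ∧ (∀ x ∈ P, ∃ g ∈ S, (g : E ⧸ Subgroup.center E) = x) ∧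
        (∀ g ∈ S, (g : E ⧸ Subgroup.center E) = 1 → g = 1) ∧
        (∀ g : E, (g : E ⧸ Subgroup.center E) ∈ P → (∃ k : ℕ, g ^ (p ^ k) = 1) → g ∈ S))
    (σ : PresentedGroup rels →* E ⧸ Subgroup.center E)
    (hgen : ∀ a : α, ∃ P : Subgroup (E ⧸ Subgroup.center E), Finite P ∧ IsPGroup p P ∧
      σ (PresentedGroup.of a) ∈ P)
    (hrel : ∀ ω ∈ rels, ∃ (P : Subgroup (E ⧸ Subgroup.center E)) (Λ : Set α), Finite P ∧ IsPGroup p P ∧
      (∀ a ∈ Λ, σ (PresentedGroup.of a) ∈ P) ∧ ω ∈ Subgroup.closure (FreeGroup.of '' Λ)) :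
    ∃ ψ : PresentedGroup rels →* E, (QuotientGroup.mk' (Subgroup.center E)).comp ψ = σ := by
  -- choose the lifts of the generators
  have hy : ∀ a : α, ∃ y : E, (y : E ⧸ Subgroup.center E) = σ (PresentedGroup.of a) ∧
      ∃ k : ℕ, y ^ (p ^ k) = 1 := by
    intro a
    obtain ⟨P, hPf, hPp, hPa⟩ := hgen a
    obtain ⟨S, hSp, hS1, _, _⟩ := hU P hPf hPp
    obtain ⟨g, hgS, hg⟩ := hS1 _ hPa
    refine ⟨g, hg, ?_⟩
    obtain ⟨k, hk⟩ := hSp ⟨g, hgS⟩
    exact ⟨k, by simpa using congrArg Subtype.val hk⟩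
  choose y hy1 hy2 using hy
  -- the two homomorphisms from the free group agree
  have hcomp : (QuotientGroup.mk' (Subgroup.center E)).comp (FreeGroup.lift y) =
      σ.comp (PresentedGroup.mk rels) := by
    ext a
    simp only [MonoidHom.comp_apply, FreeGroup.lift_apply_of, QuotientGroup.mk'_apply]
    exact hy1 a
  -- the relators are killed
  have hkill : ∀ r ∈ rels, FreeGroup.lift y r = 1 := by
    intro ω hω
    obtain ⟨P, Λ, hPf, hPp, hΛ, hωΛ⟩ := hrel ω hω
    obtain ⟨S, hSp, _, hS2, hS3⟩ := hU P hPf hPp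
    have hmem : FreeGroup.lift y ω ∈ S := by
      have hle : Subgroup.closure (FreeGroup.of '' Λ) ≤ S.comap (FreeGroup.lift y) := by
        rw [Subgroup.closure_le]
        rintro _ ⟨a, ha, rfl⟩
        change FreeGroup.lift y (FreeGroup.of a) ∈ S
        rw [FreeGroup.lift_apply_of]
        apply hS3 (y a) _ (hy2 a)
        rw [hy1 a]; exact hΛ a ha
      exact hle hωΛ
    apply hS2 _ hmem
    have h1 := DFunLike.congr_fun hcomp ω
    simp only [MonoidHom.comp_apply, QuotientGroup.mk'_apply] at h1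
    rw [h1, PresentedGroup.one_of_mem hω, map_one]
  refine ⟨PresentedGroup.toGroup hkill, ?_⟩
  apply PresentedGroup.ext
  intro a
  simp only [MonoidHom.comp_apply, PresentedGroup.toGroup.of, QuotientGroup.mk'_apply]
  exact hy1 a

example {α : Type*} (rels : Set (FreeGroup α)) {E : Type*} [Group E] (p : ℕ) [Fact p.Prime]
    (hU : ∀ P : Subgroup (E ⧸ Subgroup.center E), Finite P → IsPGroup p P →
      ∃ S : Subgroup E, IsPGroup p S ∧ (∀ x ∈ P, ∃ g ∈ S, (g : E ⧸ Subgroup.center E) = x) ∧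
        (∀ g ∈ S, (g : E ⧸ Subgroup.center E) = 1 → g = 1) ∧
        (∀ g : E, (g : E ⧸ Subgroup.center E) ∈ P → (∃ k : ℕ, g ^ (p ^ k) = 1) → g ∈ S))
    (σ : PresentedGroup rels →* E ⧸ Subgroup.center E)
    (hgen : ∀ a : α, ∃ P : Subgroup (E ⧸ Subgroup.center E), Finite P ∧ IsPGroup p P ∧
      σ (PresentedGroup.of a) ∈ P)
    (hrel : ∀ ω ∈ rels, ∃ (P : Subgroup (E ⧸ Subgroup.center E)) (Λ : Set α), Finite P ∧ IsPGroup p P ∧
      (∀ a ∈ Λ, σ (PresentedGroup.of a) ∈ P) ∧ ω ∈ Subgroup.closure (FreeGroup.of '' Λ)) :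
    ∃ ψ : PresentedGroup rels →* E, (QuotientGroup.mk' (Subgroup.center E)).comp ψ = σ :=
  exists_lift_presented rels p hU σ hgen hrel

end Cfsg.Agent.H73.S2399

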