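import Mathlib

/-!
# S2399-U (helper73, for helper46): finite `p`-subgroups of the central quotient lift uniquely
when the centre is uniquely `p`-divisible (transfer).
-/

set_option autoImplicit false

namespace Cfsg.Agent.H73.S2399

open scoped IsMulCommutative

/-- Iterated `p`-divisibility. -/
theorem center_div_pow {E : Type*} [Group E] (p : ℕ)
    (hdiv : ∀ a ∈ Subgroup.center E, ∃ b ∈ Subgroup.center E, b ^ p = a) (m : ℕ) :
    ∀ a ∈ Subgroup.center E, ∃ b ∈ Subgroup.center E, b ^ (p ^ m) = a := by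
  induction m with
  | zero => intro a ha; exact ⟨a, ha, by simp⟩
  | succ m ih =>
    intro a ha
    obtain ⟨b, hb, hba⟩ := ih a ha
    obtain ⟨c, hc, hcb⟩ := hdiv b hb
    refine ⟨c, hc, ?_⟩
    rw [pow_succ', pow_mul, hcb, hba]

/-- Iterated `p`-torsion-freeness. -/
theorem center_tor_pow {E : Type*} [Group E] (p : ℕ)
    (htor : ∀ a ∈ Subgroup.center E, a ^ p = 1 → a = 1) (m : ℕ) :
    ∀ a ∈ Subgroup.center E, a ^ (p ^ m) = 1 → a = 1 := by
  induction m with
  | zero => intro a _ h; simpa using h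
  | succ m ih =>
    intro a ha h
    apply ih a ha
    apply htor _ (Subgroup.pow_mem _ ha _)
    rw [← pow_mul, ← pow_succ]; exact h

theorem exists_pLift {E : Type*} [Group E] (p : ℕ) [Fact p.Prime]
    (hdiv : ∀ a ∈ Subgroup.center E, ∃ b ∈ Subgroup.center E, b ^ p = a)
    (htor : ∀ a ∈ Subgroup.center E, a ^ p = 1 → a = 1)
    (P : Subgroup (E ⧸ Subgroup.center E)) [Finite P] (hP : IsPGroup p P) :
    ∃ S : Subgroup E, IsPGroup p S ∧ (∀ x ∈ P, ∃ g ∈ S, (g : E ⧸ Subgroup.center E) = x) ∧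
      (∀ g ∈ S, (g : E ⧸ Subgroup.center E) = 1 → g = 1) ∧
      (∀ g : E, (g : E ⧸ Subgroup.center E) ∈ P → (∃ k : ℕ, g ^ (p ^ k) = 1) → g ∈ S) := by
  obtain ⟨m, hm⟩ := IsPGroup.iff_card.1 hP
  have hZH : Subgroup.center E ≤ P.comap (QuotientGroup.mk' (Subgroup.center E)) := by
    intro z hz
    rw [Subgroup.mem_comap, QuotientGroup.mk'_apply, (QuotientGroup.eq_one_iff z).2 hz]
    exact P.one_mem
  have hidx : ((Subgroup.center E).subgroupOf
      (P.comap (QuotientGroup.mk' (Subgroup.center E)))).index = Nat.card P := by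
    have h1 : (⊥ : Subgroup (E ⧸ Subgroup.center E)).comap
        (QuotientGroup.mk' (Subgroup.center E)) = Subgroup.center E := by
      rw [MonoidHom.comap_bot, QuotientGroup.ker_mk']
    have h2 := Subgroup.relIndex_comap (⊥ : Subgroup (E ⧸ Subgroup.center E))
      (QuotientGroup.mk' (Subgroup.center E)) (P.comap (QuotientGroup.mk' (Subgroup.center E)))
    rw [Subgroup.map_comap_eq_self_of_surjective (QuotientGroup.mk'_surjective _),
      Subgroup.relIndex_bot_left] at h2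
    rw [← h2]
    change (Subgroup.center E).relIndex (P.comap (QuotientGroup.mk' (Subgroup.center E))) = _
    exact congrArg (fun K => K.relIndex (P.comap (QuotientGroup.mk' (Subgroup.center E)))) h1.symm
  have hfi : ((Subgroup.center E).subgroupOf
      (P.comap (QuotientGroup.mk' (Subgroup.center E)))).FiniteIndex := by
    refine ⟨?_⟩
    rw [hidx]; exact Nat.card_pos.ne'
  -- the transfer
  have hkey : ∀ (g : P.comap (QuotientGroup.mk' (Subgroup.center E))) (k : ℕ)
      (g₀ : P.comap (QuotientGroup.mk' (Subgroup.center E))),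
      g₀⁻¹ * g ^ k * g₀ ∈ (Subgroup.center E).subgroupOf
        (P.comap (QuotientGroup.mk' (Subgroup.center E))) → g₀⁻¹ * g ^ k * g₀ = g ^ k := by
    intro g k g₀ hz
    rw [Subgroup.mem_subgroupOf] at hz
    have hz' := Subgroup.mem_center_iff.1 hz (g₀ : E)
    apply Subtype.ext
    simp only [Subgroup.coe_mul, Subgroup.coe_inv, Subgroup.coe_pow] at hz' ⊢
    have h2 : (g₀ : E) * ((g₀ : E)⁻¹ * (g : E) ^ k * (g₀ : E)) = (g : E) ^ k * g₀ := by group
    rw [h2] at hz'
    exact (mul_right_cancel hz').symm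
  have hT : ∀ g : P.comap (QuotientGroup.mk' (Subgroup.center E)),
      ((MonoidHom.transfer (Subgroup.subgroupOfEquivOfLe hZH).toMonoidHom g :
        Subgroup.center E) : E) = (g : E) ^ Nat.card P := by
    intro g
    rw [MonoidHom.transfer_eq_pow _ g (hkey g)]
    simp only [MulEquiv.toMonoidHom_eq_coe, MonoidHom.coe_coe,
      Subgroup.subgroupOfEquivOfLe_apply_coe, Subgroup.coe_pow, hidx]
  -- the subgroup
  have hS : ∀ g : E, g ∈ (MonoidHom.transfer (Subgroup.subgroupOfEquivOfLe hZH).toMonoidHom).ker.map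
      (P.comap (QuotientGroup.mk' (Subgroup.center E))).subtype ↔
      (g : E ⧸ Subgroup.center E) ∈ P ∧ g ^ Nat.card P = 1 := by
    intro g
    constructor
    · rintro ⟨h, hh, rfl⟩
      refine ⟨h.2, ?_⟩
      rw [SetLike.mem_coe, MonoidHom.mem_ker] at hh
      have := hT h
      rw [hh] at this
      simpa using this.symm
    · rintro ⟨hg, hgN⟩
      refine ⟨⟨g, hg⟩, ?_, rfl⟩
      rw [SetLike.mem_coe, MonoidHom.mem_ker]
      apply Subtype.ext
      rw [hT]; exact hgN
  have hpowZ : ∀ g : E, (g : E ⧸ Subgroup.center E) ∈ P → g ^ Nat.card P ∈ Subgroup.center E := by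
    intro g hg
    rw [← QuotientGroup.eq_one_iff, QuotientGroup.mk_pow]
    have h1 : (⟨(g : E ⧸ Subgroup.center E), hg⟩ : P) ^ Nat.card P = 1 := pow_card_eq_one'
    have h2 := congrArg Subtype.val h1
    rw [Subgroup.coe_pow, Subgroup.coe_one] at h2
    exact h2
  refine ⟨(MonoidHom.transfer (Subgroup.subgroupOfEquivOfLe hZH).toMonoidHom).ker.map
      (P.comap (QuotientGroup.mk' (Subgroup.center E))).subtype, ?_, ?_, ?_, ?_⟩
  · rintro ⟨g, hg⟩
    obtain ⟨_, hgN⟩ := (hS g).1 hg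
    refine ⟨m, ?_⟩
    apply Subtype.ext
    rw [Subgroup.coe_pow, ← hm]
    exact hgN
  · intro x hx
    obtain ⟨g, rfl⟩ := QuotientGroup.mk_surjective x
    obtain ⟨b, hbZ, hb⟩ := center_div_pow p hdiv m _ (hpowZ g hx)
    have hbinv : b⁻¹ ∈ Subgroup.center E := Subgroup.inv_mem _ hbZ
    refine ⟨g * b⁻¹, ?_, QuotientGroup.mk_mul_of_mem g hbinv⟩
    rw [hS]
    refine ⟨?_, ?_⟩
    · rw [QuotientGroup.mk_mul_of_mem g hbinv]; exact hx
    · have hc : Commute g b⁻¹ := (Subgroup.mem_center_iff.1 hbinv g)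
      rw [hc.mul_pow, inv_pow, hm, hb, ← hm, mul_inv_cancel]
  · intro g hg hg1
    obtain ⟨_, hgN⟩ := (hS g).1 hg
    exact center_tor_pow p htor m g ((QuotientGroup.eq_one_iff g).1 hg1) (by rw [← hm]; exact hgN)
  · rintro g hg ⟨k, hk⟩
    rw [hS]
    refine ⟨hg, ?_⟩
    apply center_tor_pow p htor k _ (hpowZ g hg)
    rw [← pow_mul, mul_comm, pow_mul, hk, one_pow]

example {E : Type*} [Group E] (p : ℕ) [Fact p.Prime]
    (hdiv : ∀ a ∈ Subgroup.center E, ∃ b ∈ Subgroup.center E, b ^ p = a)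
    (htor : ∀ a ∈ Subgroup.center E, a ^ p = 1 → a = 1)
    (P : Subgroup (E ⧸ Subgroup.center E)) [Finite P] (hP : IsPGroup p P) :
    ∃ S : Subgroup E, IsPGroup p S ∧ (∀ x ∈ P, ∃ g ∈ S, (g : E ⧸ Subgroup.center E) = x) ∧
      (∀ g ∈ S, (g : E ⧸ Subgroup.center E) = 1 → g = 1) ∧
      (∀ g : E, (g : E ⧸ Subgroup.center E) ∈ P → (∃ k : ℕ, g ^ (p ^ k) = 1) → g ∈ S) :=
  exists_pLift p hdiv htor P hP

end Cfsg.Agent.H73.S2399

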