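import Cfsg.Agent.H78.StbGrDefs
import Cfsg.Agent.H98.StbMatch

/-!
# S2123-MATCHG (helper73, for helper78): the permutations of the fundamental root subgroups and of
their negatives induced by an automorphism are one and the same injection, which preserves
adjacency (MATCH without rigidity). Adapted from helper98's `Cfsg/Agent/H98/StbMatch.lean`.
-/

set_option autoImplicit false

namespace Cfsg.Agent.H73.StbG

open Cfsg.Lie Cfsg.Agent.H23 Cfsg.Agent.H23.Stb Cfsg.Agent.H78.StbG

universe u

/-- **S2123-MATCHG** (MATCH without rigidity; adapted from helper98's S2125-MATCH). -/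
theorem matchG : StMatchG.{u} := by
  intro D F _ z η rT w0 hC θ adj hpos hneg hc2 hadj
  have hK := Cfsg.Agent.H98.Stb.not_comm_simple hC.hP hC.hV
  have hcommG : ∀ (r s : ℕ) (t u : F),
      (xG hC.hP.sem r t * xG hC.hP.sem s u = xG hC.hP.sem s u * xG hC.hP.sem r t) ↔
      (xU hC.hP.sem r t * xU hC.hP.sem s u = xU hC.hP.sem s u * xU hC.hP.sem r t) := by
    intro r s t u
    constructor
    · intro h; exact congrArg Subtype.val h
    · intro h; exact Subtype.ext h
  choose! π hπ hπR using hpos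
  choose! π' hπ' hπ'R using hneg
  have h1 : ∀ i < D.rank, π' i = π i := by
    intro i hi
    by_contra hne
    obtain ⟨a, ha⟩ := (hπR i hi).1 1
    obtain ⟨b, hb⟩ := (hπ'R i hi).1 1
    have hcomm := hc2 (π' i) (hπ' i hi) (π i) (hπ i hi) hne b a
    have h2 : θ (xG hC.hP.sem (D.simple i) 1 * xG hC.hP.sem (D.neg (D.simple i)) 1) =
        θ (xG hC.hP.sem (D.neg (D.simple i)) 1 * xG hC.hP.sem (D.simple i) 1) := by
      rw [map_mul, map_mul, ha, hb]
      exact (hcommG _ _ _ _).mpr hcomm
    exact hK i hi ((hcommG _ _ _ _).mp (θ.injective h2))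
  have h2 : ∀ i < D.rank, ∀ j < D.rank, π i = π j → i = j := by
    intro i hi j hj hij
    by_contra hne
    obtain ⟨a, ha⟩ := (hπR i hi).1 1
    obtain ⟨t, ht⟩ := (hπR j hj).2 a
    have h3 : xG hC.hP.sem (D.simple i) 1 = xG hC.hP.sem (D.simple j) t := by
      apply θ.injective
      rw [ha, ht, hij]
    have h4 : xU hC.hP.sem (D.simple i) 1 = xU hC.hP.sem (D.simple j) t := congrArg Subtype.val h3
    apply hK i hi
    rw [h4]
    exact hc2 i hi j hj hne 1 t
  have h3 : ∀ i < D.rank, ∀ j < D.rank, i ≠ j → (adj (π i) (π j) ↔ adj i j) := by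
    intro i hi j hj hne
    have hne' : π i ≠ π j := fun h => hne (h2 i hi j hj h)
    rw [← not_iff_not, ← hadj i hi j hj hne, ← hadj (π i) (hπ i hi) (π j) (hπ j hj) hne']
    constructor
    · intro h t u
      obtain ⟨t', ht'⟩ := (hπR i hi).1 t
      obtain ⟨u', hu'⟩ := (hπR j hj).1 u
      have h5 := (hcommG _ _ _ _).mpr (h t' u')
      rw [← ht', ← hu', ← map_mul, ← map_mul] at h5
      exact (hcommG _ _ _ _).mp (θ.injective h5)
    · intro h t' u'
      obtain ⟨t, ht⟩ := (hπR i hi).2 t'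
      obtain ⟨u, hu⟩ := (hπR j hj).2 u'
      have h5 := congrArg θ ((hcommG _ _ _ _).mpr (h t u))
      rw [map_mul, map_mul, ht, hu] at h5
      exact (hcommG _ _ _ _).mp h5
  refine ⟨π, hπ, h2, h3, fun i hi => ⟨hπR i hi, ?_⟩⟩
  have e2 := hπ'R i hi
  rw [h1 i hi] at e2
  exact e2

example : Cfsg.Agent.H78.StbG.StMatchG.{u} := matchG

end Cfsg.Agent.H73.StbG
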