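import Mathlib

set_option autoImplicit false

namespace Cfsg.Agent.H73.D4

/-- In a finite field with more than two elements there is an element different from `0`, `1`. -/
theorem exists_ne_zero_one {K : Type*} [Field K] [Fintype K] (h2 : Fintype.card K ≠ 2) :
    ∃ v : K, v ≠ 0 ∧ v ≠ 1 := by
  classical
  by_contra hno
  push Not at hno
  have hsub : (Finset.univ : Finset K) ⊆ {0, 1} := by
    intro v _
    by_cases hv : v = 0
    · simp [hv]
    · simp [hno v hv]
  have h1 : Fintype.card K ≤ 2 := by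
    calc Fintype.card K = (Finset.univ : Finset K).card := rfl
      _ ≤ ({0, 1} : Finset K).card := Finset.card_le_card hsub
      _ ≤ 2 := Finset.card_le_two
  have h3 : 1 < Fintype.card K := Fintype.one_lt_card
  omega

theorem field_three {K : Type*} [Field K] [Fintype K] (h : Fintype.card K = 3) :
    (∀ t : K, t = 0 ∨ t = 1 ∨ t = -1) ∧ (2 : K) ≠ 0 := by
  classical
  have h2 : (2 : K) ≠ 0 := by
    intro h0
    have h1 : addOrderOf (1 : K) ∣ 2 := by
      apply addOrderOf_dvd_of_nsmul_eq_zero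
      rw [nsmul_eq_mul, mul_one]
      exact_mod_cast h0
    have h3 : addOrderOf (1 : K) ∣ 3 := by
      have := addOrderOf_dvd_card (x := (1 : K))
      rwa [h] at this
    have h4 : addOrderOf (1 : K) ∣ 1 := by
      exact Nat.dvd_sub h3 h1
    have h5 : addOrderOf (1 : K) = 1 := Nat.dvd_one.mp h4
    rw [AddMonoid.addOrderOf_eq_one_iff] at h5
    exact one_ne_zero h5
  refine ⟨?_, h2⟩
  have h10 : (1 : K) ≠ -1 := by
    intro h1
    apply h2
    have : (1 : K) + 1 = 0 := by nth_rewrite 2 [h1]; exact add_neg_cancel 1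
    rw [← this]; norm_num
  have hcard : ({0, 1, -1} : Finset K).card = 3 := by
    rw [Finset.card_insert_of_notMem, Finset.card_insert_of_notMem, Finset.card_singleton]
    · simpa using h10
    · simp
  have huniv : ({0, 1, -1} : Finset K) = Finset.univ := by
    apply Finset.eq_univ_of_card
    rw [hcard, h]
  intro t
  have ht : t ∈ ({0, 1, -1} : Finset K) := by rw [huniv]; exact Finset.mem_univ t
  simpa using ht

theorem field_four {K : Type*} [Field K] [Fintype K] (h : Fintype.card K = 4) :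
    ∃ ω : K, ω ^ 2 + ω + 1 = 0 ∧ (2 : K) = 0 ∧ ∀ t : K, t = 0 ∨ t = 1 ∨ t = ω ∨ t = ω + 1 := by
  classical
  have h2 : (2 : K) = 0 := by
    obtain ⟨p, hp⟩ := CharP.exists K
    obtain ⟨n, hpp, hn⟩ := FiniteField.card K p
    have hp4 : p ∣ 2 ^ 2 := by
      have : p ∣ p ^ (n : ℕ) := dvd_pow_self p n.ne_zero
      rw [← hn, h] at this
      exact this
    have hp2 : p = 2 := (Nat.prime_dvd_prime_iff_eq hpp Nat.prime_two).mp
      (hpp.dvd_of_dvd_pow hp4)
    subst hp2
    have := CharP.cast_eq_zero K 2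
    exact_mod_cast this
  have hneg : ∀ x : K, -x = x := by
    intro x
    have : x + x = 0 := by
      have : x + x = 2 * x := by ring
      rw [this, h2, zero_mul]
    exact neg_eq_of_add_eq_zero_left this
  obtain ⟨ω, hω0, hω1⟩ := exists_ne_zero_one (K := K) (by rw [h]; norm_num)
  have hω3 : ω ^ 3 = 1 := by
    have := FiniteField.pow_card_sub_one_eq_one ω hω0
    rwa [h] at this
  have hω : ω ^ 2 + ω + 1 = 0 := by
    have h1 : (ω - 1) * (ω ^ 2 + ω + 1) = 0 := by
      have : (ω - 1) * (ω ^ 2 + ω + 1) = ω ^ 3 - 1 := by ring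
      rw [this, hω3, sub_self]
    rcases mul_eq_zero.mp h1 with h | h
    · exact absurd (sub_eq_zero.mp h) hω1
    · exact h
  refine ⟨ω, hω, h2, ?_⟩
  have hcard : ({0, 1, ω, ω + 1} : Finset K).card = 4 := by
    rw [Finset.card_insert_of_notMem, Finset.card_insert_of_notMem,
      Finset.card_insert_of_notMem, Finset.card_singleton]
    · simp
    · rw [Finset.mem_insert, Finset.mem_singleton]
      rintro (h | h)
      · exact hω1 h.symm
      · exact hω0 (by simpa using h.symm)
    · rw [Finset.mem_insert, Finset.mem_insert, Finset.mem_singleton]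
      rintro (h | h | h)
      · exact one_ne_zero h.symm
      · exact hω0 h.symm
      · have : ω = -1 := eq_neg_of_add_eq_zero_left h.symm
        rw [hneg] at this
        exact hω1 this
  have huniv : ({0, 1, ω, ω + 1} : Finset K) = Finset.univ := by
    apply Finset.eq_univ_of_card
    rw [hcard, h]
  intro t
  have ht : t ∈ ({0, 1, ω, ω + 1} : Finset K) := by rw [huniv]; exact Finset.mem_univ t
  simpa using ht

theorem exists_sq_ne_one' {K : Type*} [Field K] [Fintype K] (h2 : Fintype.card K ≠ 2)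
    (hc : (2 : K) = 0) : ∃ v : K, v ≠ 0 ∧ v ^ 2 - 1 ≠ 0 := by
  obtain ⟨v, hv0, hv1⟩ := exists_ne_zero_one (K := K) h2
  refine ⟨v, hv0, ?_⟩
  have h1 : v ^ 2 - 1 = (v - 1) * (v - 1) := by
    have : (v - 1) * (v - 1) = v ^ 2 - 1 - 2 * (v - 1) := by ring
    rw [this, hc, zero_mul, sub_zero]
  rw [h1]
  exact mul_ne_zero (sub_ne_zero.mpr hv1) (sub_ne_zero.mpr hv1)

example {K : Type*} [Field K] [Fintype K] (h : Fintype.card K = 3) :
    (∀ t : K, t = 0 ∨ t = 1 ∨ t = -1) ∧ (2 : K) ≠ 0 := field_three h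
example {K : Type*} [Field K] [Fintype K] (h : Fintype.card K = 4) :
    ∃ ω : K, ω ^ 2 + ω + 1 = 0 ∧ (2 : K) = 0 ∧ ∀ t : K, t = 0 ∨ t = 1 ∨ t = ω ∨ t = ω + 1 :=
  field_four h
example {K : Type*} [Field K] [Fintype K] (h2 : Fintype.card K ≠ 2) (hc : (2 : K) = 0) :
    ∃ v : K, v ≠ 0 ∧ v ^ 2 - 1 ≠ 0 := exists_sq_ne_one' h2 hc

end Cfsg.Agent.H73.D4
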