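import Mathlib
import Cfsg.Agent.H58.FzDefs
import Cfsg.Agent.H66.HHA

set_option autoImplicit false
set_option linter.style.haveILetI false

namespace Cfsg.Agent.H73.Fz

universe u

theorem aq_holds {X : Type u} [Group X] [Finite X] : Cfsg.Agent.H58.Fz.AQ X := by
  classical
  intro B U b q hq hbq hBc hUc hbB hBU hbU hcopq hcopU hfix a ha
  set K : Subgroup X := Subgroup.normalizer (U : Set X) with hK
  letI : CommGroup ↥U := { (inferInstance : Group ↥U) with
    mul_comm := fun x y => Subtype.ext (hUc x x.2 y y.2) }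
  have hconj : ∀ h : K, ∀ u : U, (h : X) * (u : X) * (h : X)⁻¹ ∈ U := fun h u =>
    (Subgroup.mem_normalizer_iff.1 h.2 u).1 u.2
  let cj : K → (↥U →* ↥U) := fun h =>
    { toFun := fun u => ⟨(h : X) * (u : X) * (h : X)⁻¹, hconj h u⟩
      map_one' := by ext; simp
      map_mul' := by intro u u'; ext; simp }
  have hcj : ∀ (h : K) (u : U), ((cj h u : U) : X) = (h : X) * (u : X) * (h : X)⁻¹ :=
    fun h u => rfl
  let θ : K →* AddMonoid.End (Additive ↥U) :=
    { toFun := fun h => MonoidHom.toAdditive (cj h)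
      map_one' := by
        ext u
        show ((cj 1 (Additive.toMul u) : U) : X) = ((Additive.toMul u : U) : X)
        simp [hcj]
      map_mul' := by
        intro h h'
        ext u
        show ((cj (h * h') (Additive.toMul u) : U) : X) =
          ((cj h (cj h' (Additive.toMul u)) : U) : X)
        simp [hcj, mul_assoc] }
  have hθ : ∀ (h : K) (z : Additive ↥U), θ h z = Additive.ofMul (cj h (Additive.toMul z)) :=
    fun h z => rfl
  -- the element x = b of K
  set x : K := ⟨b, hbU⟩ with hx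
  have hxq : x ^ q = 1 := Subtype.ext (by simpa using hbq)
  -- fixed points of θ x are trivial
  have hfix' : ∀ z : Additive ↥U, θ x z = z → z = 0 := by
    intro z hz
    have h1 : cj x (Additive.toMul z) = Additive.toMul z := by
      have := congrArg Additive.toMul hz
      simpa [hθ] using this
    have h2 : b * ((Additive.toMul z : U) : X) * b⁻¹ = ((Additive.toMul z : U) : X) := by
      have := congrArg (Subtype.val) h1
      simpa [hcj, hx] using this
    have h3 : ((Additive.toMul z : U) : X) = 1 := by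
      apply hfix _ (Additive.toMul z).2
      calc b * ((Additive.toMul z : U) : X)
          = (b * ((Additive.toMul z : U) : X) * b⁻¹) * b := by group
        _ = ((Additive.toMul z : U) : X) * b := by rw [h2]
    have h4 : (Additive.toMul z : U) = 1 := Subtype.ext h3
    exact (Additive.toMul.injective (by rw [h4]; rfl))
  -- the norm of x vanishes
  have hnorm : ∑ i ∈ Finset.range q, θ (x ^ i) = 0 := by
    set S : AddMonoid.End (Additive ↥U) := ∑ i ∈ Finset.range q, θ (x ^ i) with hS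
    have hxS : θ x * S = S := by
      rw [hS, Finset.mul_sum]
      have h1 : ∀ i ∈ Finset.range q, θ x * θ (x ^ i) = θ (x ^ (i + 1)) := by
        intro i _
        rw [← map_mul, ← pow_succ']
      rw [Finset.sum_congr rfl h1]
      have h2 := Finset.sum_range_succ (fun i => θ (x ^ i)) q
      have h3 := Finset.sum_range_succ' (fun i => θ (x ^ i)) q
      rw [h3] at h2
      simp only [hxq, pow_zero] at h2
      exact add_right_cancel h2
    ext z
    have h1 : θ x (S z) = S z := by
      have := congrArg (fun L : AddMonoid.End (Additive ↥U) => L z) hxS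
      simpa using this
    simpa using hfix' (S z) h1
  -- conjugation by b preserves B
  have hbBconj : ∀ c ∈ B, b * c * b⁻¹ ∈ B := fun c hc =>
    (Subgroup.mem_normalizer_iff.1 hbB c).1 hc
  have hκmem : ∀ c : B, b * (c : X) * b⁻¹ * (c : X)⁻¹ ∈ K := fun c =>
    K.mul_mem (K.mul_mem (K.mul_mem hbU (hBU c.2)) (K.inv_mem hbU)) (K.inv_mem (hBU c.2))
  have hκB : ∀ c : B, b * (c : X) * b⁻¹ * (c : X)⁻¹ ∈ B := fun c =>
    B.mul_mem (hbBconj c c.2) (B.inv_mem c.2)
  let κ : ↥B →* ↥K :=
    { toFun := fun c => ⟨b * (c : X) * b⁻¹ * (c : X)⁻¹, hκmem c⟩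
      map_one' := Subtype.ext (by simp)
      map_mul' := by
        intro c c'
        apply Subtype.ext
        show b * ((c : X) * (c' : X)) * b⁻¹ * ((c : X) * (c' : X))⁻¹ =
          (b * c * b⁻¹ * (c : X)⁻¹) * (b * c' * b⁻¹ * (c' : X)⁻¹)
        have hcomm : (b * (c' : X) * b⁻¹ * (c' : X)⁻¹) * (c : X)⁻¹ =
            (c : X)⁻¹ * (b * (c' : X) * b⁻¹ * (c' : X)⁻¹) :=
          hBc _ (hκB c') _ (B.inv_mem c.2)
        calc b * ((c : X) * (c' : X)) * b⁻¹ * ((c : X) * (c' : X))⁻¹
            = (b * c * b⁻¹) * ((b * (c' : X) * b⁻¹ * (c' : X)⁻¹) * (c : X)⁻¹) := by group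
          _ = (b * c * b⁻¹) * ((c : X)⁻¹ * (b * (c' : X) * b⁻¹ * (c' : X)⁻¹)) := by rw [hcomm]
          _ = _ := by group }
  have hκ : ∀ c : B, ((κ c : K) : X) = b * (c : X) * b⁻¹ * (c : X)⁻¹ := fun c => rfl
  set D : Subgroup ↥K := κ.range with hD
  haveI : Fintype D := Fintype.ofFinite D
  have hxD : ∀ d ∈ D, x * d * x⁻¹ ∈ D := by
    rintro d ⟨c, rfl⟩
    refine ⟨⟨b * (c : X) * b⁻¹, hbBconj c c.2⟩, ?_⟩
    apply Subtype.ext
    show b * (b * (c : X) * b⁻¹) * b⁻¹ * (b * (c : X) * b⁻¹)⁻¹ =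
      b * (b * (c : X) * b⁻¹ * (c : X)⁻¹) * b⁻¹
    group
  have hfree : ∀ i, 0 < i → i < q → ∀ d ∈ D, x ^ i * d = d * x ^ i → d = 1 := by
    rintro i hi0 hiq d ⟨c, rfl⟩ hcomm
    set n : X := b * (c : X) * b⁻¹ * (c : X)⁻¹ with hn
    have hnB : n ∈ B := hκB c
    have hcomm' : b ^ i * n = n * b ^ i := by
      have := congrArg Subtype.val hcomm
      simpa [hx, hκ] using this
    have hbn : Commute b n := by
      have hcop : Nat.Coprime i q :=
        Nat.coprime_comm.1 ((Nat.Prime.coprime_iff_not_dvd hq).2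
          (Nat.not_dvd_of_pos_of_lt hi0 hiq))
      obtain ⟨j, -, hj⟩ := Nat.exists_mul_mod_eq_one_of_coprime hcop hq.one_lt
      have hb : b = (b ^ i) ^ j := by
        rw [← pow_mul, pow_eq_pow_mod (i * j) hbq, hj, pow_one]
      rw [hb]
      exact Commute.pow_left hcomm' j
    have hpowc : ∀ k : ℕ, b ^ k * (c : X) * (b ^ k)⁻¹ = n ^ k * (c : X) := by
      intro k
      induction k with
      | zero => simp
      | succ k ih =>
        have hnk : b * n ^ k = n ^ k * b := Commute.pow_right hbn k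
        calc b ^ (k + 1) * (c : X) * (b ^ (k + 1))⁻¹
            = b * (b ^ k * (c : X) * (b ^ k)⁻¹) * b⁻¹ := by rw [pow_succ']; group
          _ = b * (n ^ k * c) * b⁻¹ := by rw [ih]
          _ = (b * n ^ k) * (c * b⁻¹) := by group
          _ = (n ^ k * b) * (c * b⁻¹) := by rw [hnk]
          _ = n ^ k * (b * c * b⁻¹ * (c : X)⁻¹) * c := by group
          _ = n ^ (k + 1) * c := by rw [← hn, ← pow_succ]
    have hnq : n ^ q = 1 := by
      have h1 := hpowc q
      rw [hbq] at h1
      have h2 : (c : X) = n ^ q * (c : X) := by simpa using h1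
      exact (mul_eq_right.1 h2.symm)
    have hn1 : n = 1 := by
      have h1 : orderOf n ∣ q := orderOf_dvd_of_pow_eq_one hnq
      have h2 : orderOf n ∣ Nat.card B := by
        have := orderOf_dvd_natCard (⟨n, hnB⟩ : B)
        rwa [Subgroup.orderOf_mk] at this
      have h3 : orderOf n ∣ 1 := by
        have := Nat.dvd_gcd h2 h1
        rwa [Nat.Coprime.gcd_eq_one hcopq] at this
      exact orderOf_eq_one_iff.1 (Nat.dvd_one.1 h3)
    exact Subtype.ext hn1
  have hsum := Cfsg.Agent.H66.frob_sum θ D x q hq.pos hxD hfree hnorm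
  have hθD : ∀ d ∈ D, ∀ z : Additive ↥U, θ d z = z := by
    intro d hd z
    have hmul : θ d * ∑ d' : D, θ (d' : K) = ∑ d' : D, θ (d' : K) := by
      rw [Finset.mul_sum]
      have hterm : ∀ d' : D, θ d * θ (d' : K) = θ (((⟨d, hd⟩ : D) * d' : D) : K) := by
        intro d'; rw [← map_mul]; rfl
      rw [Finset.sum_congr rfl (fun d' _ => hterm d')]
      exact Fintype.sum_equiv (Equiv.mulLeft (⟨d, hd⟩ : D)) _ _ (fun d' => rfl)
    rw [hsum] at hmul
    have happ : θ d (Fintype.card D • z) = Fintype.card D • z :=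
      congrArg (fun L : AddMonoid.End (Additive ↥U) => L z) hmul
    rw [map_nsmul] at happ
    have hm : Fintype.card D • (θ d z - z) = 0 := by rw [smul_sub, happ, sub_self]
    have h1 : addOrderOf (θ d z - z) ∣ Fintype.card D := addOrderOf_dvd_of_nsmul_eq_zero hm
    have h2 : addOrderOf (θ d z - z) ∣ Nat.card (Additive ↥U) := addOrderOf_dvd_natCard _
    have hmB : Fintype.card D ∣ Nat.card B := by
      have := Subgroup.card_range_dvd κ
      rwa [Nat.card_eq_fintype_card] at this
    have hcardU : Nat.card (Additive ↥U) = Nat.card ↥U := Nat.card_congr Additive.toMul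
    have h3 : addOrderOf (θ d z - z) ∣ 1 := by
      have := Nat.dvd_gcd (h1.trans hmB) (hcardU ▸ h2)
      rwa [Nat.Coprime.gcd_eq_one hcopU] at this
    have h4 : θ d z - z = 0 := AddMonoid.addOrderOf_eq_one_iff.1 (Nat.dvd_one.1 h3)
    exact sub_eq_zero.1 h4
  rw [Subgroup.mem_centralizer_iff]
  intro u hu
  have hd : κ ⟨a, ha⟩ ∈ D := ⟨⟨a, ha⟩, rfl⟩
  have h1 := hθD _ hd (Additive.ofMul (⟨u, hu⟩ : U))
  have h2 : cj (κ ⟨a, ha⟩) ⟨u, hu⟩ = ⟨u, hu⟩ := by
    have := congrArg Additive.toMul h1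
    simpa [hθ] using this
  have h3 : (b * a * b⁻¹ * a⁻¹) * u * (b * a * b⁻¹ * a⁻¹)⁻¹ = u := by
    have := congrArg Subtype.val h2
    simpa [hcj, hκ] using this
  calc u * (b * a * b⁻¹ * a⁻¹)
      = ((b * a * b⁻¹ * a⁻¹) * u * (b * a * b⁻¹ * a⁻¹)⁻¹) * (b * a * b⁻¹ * a⁻¹) := by rw [h3]
    _ = (b * a * b⁻¹ * a⁻¹) * u := by group

end Cfsg.Agent.H73.Fz
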