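import Mathlib
import Cfsg.Agent.H90.BG134Defs

/-!
# S1428 piece CASE3 (helper73): Case III reduces to the case `|Q| = q`
-/

set_option autoImplicit false

namespace Cfsg.Agent.H73.BG134

open Cfsg Subgroup Cfsg.Agent.H58.BG10 Cfsg.Agent.H57.BG12 Cfsg.Agent.H76.BG12 Cfsg.Agent.H47.BG12
  Cfsg.Agent.H90.BG134

universe u

theorem case3 {G : Type u} [Group G] [Finite G] (hUO : StUniqOrd G) (h3q : StCaseIIIq G) :
    StCaseIII G := by
  intro M H P R Q p r q hI hpσ hrτ hqτ
  have hq : q.Prime := hI.hq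
  have : Fact q.Prime := ⟨hq⟩
  have hrank : PRankLE q 1 H := hqτ.2.2.2
  have hQH : Q ≤ H := hI.hQP.trans ((Subgroup.centralizer_le_normalizer _).trans hI.hNP)
  -- a subgroup `X ≤ Q` of order `q`
  have hdvd : q ∣ Nat.card Q := by
    rcases hI.hQq.card_eq_or_dvd with h | h
    · exact absurd (Subgroup.card_eq_one.mp h) hI.hQ1
    · exact h
  obtain ⟨x, hx⟩ := exists_prime_orderOf_dvd_card' q hdvd
  have hx' : orderOf (x : G) = q := by rw [Subgroup.orderOf_coe]; exact hx
  have hXQ : zpowers (x : G) ≤ Q := by rw [zpowers_le]; exact x.2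
  have hXcard : Nat.card (zpowers (x : G)) = q := by rw [Nat.card_zpowers, hx']
  -- `R` normalizes `X`
  have hRX : R ≤ normalizer ((zpowers (x : G) : Subgroup G) : Set G) := by
    intro ρ hρ
    have hρQ := hI.hRQ hρ
    have hYQ : (zpowers (x : G)).map (MulAut.conj ρ).toMonoidHom ≤ Q := by
      rintro _ ⟨y, hy, rfl⟩
      exact (mem_normalizer_iff.mp hρQ y).mp (hXQ hy)
    have hYcard : Nat.card ((zpowers (x : G)).map (MulAut.conj ρ).toMonoidHom) = q := by
      rw [Subgroup.card_map_of_injective (MulAut.conj ρ).injective, hXcard]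
    have heq := hUO H q hq hrank Q _ _ hI.hQq hQH hXQ hYQ hXcard hYcard
    apply mem_normalizer_fintype
    intro y hy
    have : ρ * y * ρ⁻¹ ∈ (zpowers (x : G)).map (MulAut.conj ρ).toMonoidHom := ⟨y, hy, rfl⟩
    rw [← heq] at this
    exact this
  have hI' : Inst M H P R (zpowers (x : G)) p r q :=
    { hM := hI.hM
      hH := hI.hH
      hp := hI.hp
      hPM := hI.hPM
      hP := hI.hP
      hRM := hI.hRM
      hR := hI.hR
      hr := hI.hr
      hrs := hI.hrs
      hRP := hI.hRP
      hNP := hI.hNP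
      hq := hI.hq
      hQ1 := by
        intro h
        rw [h, Subgroup.card_bot] at hXcard
        exact hq.one_lt.ne hXcard
      hQq := hI.hQq.to_le hXQ
      hQM := hXQ.trans hI.hQM
      hQP := hXQ.trans hI.hQP
      hRQ := hRX
      hQR := by
        rw [eq_bot_iff, ← hI.hQR]
        exact inf_le_inf_right _ hXQ }
  exact h3q M H P R _ p r q hI' hXcard hpσ hrτ hqτ

example {G : Type u} [Group G] [Finite G] (hUO : StUniqOrd G) (h3q : StCaseIIIq G) :
    StCaseIII G := case3 hUO h3q

end Cfsg.Agent.H73.BG134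

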