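import Mathlib
import Cfsg.Agent.H90.BG134Defs
import Cfsg.Agent.H13.Coprime

/-!
# S1428 piece NILCOMM (helper73): a `p`-subgroup and a `p'`-subgroup of `H'` commute modulo `H_α`
-/

set_option autoImplicit false

namespace Cfsg.Agent.H73.BG134

open Cfsg Subgroup Cfsg.Agent.H58.BG10 Cfsg.Agent.H57.BG12 Cfsg.Agent.H76.BG12 Cfsg.Agent.H47.BG12
  Cfsg.Agent.H90.BG134
open scoped commutatorElement

universe u

/-- Elementwise: two elements of `H'` of coprime orders commute modulo `H_α`. -/
theorem nilComm_mem {G : Type u} [Group G] [Finite G] (h05 : St1405 G) {H : Subgroup G}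
    (hH : IsCoatom H) {x z : G} (hx : x ∈ ⁅H, H⁆) (hz : z ∈ ⁅H, H⁆)
    (hcop : (orderOf x).Coprime (orderOf z)) : ⁅x, z⁆ ∈ alphaCore H := by
  rw [← Subgroup.map_subtype_commutator] at hx hz
  obtain ⟨x', hx', rfl⟩ := hx
  obtain ⟨z', hz', rfl⟩ := hz
  have hD := (h05 H hH).2.2.2.2
  have hcop' : (orderOf (QuotientGroup.mk' (piCore (alpha H) ↥H) x')).Coprime
      (orderOf (QuotientGroup.mk' (piCore (alpha H) ↥H) z')) := by
    have h1 : orderOf (QuotientGroup.mk' (piCore (alpha H) ↥H) x') ∣ orderOf (H.subtype x') := by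
      rw [Subgroup.coe_subtype, Subgroup.orderOf_coe]
      exact orderOf_map_dvd _ x'
    have h2 : orderOf (QuotientGroup.mk' (piCore (alpha H) ↥H) z') ∣ orderOf (H.subtype z') := by
      rw [Subgroup.coe_subtype, Subgroup.orderOf_coe]
      exact orderOf_map_dvd _ z'
    exact (hcop.coprime_dvd_left h1).coprime_dvd_right h2
  have hc := Cfsg.Agent.H13.coprime_commute_of_mem _ hD
    (Subgroup.mem_map_of_mem (QuotientGroup.mk' (piCore (alpha H) ↥H)) hx')
    (Subgroup.mem_map_of_mem (QuotientGroup.mk' (piCore (alpha H) ↥H)) hz') hcop'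
  have h3 : ⁅x', z'⁆ ∈ piCore (alpha H) ↥H := by
    rw [← QuotientGroup.eq_one_iff, ← QuotientGroup.mk'_apply, map_commutatorElement,
      commutatorElement_eq_one_iff_commute]
    exact hc
  rw [← map_commutatorElement]
  exact Subgroup.mem_map_of_mem _ h3

theorem nilComm {G : Type u} [Group G] [Finite G] (_hG : IsMinSimpleOddOrder G)
    (h05 : St1405 G) : StNilComm G := by
  intro H hH p hp T W hT hW hTp hpW
  rw [Subgroup.commutator_le]
  intro t ht w hw
  apply nilComm_mem h05 hH (hT ht) (hW hw)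
  obtain ⟨k, hk⟩ := hTp ⟨t, ht⟩
  have hk' : t ^ p ^ k = 1 := by simpa using congrArg Subtype.val hk
  have h1 : orderOf t ∣ p ^ k := orderOf_dvd_of_pow_eq_one hk'
  have h2 : orderOf w ∣ Nat.card W := Subgroup.orderOf_dvd_natCard W hw
  have h3 : Nat.Coprime p (Nat.card W) := (Nat.Prime.coprime_iff_not_dvd hp).mpr hpW
  exact ((Nat.Coprime.pow_left k h3).coprime_dvd_left h1).coprime_dvd_right h2

example {G : Type u} [Group G] [Finite G] (hG : IsMinSimpleOddOrder G)
    (h05 : St1405 G) : StNilComm G := nilComm hG h05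

end Cfsg.Agent.H73.BG134

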