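import Mathlib
import Cfsg.Agent.H90.BG134Defs

/-!
# S1428 piece QALPHA (helper73)

`Q` a nontrivial `q`-subgroup of `H`, `q ∈ σ(M)`, `H` not conjugate to `M`; `R ≤ H'` of prime order
`r ≠ q` normalizing `Q` with `C_Q(R) = 1`: impossible (`Q = [Q,R] ≤ H_α`, so `q ∈ α(H)`).
-/

set_option autoImplicit false

namespace Cfsg.Agent.H73.BG134

open Cfsg Subgroup Cfsg.Agent.H58.BG10 Cfsg.Agent.H57.BG12 Cfsg.Agent.H76.BG12 Cfsg.Agent.H47.BG12
  Cfsg.Agent.H90.BG134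
open scoped commutatorElement

universe u

/-- If `ρ` normalizes the finite subgroup `Q` and has no nontrivial fixed point on `Q`, then
`Q ≤ [Q, ⟨ρ⟩]`: the map `x ↦ x⁻¹ ρ x ρ⁻¹` is injective on `Q`, hence surjective. -/
theorem le_commutator_of_fixedPointFree {G : Type u} [Group G] [Finite G] (Q R : Subgroup G)
    {ρ : G} (hρR : ρ ∈ R) (hρQ : ρ ∈ normalizer (Q : Set G))
    (hfix : ∀ y ∈ Q, ρ * y = y * ρ → y = 1) : Q ≤ ⁅Q, R⁆ := by
  have hmem : ∀ x : Q, (x : G)⁻¹ * (ρ * (x : G) * ρ⁻¹) ∈ Q := fun x =>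
    mul_mem (inv_mem x.2) ((mem_normalizer_iff.mp hρQ _).mp x.2)
  have hinj : Function.Injective (fun x : Q => (⟨(x : G)⁻¹ * (ρ * (x : G) * ρ⁻¹), hmem x⟩ : Q)) := by
    intro x y h
    have h' : (x : G)⁻¹ * (ρ * (x : G) * ρ⁻¹) = (y : G)⁻¹ * (ρ * (y : G) * ρ⁻¹) :=
      congrArg Subtype.val h
    have h1 : ρ * ((y : G) * (x : G)⁻¹) = ((y : G) * (x : G)⁻¹) * ρ := by
      have e1 : (y : G) * (x : G)⁻¹ = (y : G) * ((x : G)⁻¹ * (ρ * (x : G) * ρ⁻¹)) *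
          (ρ * (x : G)⁻¹ * ρ⁻¹) := by group
      have e2 : (y : G) * ((y : G)⁻¹ * (ρ * (y : G) * ρ⁻¹)) * (ρ * (x : G)⁻¹ * ρ⁻¹) =
          ρ * ((y : G) * (x : G)⁻¹) * ρ⁻¹ := by group
      rw [h', e2] at e1
      calc ρ * ((y : G) * (x : G)⁻¹) = (ρ * ((y : G) * (x : G)⁻¹) * ρ⁻¹) * ρ := by group
        _ = ((y : G) * (x : G)⁻¹) * ρ := by rw [← e1]
    have h2 := hfix _ (mul_mem y.2 (inv_mem x.2)) h1
    exact Subtype.ext (mul_inv_eq_one.mp h2).symm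
  have hsurj := Finite.surjective_of_injective hinj
  intro y hy
  obtain ⟨x, hx⟩ := hsurj ⟨y, hy⟩
  have hx' : (x : G)⁻¹ * (ρ * (x : G) * ρ⁻¹) = y := congrArg Subtype.val hx
  have h3 : ⁅(x : G)⁻¹, ρ⁆ ∈ ⁅Q, R⁆ := commutator_mem_commutator (inv_mem x.2) hρR
  have h4 : ⁅(x : G)⁻¹, ρ⁆ = (x : G)⁻¹ * (ρ * (x : G) * ρ⁻¹) := by
    rw [commutatorElement_def]; group
  rw [← hx', ← h4]
  exact h3

theorem qAlpha {G : Type u} [Group G] [Finite G] (_hG : IsMinSimpleOddOrder G)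
    (h05 : St1405 G) (hAS : StAlphaSigma G) (hNC : StNilComm G) : StQAlpha G := by
  intro M H hM hH hnc q hqM Q hQ1 hQq hQH r hr hrq R hRcard hRH' hRQ hQR
  have hq : q.Prime := hqM.1
  have : Fact r.Prime := ⟨hr⟩
  -- a generator of `R`
  have hnt : Nontrivial R :=
    Finite.one_lt_card_iff_nontrivial.mp (by rw [hRcard]; exact hr.one_lt)
  obtain ⟨⟨ρ, hρR⟩, hρ'⟩ := exists_ne (1 : R)
  have hfix : ∀ y ∈ Q, ρ * y = y * ρ → y = 1 := by
    intro y hy hc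
    have hyC : y ∈ centralizer (R : Set G) := by
      rw [mem_centralizer_iff]
      intro w hw
      have hz := mem_zpowers_of_prime_card hRcard (g := (⟨ρ, hρR⟩ : R)) (g' := ⟨w, hw⟩) hρ'
      obtain ⟨k, hk⟩ := Subgroup.mem_zpowers_iff.mp hz
      have hk' : ρ ^ k = w := by simpa using congrArg Subtype.val hk
      rw [← hk']
      exact ((show Commute ρ y from hc).zpow_left k).eq
    have : y ∈ Q ⊓ centralizer (R : Set G) := ⟨hy, hyC⟩
    rw [hQR] at this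
    exact Subgroup.mem_bot.mp this
  have hQcomm : Q ≤ ⁅Q, R⁆ := le_commutator_of_fixedPointFree Q R hρR (hRQ hρR) hfix
  have hH'H : ⁅H, H⁆ ≤ H := by
    rw [Subgroup.commutator_le]
    intro a ha b hb
    rw [commutatorElement_def]
    exact mul_mem (mul_mem (mul_mem ha hb) (inv_mem ha)) (inv_mem hb)
  have hQH' : Q ≤ ⁅H, H⁆ := hQcomm.trans (Subgroup.commutator_mono hQH (hRH'.trans hH'H))
  have hqR : ¬ q ∣ Nat.card R := by
    rw [hRcard]
    intro h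
    exact hrq ((Nat.prime_dvd_prime_iff_eq hq hr).mp h).symm
  have hQα : Q ≤ alphaCore H := hQcomm.trans (hNC H hH q hq Q R hQH' hRH' hQq hqR)
  have hdvd : q ∣ Nat.card Q := by
    have : Fact q.Prime := ⟨hq⟩
    rcases hQq.card_eq_or_dvd with h | h
    · exact absurd (Subgroup.card_eq_one.mp h) hQ1
    · exact h
  have hqα : q ∈ alpha H :=
    (h05 H hH).1.2.1 q hq (hdvd.trans (Subgroup.card_dvd_of_le hQα))
  exact hAS M H hM hH hnc q hqα hqM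

example {G : Type u} [Group G] [Finite G] (hG : IsMinSimpleOddOrder G)
    (h05 : St1405 G) (hAS : StAlphaSigma G) (hNC : StNilComm G) : StQAlpha G :=
  qAlpha hG h05 hAS hNC

end Cfsg.Agent.H73.BG134

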