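import Mathlib
import Cfsg.Agent.H38.BG161Defs

/-!
# S1421 piece ASMA (helper73): abstract assembly of Case A

`E = L · P · V`, `P = D × A₀`: the subgroup `E₀ = L (D V)` avoids `A₀` and has the exponent of `E`.
-/

set_option autoImplicit false

namespace Cfsg.Agent.H73.BG161

open Cfsg Subgroup Cfsg.Agent.H38.BG161

universe u
variable {G : Type u} [Group G]

/-- Coercion of a power equation from a subgroup. -/
lemma coe_pow_eq_one {H : Subgroup G} {x : G} (hx : x ∈ H) {n : ℕ}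
    (h : (⟨x, hx⟩ : H) ^ n = 1) : x ^ n = 1 := by
  have := congrArg Subtype.val h
  simpa using this

/-- If `v` normalizes `L` and `l ∈ L`, then `(l * v) ^ k ∈ L * v ^ k`. -/
lemma pow_mul_normalizer (L : Subgroup G) {l v : G} (hl : l ∈ L)
    (hv : v ∈ normalizer (L : Set G)) (k : ℕ) : ∃ l' ∈ L, (l * v) ^ k = l' * v ^ k := by
  induction k with
  | zero => exact ⟨1, one_mem _, by simp⟩
  | succ k ih =>
    obtain ⟨l', hl', h⟩ := ih
    have hvk : v ^ k ∈ normalizer (L : Set G) := pow_mem hv k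
    refine ⟨l' * (v ^ k * l * (v ^ k)⁻¹), mul_mem hl' ((mem_normalizer_iff.mp hvk l).mp hl), ?_⟩
    rw [pow_succ, h, pow_succ]
    group

/-- In a subgroup `A` of prime order normalized by `g`: if `g` does not commute with `a ∈ A`,
then `g * a` is conjugate to `g` by an element of `A`. -/
lemma conj_of_prime_card [Finite G] (p : ℕ) [Fact p.Prime] (A : Subgroup G)
    (hA : Nat.card A = p) {g a : G} (hg : g ∈ normalizer (A : Set G)) (ha : a ∈ A)
    (hne : g * a ≠ a * g) : ∃ b ∈ A, b * g * b⁻¹ = g * a := by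
  have hg' : g⁻¹ ∈ normalizer (A : Set G) := inv_mem hg
  let f : A → A := fun b => ⟨g⁻¹ * b * g * (b : G)⁻¹, by
    have h1 : g⁻¹ * (b : G) * g⁻¹⁻¹ ∈ A := (mem_normalizer_iff.mp hg' b).mp b.2
    rw [inv_inv] at h1
    exact mul_mem h1 (inv_mem b.2)⟩
  have hinj : Function.Injective f := by
    intro b c hbc
    have h1 : g⁻¹ * (b : G) * g * (b : G)⁻¹ = g⁻¹ * (c : G) * g * (c : G)⁻¹ :=
      congrArg Subtype.val hbc
    have h3 : (b : G) * g * (b : G)⁻¹ = (c : G) * g * (c : G)⁻¹ := by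
      have h2 := congrArg (fun x => g * x) h1
      simpa [mul_assoc] using h2
    have h2 : ((c : G)⁻¹ * b) * g = g * ((c : G)⁻¹ * b) := by
      calc ((c : G)⁻¹ * b) * g = (c : G)⁻¹ * ((b : G) * g * (b : G)⁻¹) * b := by group
        _ = (c : G)⁻¹ * ((c : G) * g * (c : G)⁻¹) * b := by rw [h3]
        _ = g * ((c : G)⁻¹ * b) := by group
    by_contra hbc'
    have ht : (c⁻¹ * b : A) ≠ 1 := by
      intro h
      exact hbc' (inv_mul_eq_one.mp h).symm
    have hmem := mem_zpowers_of_prime_card hA ht (g' := ⟨a, ha⟩)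
    obtain ⟨k, hk⟩ := Subgroup.mem_zpowers_iff.mp hmem
    have hk' : ((c : G)⁻¹ * b) ^ k = a := by
      have := congrArg Subtype.val hk
      simpa using this
    apply hne
    have hc : Commute g (((c : G)⁻¹ * b) ^ k) :=
      Commute.zpow_right (show Commute g ((c : G)⁻¹ * b) from h2.symm) k
    rw [hk'] at hc
    exact hc
  obtain ⟨b, hb⟩ := (Finite.injective_iff_surjective.mp hinj) ⟨a, ha⟩
  refine ⟨b, b.2, ?_⟩
  have h1 : g⁻¹ * (b : G) * g * (b : G)⁻¹ = a := congrArg Subtype.val hb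
  calc (b : G) * g * (b : G)⁻¹ = g * (g⁻¹ * b * g * (b : G)⁻¹) := by group
    _ = g * a := by rw [h1]

theorem asmA [Finite G] : StAsmA G := by
  intro p _ E L P V D A₀ hLE hEL hpL hPE hP hPc hVE hVP hpV hdec hEA hA hAP hp2 hDP hVD hDA hDAP
  have hp : p.Prime := Fact.out
  have hDVE : D ⊔ V ≤ E := sup_le (hDP.trans hPE) hVE
  have hE₀E : L ⊔ (D ⊔ V) ≤ E := sup_le hLE hDVE
  refine ⟨L ⊔ (D ⊔ V), hE₀E, ?_, ?_⟩
  · -- `E₀ ⊓ A₀ = ⊥`
    rw [eq_bot_iff]
    intro a ha
    rw [mem_inf] at ha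
    obtain ⟨haE, haA⟩ := ha
    have h1 : a ∈ ((L ⊔ (D ⊔ V) : Subgroup G) : Set G) := haE
    rw [coe_mul_of_right_le_normalizer_left L (D ⊔ V) (hDVE.trans hEL)] at h1
    obtain ⟨l, hl, y, hy, rfl⟩ := Set.mem_mul.mp h1
    have h2 : y ∈ ((D ⊔ V : Subgroup G) : Set G) := hy
    rw [coe_mul_of_right_le_normalizer_left D V hVD] at h2
    obtain ⟨d, hd, v, hv, rfl⟩ := Set.mem_mul.mp h2
    have hd' : v⁻¹ * d * v ∈ D := by
      have := (mem_normalizer_iff.mp (inv_mem (hVD hv)) d).mp hd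
      simpa using this
    have hxP : l * v ∈ P := by
      have : l * v = (l * (d * v)) * (v⁻¹ * d * v)⁻¹ := by group
      rw [this]
      exact mul_mem (hAP haA) (inv_mem (hDP hd'))
    have hx1 : l * v = 1 := by
      obtain ⟨l', hl', hpow⟩ := pow_mul_normalizer L hl (hEL (hVE hv)) (Nat.card V)
      have hvV : v ^ Nat.card V = 1 := coe_pow_eq_one hv (pow_card_eq_one' (G := V))
      rw [hvV, mul_one] at hpow
      have hxL : ((l * v) ^ Nat.card V) ^ Nat.card L = 1 := by
        rw [hpow]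
        exact coe_pow_eq_one hl' (pow_card_eq_one' (G := L))
      obtain ⟨k, hk⟩ := hP ⟨l * v, hxP⟩
      have hk' : (l * v) ^ p ^ k = 1 := coe_pow_eq_one hxP hk
      have hd1 : orderOf (l * v) ∣ p ^ k := orderOf_dvd_of_pow_eq_one hk'
      have hd2 : orderOf (l * v) ∣ Nat.card V * Nat.card L :=
        orderOf_dvd_of_pow_eq_one (by rw [pow_mul]; exact hxL)
      have hcop : Nat.Coprime (p ^ k) (Nat.card V * Nat.card L) :=
        Nat.Coprime.pow_left k (Nat.Coprime.mul_right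
          ((Nat.Prime.coprime_iff_not_dvd hp).mpr hpV) ((Nat.Prime.coprime_iff_not_dvd hp).mpr hpL))
      have h1' : orderOf (l * v) ∣ 1 := by
        have := Nat.dvd_gcd hd1 hd2
        rwa [hcop] at this
      exact orderOf_eq_one_iff.mp (Nat.dvd_one.mp h1')
    have heq : l * (d * v) = v⁻¹ * d * v := by
      calc l * (d * v) = (l * v) * (v⁻¹ * d * v) := by group
        _ = v⁻¹ * d * v := by rw [hx1, one_mul]
    have hmem : l * (d * v) ∈ D ⊓ A₀ := by
      refine mem_inf.mpr ⟨?_, haA⟩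
      rw [heq]; exact hd'
    rw [hDA] at hmem
    exact hmem
  · -- the exponent
    apply Nat.dvd_antisymm
    · exact Monoid.exponent_dvd_of_monoidHom (Subgroup.inclusion hE₀E)
        (Subgroup.inclusion_injective _)
    · set n := Monoid.exponent (L ⊔ (D ⊔ V) : Subgroup G) with hn
      have hE₀pow : ∀ e₀ ∈ (L ⊔ (D ⊔ V) : Subgroup G), e₀ ^ n = 1 := by
        intro e₀ he₀
        exact coe_pow_eq_one he₀ (Monoid.pow_exponent_eq_one _)
      have hpn : p ∣ n := by
        have hDne : D ≠ ⊥ := by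
          intro hD
          rw [hD, bot_sup_eq] at hDAP
          rw [← hDAP, hA] at hp2
          have h1 := Nat.le_of_dvd hp.pos hp2
          nlinarith [hp.two_le]
        obtain ⟨⟨d, hd⟩, hd1⟩ := Subgroup.ne_bot_iff_exists_ne_one.mp hDne
        have hd1' : d ≠ 1 := fun h => hd1 (Subtype.ext h)
        obtain ⟨k, hk⟩ := hP ⟨d, hDP hd⟩
        have hk' : d ^ p ^ k = 1 := coe_pow_eq_one (hDP hd) hk
        obtain ⟨j, hj, hoj⟩ := (Nat.dvd_prime_pow hp).mp (orderOf_dvd_of_pow_eq_one hk')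
        have hj0 : j ≠ 0 := by
          rintro rfl
          rw [pow_zero] at hoj
          exact hd1' (orderOf_eq_one_iff.mp hoj)
        have h1 : p ∣ orderOf d := by rw [hoj]; exact dvd_pow_self p hj0
        exact h1.trans (orderOf_dvd_of_pow_eq_one
          (hE₀pow d (mem_sup_right (mem_sup_left hd))))
      apply Monoid.exponent_dvd_of_forall_pow_eq_one
      rintro ⟨e, he⟩
      apply Subtype.ext
      show e ^ n = 1
      obtain ⟨l, hl, x, hx, v, hv, rfl⟩ := hdec e he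
      have hx' : x ∈ ((D ⊔ A₀ : Subgroup G) : Set G) := by rw [hDAP]; exact hx
      rw [coe_mul_of_left_le_normalizer_right D A₀ ((hDP.trans hPE).trans hEA)] at hx'
      obtain ⟨d, hd, a, ha, rfl⟩ := Set.mem_mul.mp hx'
      have hea : l * (d * a) * v = (l * (d * v)) * (v⁻¹ * a * v) := by group
      have he₀mem : l * (d * v) ∈ (L ⊔ (D ⊔ V) : Subgroup G) :=
        mul_mem (mem_sup_left hl) (mem_sup_right (mul_mem (mem_sup_left hd) (mem_sup_right hv)))
      have ha'mem : v⁻¹ * a * v ∈ A₀ := by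
        have := (mem_normalizer_iff.mp (inv_mem (hEA (hVE hv))) a).mp ha
        simpa using this
      rw [hea]
      by_cases hcomm : (l * (d * v)) * (v⁻¹ * a * v) = (v⁻¹ * a * v) * (l * (d * v))
      · rw [(show Commute (l * (d * v)) (v⁻¹ * a * v) from hcomm).mul_pow,
          hE₀pow _ he₀mem, one_mul]
        obtain ⟨c, hc⟩ := hpn
        have hap : (v⁻¹ * a * v) ^ p = 1 := by
          have h1 := pow_card_eq_one' (G := A₀) (x := ⟨v⁻¹ * a * v, ha'mem⟩)
          rw [hA] at h1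
          exact coe_pow_eq_one ha'mem h1
        rw [hc, pow_mul, hap, one_pow]
      · obtain ⟨b, hb, hconj⟩ := conj_of_prime_card p A₀ hA (hEA (hE₀E he₀mem)) ha'mem hcomm
        rw [← hconj, conj_pow, hE₀pow _ he₀mem, mul_one, mul_inv_cancel]

example [Finite G] : StAsmA G := asmA

end Cfsg.Agent.H73.BG161

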