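import Mathlib
import Cfsg.Agent.H38.BG161Defs
import Cfsg.Agent.H73.BG161AsmA

/-!
# S1421 piece ASMB (helper73): abstract assembly of Case B

For the primes `p ∈ T` the group `E` has abelian normal Sylow subgroups `S p` with `E`-invariant
regular subgroups `C p` of full exponent.  `N = ⟨S p⟩` is an abelian normal Hall subgroup of `E`
containing every `T`-element; with a complement `K` (Schur–Zassenhaus), `E₀ = ⟨C p⟩ K` is regular
of full exponent.
-/

set_option autoImplicit false

namespace Cfsg.Agent.H73.BG161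

open Cfsg Subgroup Cfsg.Agent.H38.BG161 Cfsg.Agent.H58.BG10 Cfsg.Agent.H58.BG12

universe u
variable {G : Type u} [Group G]

/-- If a power of `x` has trivial centralizer in `N`, so does `x`. -/
lemma regular_of_pow (N : Subgroup G) (x : G) (j : ℕ)
    (h : N ⊓ centralizer ({x ^ j} : Set G) = ⊥) : N ⊓ centralizer ({x} : Set G) = ⊥ := by
  rw [eq_bot_iff, ← h]
  apply inf_le_inf_left
  intro g hg
  rw [mem_centralizer_iff] at hg ⊢
  intro y hy
  rw [Set.mem_singleton_iff] at hy
  subst hy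
  have h1 : Commute x g := hg x rfl
  exact (h1.pow_left j).eq

/-- A subgroup normalizes the closure of a set stable under its conjugation. -/
lemma le_normalizer_closure (E : Subgroup G) (X : Set G)
    (hX : ∀ e ∈ E, ∀ x ∈ X, e * x * e⁻¹ ∈ X) : E ≤ normalizer (closure X : Set G) := by
  have key : ∀ e ∈ E, ∀ h ∈ closure X, e * h * e⁻¹ ∈ closure X := by
    intro e he h hh
    induction hh using closure_induction with
    | mem x hx => exact subset_closure (hX e he x hx)
    | one => simp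
    | mul x y _ _ hx hy =>
      have : e * (x * y) * e⁻¹ = (e * x * e⁻¹) * (e * y * e⁻¹) := by group
      rw [this]; exact mul_mem hx hy
    | inv x _ hx =>
      have : e * x⁻¹ * e⁻¹ = (e * x * e⁻¹)⁻¹ := by group
      rw [this]; exact inv_mem hx
  intro e he
  rw [mem_normalizer_iff]
  intro h
  constructor
  · exact key e he h
  · intro hh
    have := key e⁻¹ (inv_mem he) _ hh
    simpa [mul_assoc] using this

/-- The closure of a commuting set is commutative. -/
lemma closure_comm' (X : Set G) (hcomm : ∀ x ∈ X, ∀ y ∈ X, x * y = y * x) :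
    ∀ a ∈ closure X, ∀ b ∈ closure X, a * b = b * a := by
  intro a ha b hb
  have := (Subgroup.isMulCommutative_closure hcomm).is_comm.comm ⟨a, ha⟩ ⟨b, hb⟩
  exact congrArg Subtype.val this

/-- In the closure of a commuting set of `T`-elements every element is a `T`-element. -/
lemma isT_of_mem_closure (T : Set ℕ) (X : Set G) (hcomm : ∀ x ∈ X, ∀ y ∈ X, x * y = y * x)
    (hX : ∀ x ∈ X, ∀ q : ℕ, q.Prime → q ∣ orderOf x → q ∈ T) :
    ∀ a ∈ closure X, ∀ q : ℕ, q.Prime → q ∣ orderOf a → q ∈ T := by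
  intro a ha
  induction ha using closure_induction with
  | mem x hx => exact hX x hx
  | one =>
    intro q hq hdvd
    rw [orderOf_one] at hdvd
    exact absurd (Nat.dvd_one.mp hdvd) hq.one_lt.ne'
  | mul x y hx hy ihx ihy =>
    intro q hq hdvd
    have hc : Commute x y := closure_comm' X hcomm x hx y hy
    rcases (Nat.Prime.dvd_mul hq).mp
      ((hdvd.trans hc.orderOf_mul_dvd_lcm).trans (Nat.lcm_dvd_mul _ _)) with h | h
    · exact ihx q hq h
    · exact ihy q hq h
  | inv x _ ihx =>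
    intro q hq hdvd
    rw [orderOf_inv] at hdvd
    exact ihx q hq hdvd

theorem asmB [Finite G] : StAsmB G := by
  intro M E T h1 h2 h3
  have h3' : ∀ p : ℕ, ∃ S C : Subgroup G, p.Prime → p ∈ T → (S ≤ E ∧
        E ≤ normalizer (S : Set G) ∧ (∀ a ∈ S, ∀ b ∈ S, a * b = b * a) ∧
        (∃ P : Sylow p G, (P : Subgroup G) = S) ∧ C ≤ S ∧ E ≤ normalizer (C : Set G) ∧
        Monoid.exponent C = Monoid.exponent S ∧
        ∀ c ∈ C, c ≠ 1 → sigmaCore M ⊓ centralizer ({c} : Set G) = ⊥) := by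
    intro p
    by_cases hp : p.Prime ∧ p ∈ T
    · have : Fact p.Prime := ⟨hp.1⟩
      obtain ⟨S, C, h⟩ := h3 p hp.2
      exact ⟨S, C, fun _ _ => h⟩
    · exact ⟨⊥, ⊥, fun h h' => absurd ⟨h, h'⟩ hp⟩
  choose S C hSC using h3'
  have hSE : ∀ p, p.Prime → p ∈ T → S p ≤ E := fun p hp hpT => (hSC p hp hpT).1
  have hnS : ∀ p, p.Prime → p ∈ T → E ≤ normalizer (S p : Set G) :=
    fun p hp hpT => (hSC p hp hpT).2.1
  have hSab : ∀ p, p.Prime → p ∈ T → ∀ a ∈ S p, ∀ b ∈ S p, a * b = b * a :=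
    fun p hp hpT => (hSC p hp hpT).2.2.1
  have hSyl : ∀ p, p.Prime → p ∈ T → ∃ P : Sylow p G, (P : Subgroup G) = S p :=
    fun p hp hpT => (hSC p hp hpT).2.2.2.1
  have hCS : ∀ p, p.Prime → p ∈ T → C p ≤ S p := fun p hp hpT => (hSC p hp hpT).2.2.2.2.1
  have hnC : ∀ p, p.Prime → p ∈ T → E ≤ normalizer (C p : Set G) :=
    fun p hp hpT => (hSC p hp hpT).2.2.2.2.2.1
  have hexp : ∀ p, p.Prime → p ∈ T → Monoid.exponent (C p) = Monoid.exponent (S p) :=
    fun p hp hpT => (hSC p hp hpT).2.2.2.2.2.2.1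
  have hregC : ∀ p, p.Prime → p ∈ T → ∀ c ∈ C p, c ≠ 1 →
      sigmaCore M ⊓ centralizer ({c} : Set G) = ⊥ :=
    fun p hp hpT => (hSC p hp hpT).2.2.2.2.2.2.2
  -- elements of `S p` are `p`-elements
  have hpel : ∀ p, p.Prime → p ∈ T → ∀ x ∈ S p, ∃ k : ℕ, orderOf x = p ^ k := by
    intro p hp hpT x hx
    have : Fact p.Prime := ⟨hp⟩
    obtain ⟨P, hP⟩ := hSyl p hp hpT
    rw [← hP] at hx
    obtain ⟨k, hk⟩ := (IsPGroup.iff_orderOf.mp P.isPGroup') ⟨x, hx⟩
    exact ⟨k, by rwa [Subgroup.orderOf_mk] at hk⟩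
  -- `p`-elements of `E` lie in `S p`
  have hmemS : ∀ p, p.Prime → p ∈ T → ∀ x ∈ E, ∀ k : ℕ, orderOf x = p ^ k → x ∈ S p := by
    intro p hp hpT x hx k hk
    have : Fact p.Prime := ⟨hp⟩
    obtain ⟨P, hP⟩ := hSyl p hp hpT
    have hpg : IsPGroup p (zpowers x) := IsPGroup.of_card (n := k) (by rw [Nat.card_zpowers, hk])
    have hle : zpowers x ≤ normalizer ((P : Subgroup G) : Set G) := by
      rw [zpowers_le, hP]
      exact hnS p hp hpT hx
    have hsup := IsPGroup.to_sup_of_normal_right' hpg P.isPGroup' hle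
    have heq := P.is_maximal' hsup le_sup_right
    rw [← hP, ← heq]
    exact mem_sup_left (mem_zpowers x)
  set X : Set G := {x | ∃ p : ℕ, p.Prime ∧ p ∈ T ∧ x ∈ S p} with hXdef
  set Y : Set G := {x | ∃ p : ℕ, p.Prime ∧ p ∈ T ∧ x ∈ C p} with hYdef
  have hXcomm : ∀ x ∈ X, ∀ y ∈ X, x * y = y * x := by
    rintro x ⟨p, hp, hpT, hx⟩ y ⟨q, hq, hqT, hy⟩
    by_cases hpq : p = q
    · subst hpq
      exact hSab p hp hpT x hx y hy
    · have hzp : x * y * x⁻¹ * y⁻¹ ∈ S p := by
        have h := (mem_normalizer_iff.mp (hnS p hp hpT (hSE q hq hqT hy)) x⁻¹).mp (inv_mem hx)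
        have : x * y * x⁻¹ * y⁻¹ = x * (y * x⁻¹ * y⁻¹) := by group
        rw [this]
        exact mul_mem hx h
      have hzq : x * y * x⁻¹ * y⁻¹ ∈ S q := by
        have h := (mem_normalizer_iff.mp (hnS q hq hqT (hSE p hp hpT hx)) y).mp hy
        exact mul_mem h (inv_mem hy)
      obtain ⟨i, hi⟩ := hpel p hp hpT _ hzp
      obtain ⟨j, hj⟩ := hpel q hq hqT _ hzq
      have hi0 : i = 0 := by
        by_contra hi0
        have hd : p ∣ q ^ j := by rw [← hj, hi]; exact dvd_pow_self p hi0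
        exact hpq ((Nat.prime_dvd_prime_iff_eq hp hq).mp (hp.dvd_of_dvd_pow hd))
      rw [hi0, pow_zero] at hi
      have hz1 : x * y * x⁻¹ * y⁻¹ = 1 := orderOf_eq_one_iff.mp hi
      exact mul_inv_eq_iff_eq_mul.mp (mul_inv_eq_one.mp hz1)
  have hNcomm := closure_comm' X hXcomm
  have hNE : closure X ≤ E := by
    rw [closure_le]
    rintro x ⟨p, hp, hpT, hx⟩
    exact hSE p hp hpT hx
  have hEN : E ≤ normalizer (closure X : Set G) := by
    apply le_normalizer_closure
    rintro e he x ⟨p, hp, hpT, hx⟩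
    exact ⟨p, hp, hpT, (mem_normalizer_iff.mp (hnS p hp hpT he) x).mp hx⟩
  have hNT : ∀ a ∈ closure X, ∀ q : ℕ, q.Prime → q ∣ orderOf a → q ∈ T := by
    apply isT_of_mem_closure T X hXcomm
    rintro x ⟨p, hp, hpT, hx⟩ q hq hdvd
    obtain ⟨k, hk⟩ := hpel p hp hpT x hx
    rw [hk] at hdvd
    rw [(Nat.prime_dvd_prime_iff_eq hq hp).mp (hq.dvd_of_dvd_pow hdvd)]
    exact hpT
  have hSN : ∀ p, p.Prime → p ∈ T → S p ≤ closure X :=
    fun p hp hpT x hx => subset_closure ⟨p, hp, hpT, hx⟩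
  have hCCN : closure Y ≤ closure X := by
    rw [closure_le]
    rintro y ⟨p, hp, hpT, hy⟩
    exact hSN p hp hpT (hCS p hp hpT hy)
  have hECC : E ≤ normalizer (closure Y : Set G) := by
    apply le_normalizer_closure
    rintro e he x ⟨p, hp, hpT, hx⟩
    exact ⟨p, hp, hpT, (mem_normalizer_iff.mp (hnC p hp hpT he) x).mp hx⟩
  have hCqY : ∀ p, p.Prime → p ∈ T → C p ≤ closure Y :=
    fun p hp hpT x hx => subset_closure ⟨p, hp, hpT, hx⟩
  -- index facts
  have hidx : ∀ q, q.Prime → q ∈ T → ¬ q ∣ (closure X).relIndex E := by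
    intro q hq hqT hdvd
    have : Fact q.Prime := ⟨hq⟩
    obtain ⟨P, hP⟩ := hSyl q hq hqT
    have hd1 : (closure X).relIndex E ∣ (S q).relIndex E :=
      relIndex_dvd_of_le_left E (hSN q hq hqT)
    have hd2 : (S q).relIndex E ∣ (S q).index := relIndex_dvd_index_of_le (hSE q hq hqT)
    have hd3 : ¬ q ∣ (S q).index := by rw [← hP]; exact P.not_dvd_index
    exact hd3 (hdvd.trans (hd1.trans hd2))
  have hN'normal : ((closure X).subgroupOf E).Normal :=
    (normal_subgroupOf_iff_le_normalizer hNE).mpr hEN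
  have hcop : Nat.Coprime (Nat.card ((closure X).subgroupOf E)) ((closure X).subgroupOf E).index := by
    apply Nat.coprime_of_dvd
    intro q hq hqc hqi
    have : Fact q.Prime := ⟨hq⟩
    obtain ⟨x, hx⟩ := exists_prime_orderOf_dvd_card' q hqc
    have hxN : ((x : E) : G) ∈ closure X := mem_subgroupOf.mp x.2
    have ho : orderOf ((x : E) : G) = q := by
      rw [Subgroup.orderOf_coe, Subgroup.orderOf_coe, hx]
    exact hidx q hq (hNT _ hxN q hq (by rw [ho])) hqi
  -- `T`-elements of `E` lie in `N`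
  have hmemN : ∀ y ∈ E, (∀ q : ℕ, q.Prime → q ∣ orderOf y → q ∈ T) → y ∈ closure X := by
    intro y hy hT
    have hpow : y ^ (closure X).relIndex E ∈ closure X := by
      have := Subgroup.pow_index_mem ((closure X).subgroupOf E) (⟨y, hy⟩ : E)
      exact mem_subgroupOf.mp this
    have hc : Nat.Coprime ((closure X).relIndex E) (orderOf y) := by
      apply Nat.Coprime.symm
      apply Nat.coprime_of_dvd
      intro q hq hqo hqi
      exact hidx q hq (hT q hq hqo) hqi
    obtain ⟨m, hm⟩ := exists_pow_eq_self_of_coprime hc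
    rw [← hm]
    exact pow_mem hpow m
  refine ⟨?_, ?_⟩
  · intro y hy y' hy' hs hs'
    exact hNcomm y (hmemN y hy (h2 y hy hs)) y' (hmemN y' hy' (h2 y' hy' hs'))
  -- the complement
  obtain ⟨K', hK'⟩ := Subgroup.exists_right_complement'_of_coprime hcop
  set K : Subgroup G := K'.map E.subtype with hKdef
  have hKE : K ≤ E := map_subtype_le K'
  have hdecomp : ∀ e ∈ E, ∃ n ∈ closure X, ∃ k ∈ K, e = n * k := by
    intro e he
    obtain ⟨⟨n, k⟩, hnk, -⟩ := hK'.existsUnique ⟨e, he⟩
    refine ⟨((n : E) : G), mem_subgroupOf.mp n.2, ((k : E) : G), ⟨(k : E), k.2, rfl⟩, ?_⟩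
    have := congrArg Subtype.val hnk
    simpa using this.symm
  have hNK : ∀ k ∈ K, k ∈ closure X → k = 1 := by
    rintro k ⟨k', hk', rfl⟩ hkN
    have hmem : k' ∈ (closure X).subgroupOf E ⊓ K' := ⟨mem_subgroupOf.mpr hkN, hk'⟩
    rw [hK'.disjoint.eq_bot] at hmem
    rw [mem_bot.mp hmem]
    rfl
  have hE₀E : closure Y ⊔ K ≤ E := sup_le (hCCN.trans hNE) hKE
  have hE₀dec : ∀ e ∈ closure Y ⊔ K, ∃ c ∈ closure Y, ∃ k ∈ K, e = c * k := by
    intro e he
    have h : e ∈ ((closure Y ⊔ K : Subgroup G) : Set G) := he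
    rw [coe_mul_of_right_le_normalizer_left (closure Y) K (hKE.trans hECC)] at h
    obtain ⟨c, hc, k, hk, rfl⟩ := Set.mem_mul.mp h
    exact ⟨c, hc, k, hk, rfl⟩
  -- the `q`-part of an element of `⟨C p⟩`
  have hCCq : ∀ q, q.Prime → q ∈ T → ∀ c ∈ closure Y,
      ∃ a ∈ C q, ∃ b ∈ closure X, ¬ q ∣ orderOf b ∧ c = a * b := by
    intro q hq hqT c hc
    have hq1 : ¬ q ∣ orderOf (1 : G) := by
      rw [orderOf_one]
      exact fun h => hq.one_lt.ne' (Nat.dvd_one.mp h)
    induction hc using closure_induction with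
    | mem y hy =>
      obtain ⟨p, hp, hpT, hy⟩ := hy
      by_cases hpq : p = q
      · subst hpq
        exact ⟨y, hy, 1, one_mem _, hq1, by simp⟩
      · refine ⟨1, one_mem _, y, hSN p hp hpT (hCS p hp hpT hy), ?_, by simp⟩
        obtain ⟨k, hk⟩ := hpel p hp hpT y (hCS p hp hpT hy)
        rw [hk]
        intro hdvd
        exact hpq ((Nat.prime_dvd_prime_iff_eq hq hp).mp (hq.dvd_of_dvd_pow hdvd)).symm
    | one => exact ⟨1, one_mem _, 1, one_mem _, hq1, by simp⟩
    | mul x y _ _ hx hy =>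
      obtain ⟨a, ha, b, hb, hqb, rfl⟩ := hx
      obtain ⟨a', ha', b', hb', hqb', rfl⟩ := hy
      refine ⟨a * a', mul_mem ha ha', b * b', mul_mem hb hb', ?_, ?_⟩
      · intro hdvd
        have hcomm : Commute b b' := hNcomm b hb b' hb'
        rcases (Nat.Prime.dvd_mul hq).mp
          ((hdvd.trans hcomm.orderOf_mul_dvd_lcm).trans (Nat.lcm_dvd_mul _ _)) with h | h
        · exact hqb h
        · exact hqb' h
      · have h1 : b * a' = a' * b := hNcomm b hb a' (hSN q hq hqT (hCS q hq hqT ha'))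
        calc a * b * (a' * b') = a * (b * a') * b' := by group
          _ = a * (a' * b) * b' := by rw [h1]
          _ = a * a' * (b * b') := by group
    | inv x _ hx =>
      obtain ⟨a, ha, b, hb, hqb, rfl⟩ := hx
      refine ⟨a⁻¹, inv_mem ha, b⁻¹, inv_mem hb, by rwa [orderOf_inv], ?_⟩
      have h1 : a * b = b * a := hNcomm a (hSN q hq hqT (hCS q hq hqT ha)) b hb
      rw [h1, mul_inv_rev]
  refine ⟨closure Y ⊔ K, hE₀E, ?_, ?_⟩
  · -- the exponent
    apply Nat.dvd_antisymm
    · exact Monoid.exponent_dvd_of_monoidHom (Subgroup.inclusion hE₀E)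
        (Subgroup.inclusion_injective _)
    · set n := Monoid.exponent (closure Y ⊔ K : Subgroup G) with hn
      have hE₀pow : ∀ e₀ ∈ (closure Y ⊔ K : Subgroup G), e₀ ^ n = 1 := by
        intro e₀ he₀
        exact coe_pow_eq_one he₀ (Monoid.pow_exponent_eq_one _)
      have hprim : ∀ x ∈ E, ∀ q k : ℕ, q.Prime → orderOf x = q ^ k → x ^ n = 1 := by
        intro x hx q k hq hxo
        by_cases hqT : q ∈ T
        · have hxS : x ∈ S q := hmemS q hq hqT x hx k hxo
          have hx1 : x ^ Monoid.exponent (S q) = 1 :=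
            coe_pow_eq_one hxS (Monoid.pow_exponent_eq_one _)
          have hd : Monoid.exponent (C q) ∣ n :=
            Monoid.exponent_dvd_of_monoidHom
              (Subgroup.inclusion ((hCqY q hq hqT).trans le_sup_left))
              (Subgroup.inclusion_injective _)
          rw [← hexp q hq hqT] at hx1
          obtain ⟨c, hc⟩ := hd
          rw [hc, pow_mul, hx1, one_pow]
        · obtain ⟨n₁, hn₁, k₁, hk₁, rfl⟩ := hdecomp x hx
          obtain ⟨n', hn', hpow⟩ := pow_mul_normalizer (closure X) hn₁ (hEN (hKE hk₁)) (orderOf k₁)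
          rw [pow_orderOf_eq_one, mul_one] at hpow
          have hone : (n₁ * k₁) ^ orderOf k₁ = 1 := by
            by_contra hne
            have ho : orderOf ((n₁ * k₁) ^ orderOf k₁) ≠ 1 :=
              fun h => hne (orderOf_eq_one_iff.mp h)
            obtain ⟨r, hr, hro⟩ := Nat.exists_prime_and_dvd ho
            have hrT : r ∈ T := hNT _ (by rw [hpow]; exact hn') r hr hro
            have hrd : r ∣ q ^ k := by
              rw [← hxo]
              exact hro.trans (orderOf_pow_dvd (orderOf k₁))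
            have hrq : r = q := (Nat.prime_dvd_prime_iff_eq hr hq).mp (hr.dvd_of_dvd_pow hrd)
            exact hqT (hrq ▸ hrT)
          have hk₁n : k₁ ^ n = 1 := hE₀pow k₁ (mem_sup_right hk₁)
          obtain ⟨c, hc⟩ := orderOf_dvd_of_pow_eq_one hk₁n
          rw [hc, pow_mul, hone, one_pow]
      apply Monoid.exponent_dvd_of_forall_pow_eq_one
      rintro ⟨e, he⟩
      apply Subtype.ext
      show e ^ n = 1
      have hdvd : orderOf e ∣ n := by
        rw [Nat.dvd_iff_prime_pow_dvd_dvd]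
        intro q k hq hqk
        have ho := orderOf_pow_orderOf_div (orderOf_pos e).ne' hqk
        have hx := hprim (e ^ (orderOf e / q ^ k)) (pow_mem he _) q k hq ho
        have h := orderOf_dvd_of_pow_eq_one hx
        rwa [ho] at h
      exact orderOf_dvd_iff_pow_eq_one.mp hdvd
  · -- regularity
    intro e he hne
    have ho : orderOf e ≠ 1 := fun h => hne (orderOf_eq_one_iff.mp h)
    obtain ⟨q, hq, hqo⟩ := Nat.exists_prime_and_dvd ho
    have hoe' : orderOf (e ^ (orderOf e / q)) = q :=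
      orderOf_pow_orderOf_div (orderOf_pos e).ne' hqo
    apply regular_of_pow (sigmaCore M) e (orderOf e / q)
    have he'E₀ : e ^ (orderOf e / q) ∈ closure Y ⊔ K := pow_mem he _
    generalize e ^ (orderOf e / q) = e' at hoe' he'E₀ ⊢
    by_cases hqT : q ∈ T
    · have he'S : e' ∈ S q := hmemS q hq hqT e' (hE₀E he'E₀) 1 (by rw [hoe', pow_one])
      have he'N : e' ∈ closure X := hSN q hq hqT he'S
      obtain ⟨c, hc, k, hk, hck⟩ := hE₀dec e' he'E₀
      have hk1 : k = 1 := by
        apply hNK k hk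
        have : k = c⁻¹ * e' := by rw [hck]; group
        rw [this]
        exact mul_mem (inv_mem (hCCN hc)) he'N
      rw [hk1, mul_one] at hck
      obtain ⟨a, ha, b, hb, hqb, hab⟩ := hCCq q hq hqT c hc
      have haN : a ∈ closure X := hSN q hq hqT (hCS q hq hqT ha)
      have hb1 : b = 1 := by
        have hbe : b = a⁻¹ * e' := by rw [hck, hab]; group
        obtain ⟨j, hj⟩ := hpel q hq hqT a (hCS q hq hqT ha)
        have hcomm : Commute a⁻¹ e' := hNcomm a⁻¹ (inv_mem haN) e' he'N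
        have hdvd : orderOf b ∣ Nat.lcm (orderOf a⁻¹) (orderOf e') := by
          rw [hbe]; exact hcomm.orderOf_mul_dvd_lcm
        rw [orderOf_inv, hj, hoe'] at hdvd
        have hdvd' : orderOf b ∣ q ^ (j + 1) :=
          hdvd.trans (Nat.lcm_dvd (pow_dvd_pow q (Nat.le_succ j))
            (dvd_pow_self q (Nat.succ_ne_zero j)))
        obtain ⟨i, hi, hoi⟩ := (Nat.dvd_prime_pow hq).mp hdvd'
        have hi0 : i = 0 := by
          by_contra h
          exact hqb (by rw [hoi]; exact dvd_pow_self q h)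
        rw [hi0, pow_zero] at hoi
        exact orderOf_eq_one_iff.mp hoi
      have he'a : e' = a := by rw [hck, hab, hb1, mul_one]
      have ha1 : a ≠ 1 := by
        rintro rfl
        rw [he'a, orderOf_one] at hoe'
        exact hq.one_lt.ne hoe'
      rw [he'a]
      exact hregC q hq hqT a ha ha1
    · exact h1 e' (hE₀E he'E₀) q hq hoe' hqT

example [Finite G] : StAsmB G := asmB

end Cfsg.Agent.H73.BG161

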