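import Mathlib
import Cfsg.Agent.H63.BQuotC
import Cfsg.Agent.H73.Syl

set_option autoImplicit false

namespace Cfsg.Agent.H73.BQ2

open Subgroup Cfsg.Agent.H63.BQ

/-- Abstract structure lemma: a nonabelian group whose commutators lie in `{1, z}` (`z` a central
involution) and whose order is not divisible by `16` has centre of index `4` and even order. -/
theorem center_index {X : Type*} [Group X] [Finite X] (z : X) (hz1 : z ≠ 1) (hz2 : z * z = 1)
    (hzc : ∀ a : X, a * z = z * a) (hc : ∀ a b : X, a * b = b * a ∨ a * b = b * a * z)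
    (hnc : ¬ ∀ a b : X, a * b = b * a) (h16 : ¬ 16 ∣ Nat.card X) :
    Nat.card X = 4 * Nat.card (Subgroup.center X) ∧ 2 ∣ Nat.card (Subgroup.center X) := by
  have hsq : ∀ a b : X, b * (a * a) = a * a * b := by
    intro a b
    rcases hc a b with h | h
    · calc b * (a * a) = b * a * a := by group
        _ = a * b * a := by rw [h]
        _ = a * (b * a) := by group
        _ = a * (a * b) := by rw [h]
        _ = a * a * b := by group
    · symm
      calc a * a * b = a * (a * b) := by group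
        _ = a * (b * a * z) := by rw [h]
        _ = (a * b) * (a * z) := by group
        _ = (b * a * z) * (a * z) := by rw [h]
        _ = b * a * (z * a) * z := by group
        _ = b * a * (a * z) * z := by rw [hzc a]
        _ = b * (a * a) * (z * z) := by group
        _ = b * (a * a) := by rw [hz2, mul_one]
  have hzcen : z ∈ Subgroup.center X := by
    rw [Subgroup.mem_center_iff]; intro g; exact hzc g
  have h2 : 2 ∣ Nat.card (Subgroup.center X) := by
    have ho : orderOf z = 2 := orderOf_eq_prime (by rw [pow_two]; exact hz2) hz1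
    have := orderOf_dvd_natCard (⟨z, hzcen⟩ : Subgroup.center X)
    rwa [Subgroup.orderOf_mk, ho] at this
  refine ⟨?_, h2⟩
  have hpg : IsPGroup 2 (X ⧸ Subgroup.center X) := by
    intro q
    induction q using QuotientGroup.induction_on with
    | H a =>
      refine ⟨1, ?_⟩
      rw [pow_one, ← QuotientGroup.mk_pow, QuotientGroup.eq_one_iff, Subgroup.mem_center_iff,
        pow_two]
      intro g; exact hsq a g
  have : Fact (Nat.Prime 2) := ⟨Nat.prime_two⟩
  obtain ⟨k, hk⟩ := IsPGroup.iff_card.mp hpg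
  have hcard := Subgroup.card_eq_card_quotient_mul_card_subgroup (Subgroup.center X)
  rw [hk] at hcard
  have hk2 : k = 2 := by
    by_contra hne
    have hk' : k ≤ 1 ∨ 3 ≤ k := by omega
    rcases hk' with hk' | hk'
    · apply hnc
      have : IsCyclic (X ⧸ Subgroup.center X) := by
        rcases Nat.le_one_iff_eq_zero_or_eq_one.mp hk' with h0 | h1
        · rw [h0, pow_zero] at hk
          have : Subsingleton (X ⧸ Subgroup.center X) :=
            (Nat.card_eq_one_iff_unique.mp hk).1
          exact isCyclic_of_subsingleton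
        · rw [h1, pow_one] at hk
          exact isCyclic_of_prime_card hk
      intro a b
      have hcm := MonoidHom.isMulCommutative_of_isCyclic_of_ker_le_center
        (QuotientGroup.mk' (Subgroup.center X)) (by rw [QuotientGroup.ker_mk'])
      exact hcm.is_comm.comm a b
    · apply h16
      obtain ⟨c, hc2⟩ := h2
      rw [hcard, hc2]
      obtain ⟨j, rfl⟩ := Nat.exists_eq_add_of_le hk'
      exact ⟨2 ^ j * c, by ring⟩
  rw [hcard, hk2]; norm_num

/-- If `8 ∣ |A|` and the Sylow `2`-subgroups of `G` have order `8`, then `A` contains one. -/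
theorem exists_sylow_le {G : Type*} [Group G] [Finite G] (h8 : ∀ P : Sylow 2 G, Nat.card P = 8)
    (A : Subgroup G) (hA : 8 ∣ Nat.card A) : ∃ P : Sylow 2 G, (P : Subgroup G) ≤ A := by
  have : Fact (Nat.Prime 2) := ⟨Nat.prime_two⟩
  obtain ⟨K, hK⟩ := Sylow.exists_subgroup_card_pow_prime (G := ↥A) 2 (n := 3) (by simpa using hA)
  have hK' : Nat.card (K.map A.subtype) = 2 ^ 3 := by
    rw [Subgroup.card_map_of_injective A.subtype_injective]; exact hK
  have hpg : IsPGroup 2 ↥(K.map A.subtype) := IsPGroup.of_card hK'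
  obtain ⟨P, hP⟩ := hpg.exists_le_sylow
  have heq : K.map A.subtype = P :=
    Subgroup.eq_of_le_of_card_ge hP (by rw [h8 P, hK']; norm_num)
  exact ⟨P, heq ▸ Subgroup.map_subtype_le K⟩

/-- Structure of a nonabelian subgroup `A` with commutators in `{1, z}`. -/
theorem struct {G : Type*} [Group G] [Finite G] (h8 : ∀ P : Sylow 2 G, Nat.card P = 8)
    (z : G) (hz1 : z ≠ 1) (hz2 : z * z = 1) (hzc : ∀ a : G, a * z = z * a)
    (A : Subgroup G) (hzA : z ∈ A)
    (hc : ∀ a ∈ A, ∀ b ∈ A, a * b = b * a ∨ a * b = b * a * z)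
    (hnc : ¬ ∀ a ∈ A, ∀ b ∈ A, a * b = b * a) :
    ∃ (T : Subgroup G) (P : Sylow 2 G), Nat.card A = 4 * Nat.card T ∧
      (∀ t ∈ T, ∀ a ∈ A, t * a = a * t) ∧ T ≤ A ∧ (P : Subgroup G) ≤ A ∧
      (P : Subgroup G) ⊔ T = A ∧ ¬ (∀ x ∈ P, ∀ y ∈ P, x * y = y * x) := by
  have : Fact (Nat.Prime 2) := ⟨Nat.prime_two⟩
  have h16G : ¬ 16 ∣ Nat.card G := by
    intro h
    obtain ⟨P⟩ := (inferInstance : Nonempty (Sylow 2 G))
    have := P.pow_dvd_card_of_pow_dvd_card (n := 4) (by simpa using h)
    rw [h8 P] at this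
    omega
  have h16 : ¬ 16 ∣ Nat.card A := fun h => h16G (h.trans (Subgroup.card_subgroup_dvd_card A))
  obtain ⟨hcard, h2⟩ := center_index (X := ↥A) ⟨z, hzA⟩
    (fun h => hz1 (by simpa using congrArg Subtype.val h))
    (Subtype.ext (by simpa using hz2)) (fun a => Subtype.ext (by simpa using hzc a))
    (fun a b => by
      rcases hc a a.2 b b.2 with h | h
      · left; exact Subtype.ext (by simpa using h)
      · right; exact Subtype.ext (by simpa using h))
    (fun h => hnc (fun a ha b hb => by simpa using congrArg Subtype.val (h ⟨a, ha⟩ ⟨b, hb⟩))) h16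
  obtain ⟨T, hT⟩ : ∃ T : Subgroup G, T = (Subgroup.center ↥A).map A.subtype := ⟨_, rfl⟩
  have hTcard : Nat.card T = Nat.card (Subgroup.center ↥A) := by
    rw [hT, Subgroup.card_map_of_injective A.subtype_injective]
  have hTA : T ≤ A := by rw [hT]; exact Subgroup.map_subtype_le _
  have hTc : ∀ t ∈ T, ∀ a ∈ A, t * a = a * t := by
    intro t ht a ha
    rw [hT] at ht
    obtain ⟨t, ht, rfl⟩ := ht
    have := Subgroup.mem_center_iff.mp ht ⟨a, ha⟩
    simpa using (congrArg Subtype.val this).symm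
  have h8A : 8 ∣ Nat.card A := by
    obtain ⟨c, hc2⟩ := h2
    rw [hcard, hc2]; exact ⟨c, by ring⟩
  obtain ⟨P, hP⟩ := exists_sylow_le h8 A h8A
  have hsup : (P : Subgroup G) ⊔ T = A := by
    apply Subgroup.eq_of_le_of_card_ge (sup_le hP hTA)
    have d1 : Nat.card T ∣ Nat.card ((P : Subgroup G) ⊔ T : Subgroup G) :=
      Subgroup.card_dvd_of_le le_sup_right
    have d2 : Nat.card P ∣ Nat.card ((P : Subgroup G) ⊔ T : Subgroup G) :=
      Subgroup.card_dvd_of_le le_sup_left
    have d3 : Nat.card ((P : Subgroup G) ⊔ T : Subgroup G) ∣ Nat.card A :=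
      Subgroup.card_dvd_of_le (sup_le hP hTA)
    rw [h8 P] at d2
    rw [hcard, ← hTcard] at d3 h16 ⊢
    have htpos : 0 < Nat.card T := Nat.card_pos
    obtain ⟨e, he⟩ := d1
    rw [he] at d2 d3 ⊢
    have he4 : e ∣ 4 := by
      have : Nat.card T * e ∣ Nat.card T * 4 := by rwa [mul_comm _ 4]
      exact Nat.dvd_of_mul_dvd_mul_left htpos this
    have hle : e ≤ 4 := Nat.le_of_dvd (by norm_num) he4
    interval_cases e <;> omega
  refine ⟨T, P, by rw [hcard, hTcard], hTc, hTA, hP, hsup, ?_⟩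
  intro hPc
  apply hnc
  have step1 : ∀ x ∈ P, ∀ y ∈ A, y * x = x * y := by
    intro x hx y hy
    have h1 : (P : Subgroup G) ⊔ T ≤ Subgroup.centralizer {x} := by
      apply sup_le
      · intro y hy
        rw [Subgroup.mem_centralizer_iff]
        intro h hh
        rw [Set.mem_singleton_iff] at hh
        subst hh
        exact hPc h hx y hy
      · intro y hy
        rw [Subgroup.mem_centralizer_iff]
        intro h hh
        rw [Set.mem_singleton_iff] at hh
        subst hh
        exact (hTc y hy h (hP hx)).symm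
    have h2 : y ∈ Subgroup.centralizer {x} := h1 (hsup ▸ hy)
    exact (Subgroup.mem_centralizer_iff.mp h2 x rfl).symm
  intro a ha b hb
  have h1 : (P : Subgroup G) ⊔ T ≤ Subgroup.centralizer {b} := by
    apply sup_le
    · intro x hx
      rw [Subgroup.mem_centralizer_iff]
      intro h hh
      rw [Set.mem_singleton_iff] at hh
      subst hh
      exact step1 x hx h hb
    · intro t ht
      rw [Subgroup.mem_centralizer_iff]
      intro h hh
      rw [Set.mem_singleton_iff] at hh
      subst hh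
      exact (hTc t ht h hb).symm
  have h2 : a ∈ Subgroup.centralizer {b} := h1 (hsup ▸ ha)
  exact (Subgroup.mem_centralizer_iff.mp h2 b rfl).symm

/-- Two Sylow subgroups contained in a subgroup `C` are conjugate under `C`. -/
theorem sylow_conj_in {G : Type*} [Group G] [Finite G] {p : ℕ} [Fact p.Prime] (P Q : Sylow p G)
    (C : Subgroup G) (hP : (P : Subgroup G) ≤ C) (hQ : (Q : Subgroup G) ≤ C) :
    ∃ c ∈ C, ∀ x : G, x ∈ (Q : Subgroup G) ↔ c⁻¹ * x * c ∈ (P : Subgroup G) := by
  obtain ⟨c, hc⟩ := MulAction.exists_smul_eq ↥C (P.subtype hP) (Q.subtype hQ)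
  refine ⟨c, c.2, fun x => ?_⟩
  constructor
  · intro hx
    have h1 : (⟨x, hQ hx⟩ : ↥C) ∈ ((Q.subtype hQ : Sylow p ↥C) : Subgroup ↥C) := by
      rw [Sylow.coe_subtype, Subgroup.mem_subgroupOf]; exact hx
    rw [← hc, Cfsg.Agent.H73.sylow_mem_smul_iff, Sylow.coe_subtype, Subgroup.mem_subgroupOf] at h1
    exact h1
  · intro hx
    have hxC : x ∈ C := by
      have := C.mul_mem (C.mul_mem c.2 (hP hx)) (C.inv_mem c.2)
      simpa [mul_assoc] using this
    have h1 : (⟨x, hxC⟩ : ↥C) ∈ ((Q.subtype hQ : Sylow p ↥C) : Subgroup ↥C) := by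
      rw [← hc, Cfsg.Agent.H73.sylow_mem_smul_iff, Sylow.coe_subtype, Subgroup.mem_subgroupOf]
      exact hx
    rw [Sylow.coe_subtype, Subgroup.mem_subgroupOf] at h1
    exact h1

/-- The mixed case is impossible. -/
theorem not_mixed {G : Type*} [Group G] [Finite G] (h8 : ∀ P : Sylow 2 G, Nat.card P = 8)
    (z : G) (hz1 : z ≠ 1) (hz2 : z * z = 1) (hzc : ∀ a : G, a * z = z * a)
    (A : Subgroup G) (hzA : z ∈ A)
    (hc : ∀ a ∈ A, ∀ b ∈ A, a * b = b * a ∨ a * b = b * a * z)
    (hnc : ¬ ∀ a ∈ A, ∀ b ∈ A, a * b = b * a)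
    (A' : Subgroup G) (hA'c : ∀ a ∈ A', ∀ b ∈ A', a * b = b * a)
    (hcard : Nat.card A' = Nat.card A) : False := by
  have : Fact (Nat.Prime 2) := ⟨Nat.prime_two⟩
  obtain ⟨T, P, -, -, -, hP, -, hPnc⟩ := struct h8 z hz1 hz2 hzc A hzA hc hnc
  have h8A : 8 ∣ Nat.card A' := by
    rw [hcard, ← h8 P]; exact Subgroup.card_dvd_of_le hP
  obtain ⟨P', hP'⟩ := exists_sylow_le h8 A' h8A
  obtain ⟨c, hc'⟩ := MulAction.exists_smul_eq G P' P
  apply hPnc
  intro x hx y hy
  have hx' : x ∈ ((c • P' : Sylow 2 G) : Subgroup G) := hc' ▸ hx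
  have hy' : y ∈ ((c • P' : Sylow 2 G) : Subgroup G) := hc' ▸ hy
  rw [Cfsg.Agent.H73.sylow_mem_smul_iff] at hx' hy'
  have := hA'c _ (hP' hx') _ (hP' hy')
  calc x * y = c * ((c⁻¹ * x * c) * (c⁻¹ * y * c)) * c⁻¹ := by group
    _ = c * ((c⁻¹ * y * c) * (c⁻¹ * x * c)) * c⁻¹ := by rw [this]
    _ = y * x := by group

/-- (B) passes to the quotient by a normal subgroup of order `2` when the Sylow `2`-subgroups
have order `8`. -/
theorem quot_two {G : Type*} [Group G] [Finite G] (hB : BProp G) (N : Subgroup G) [N.Normal]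
    (hN : Nat.card N = 2) (h8 : ∀ P : Sylow 2 G, Nat.card P = 8) : BProp (G ⧸ N) := by
  have : Fact (Nat.Prime 2) := ⟨Nat.prime_two⟩
  obtain ⟨z, hz1, hzu⟩ := (Nat.card_eq_two_iff' (1 : ↥N)).mp hN
  have hzN : ∀ x ∈ N, x = 1 ∨ x = (z : G) := by
    intro x hx
    by_cases h : x = 1
    · left; exact h
    · right
      have := hzu ⟨x, hx⟩ (by intro h'; exact h (by simpa using congrArg Subtype.val h'))
      exact congrArg Subtype.val this
  have hz1' : (z : G) ≠ 1 := fun h => hz1 (Subtype.ext h)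
  have hzc : ∀ a : G, a * (z : G) = z * a := by
    intro a
    have hmem : a * z * a⁻¹ ∈ N := ‹N.Normal›.conj_mem z z.2 a
    rcases hzN _ hmem with h | h
    · exfalso; apply hz1'
      have : (z : G) = a⁻¹ * (a * z * a⁻¹) * a := by group
      rw [this, h]; group
    · calc a * z = a * z * a⁻¹ * a := by group
        _ = z * a := by rw [h]
  have hz2 : (z : G) * z = 1 := by
    rcases hzN _ (N.mul_mem z.2 z.2) with h | h
    · exact h
    · exfalso; apply hz1'
      calc (z : G) = (z : G)⁻¹ * (z * z) := by group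
        _ = 1 := by rw [h]; group
  have key : ∀ Abar : Subgroup (G ⧸ N), IsMulCommutative ↥Abar →
      ∀ a ∈ Abar.comap (QuotientGroup.mk' N), ∀ b ∈ Abar.comap (QuotientGroup.mk' N),
        a * b = b * a ∨ a * b = b * a * z := by
    intro Abar hA a ha b hb
    have h1 := congrArg Subtype.val
      (hA.is_comm.comm ⟨_, Subgroup.mem_comap.mp ha⟩ ⟨_, Subgroup.mem_comap.mp hb⟩)
    have h2 : (b * a)⁻¹ * (a * b) ∈ N := by
      rw [← QuotientGroup.eq]
      simpa using h1.symm
    rcases hzN _ h2 with h | h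
    · left; exact (inv_mul_eq_one.mp h).symm
    · right; exact inv_mul_eq_iff_eq_mul.mp h
  have hcardpre : ∀ Abar : Subgroup (G ⧸ N),
      Nat.card (Abar.comap (QuotientGroup.mk' N)) = 2 * Nat.card Abar := by
    intro Abar
    have e1 := Subgroup.index_comap_of_surjective Abar (QuotientGroup.mk'_surjective N)
    have e2 := Subgroup.card_mul_index (Abar.comap (QuotientGroup.mk' N))
    have e3 := Subgroup.card_mul_index Abar
    have e4 := Subgroup.card_eq_card_quotient_mul_card_subgroup N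
    rw [hN] at e4
    rw [e1] at e2
    have hpos : 0 < Abar.index := Nat.pos_of_ne_zero Subgroup.index_ne_zero_of_finite
    have : Nat.card (Abar.comap (QuotientGroup.mk' N)) * Abar.index =
        2 * Nat.card Abar * Abar.index := by
      rw [e2, e4, ← e3]; ring
    exact Nat.eq_of_mul_eq_mul_right hpos this
  have hzpre : ∀ Abar : Subgroup (G ⧸ N), (z : G) ∈ Abar.comap (QuotientGroup.mk' N) := by
    intro Abar
    rw [Subgroup.mem_comap]
    have : (QuotientGroup.mk' N) (z : G) = 1 := by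
      rw [QuotientGroup.mk'_apply, QuotientGroup.eq_one_iff]; exact z.2
    rw [this]; exact Abar.one_mem
  intro Abar Bbar hAc hBc hcard
  obtain ⟨A, hAdef⟩ : ∃ A : Subgroup G, A = Abar.comap (QuotientGroup.mk' N) := ⟨_, rfl⟩
  obtain ⟨B, hBdef⟩ : ∃ B : Subgroup G, B = Bbar.comap (QuotientGroup.mk' N) := ⟨_, rfl⟩
  have hcardAB : Nat.card A = Nat.card B := by rw [hAdef, hBdef, hcardpre, hcardpre, hcard]
  have hzA : (z : G) ∈ A := hAdef ▸ hzpre Abar
  have hzB : (z : G) ∈ B := hBdef ▸ hzpre Bbar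
  have hkA : ∀ a ∈ A, ∀ b ∈ A, a * b = b * a ∨ a * b = b * a * z := by
    rw [hAdef]; exact key Abar hAc
  have hkB : ∀ a ∈ B, ∀ b ∈ B, a * b = b * a ∨ a * b = b * a * z := by
    rw [hBdef]; exact key Bbar hBc
  suffices h : ∃ g : G, B = A.map (MulAut.conj g).toMonoidHom by
    obtain ⟨g, hg⟩ := h
    refine ⟨QuotientGroup.mk' N g, ?_⟩
    have hA' : A.map (QuotientGroup.mk' N) = Abar := by
      rw [hAdef]
      exact Subgroup.map_comap_eq_self_of_surjective (QuotientGroup.mk'_surjective N) Abar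
    have hB' : B.map (QuotientGroup.mk' N) = Bbar := by
      rw [hBdef]
      exact Subgroup.map_comap_eq_self_of_surjective (QuotientGroup.mk'_surjective N) Bbar
    rw [← hB', hg, ← hA', Subgroup.map_map, Subgroup.map_map]
    congr 1
  by_cases hA : ∀ a ∈ A, ∀ b ∈ A, a * b = b * a
  · by_cases hB' : ∀ a ∈ B, ∀ b ∈ B, a * b = b * a
    · exact hB A B ⟨⟨fun a b => Subtype.ext (hA a a.2 b b.2)⟩⟩
        ⟨⟨fun a b => Subtype.ext (hB' a a.2 b b.2)⟩⟩ hcardAB
    · exact (not_mixed h8 z hz1' hz2 hzc B hzB hkB hB' A hA hcardAB).elim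
  · by_cases hB' : ∀ a ∈ B, ∀ b ∈ B, a * b = b * a
    · exact (not_mixed h8 z hz1' hz2 hzc A hzA hkA hA B hB' hcardAB.symm).elim
    · obtain ⟨TA, PA, hcA, hTAc, hTAle, hPA, hsupA, -⟩ := struct h8 z hz1' hz2 hzc A hzA hkA hA
      obtain ⟨TB, PB, hcB, hTBc, hTBle, hPB, hsupB, -⟩ := struct h8 z hz1' hz2 hzc B hzB hkB hB'
      have hTcard : Nat.card TA = Nat.card TB := by omega
      have hTAcomm : IsMulCommutative ↥TA :=
        ⟨⟨fun a b => Subtype.ext (hTAc a a.2 b (hTAle b.2))⟩⟩
      have hTBcomm : IsMulCommutative ↥TB :=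
        ⟨⟨fun a b => Subtype.ext (hTBc a a.2 b (hTBle b.2))⟩⟩
      obtain ⟨g, hg⟩ := hB TA TB hTAcomm hTBcomm hTcard
      have hP1 : ((g • PA : Sylow 2 G) : Subgroup G) ≤ Subgroup.centralizer (TB : Set G) := by
        intro x hx
        rw [Cfsg.Agent.H73.sylow_mem_smul_iff] at hx
        rw [Subgroup.mem_centralizer_iff]
        intro t ht
        rw [SetLike.mem_coe, hg] at ht
        obtain ⟨t0, ht0, rfl⟩ := ht
        have := hTAc t0 ht0 _ (hPA hx)
        simp only [MulEquiv.coe_toMonoidHom, MulAut.conj_apply]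
        calc g * t0 * g⁻¹ * x = g * (t0 * (g⁻¹ * x * g)) * g⁻¹ := by group
          _ = g * ((g⁻¹ * x * g) * t0) * g⁻¹ := by rw [this]
          _ = x * (g * t0 * g⁻¹) := by group
      have hP2 : (PB : Subgroup G) ≤ Subgroup.centralizer (TB : Set G) := by
        intro x hx
        rw [Subgroup.mem_centralizer_iff]
        intro t ht
        exact hTBc t ht x (hPB hx)
      obtain ⟨c, hcC, hcPQ⟩ := sylow_conj_in (g • PA) PB _ hP1 hP2
      have hcent : ∀ t ∈ TA, c * g * t * (c * g)⁻¹ = g * t * g⁻¹ := by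
        intro t ht
        have hmem : g * t * g⁻¹ ∈ TB := by
          rw [hg]; exact ⟨t, ht, by simp⟩
        have := Subgroup.mem_centralizer_iff.mp hcC _ hmem
        calc c * g * t * (c * g)⁻¹ = c * (g * t * g⁻¹) * c⁻¹ := by group
          _ = (g * t * g⁻¹) * c * c⁻¹ := by rw [this]
          _ = g * t * g⁻¹ := by group
      refine ⟨c * g, ?_⟩
      rw [← hsupA, Subgroup.map_sup, ← hsupB]
      congr 1
      · ext x
        rw [Subgroup.mem_map]
        constructor
        · intro hx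
          have := (hcPQ x).mp hx
          rw [Cfsg.Agent.H73.sylow_mem_smul_iff] at this
          refine ⟨_, this, ?_⟩
          simp only [MulEquiv.coe_toMonoidHom, MulAut.conj_apply]
          group
        · rintro ⟨y, hy, rfl⟩
          rw [hcPQ, Cfsg.Agent.H73.sylow_mem_smul_iff]
          have : g⁻¹ * (c⁻¹ * (MulAut.conj (c * g)).toMonoidHom y * c) * g = y := by
            simp only [MulEquiv.coe_toMonoidHom, MulAut.conj_apply]
            group
          rw [this]; exact hy
      · ext x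
        constructor
        · intro hx
          rw [hg] at hx
          obtain ⟨t, ht, rfl⟩ := hx
          refine ⟨t, ht, ?_⟩
          simp only [MulEquiv.coe_toMonoidHom, MulAut.conj_apply]
          exact hcent t ht
        · rintro ⟨t, ht, rfl⟩
          rw [hg]
          refine ⟨t, ht, ?_⟩
          simp only [MulEquiv.coe_toMonoidHom, MulAut.conj_apply]
          exact (hcent t ht).symm

end Cfsg.Agent.H73.BQ2


example {G : Type*} [Group G] [Finite G] (hB : Cfsg.Agent.H63.BQ.BProp G) (N : Subgroup G) [N.Normal] (hN : Nat.card N = 2) (h8 : ∀ P : Sylow 2 G, Nat.card P = 8) : Cfsg.Agent.H63.BQ.BProp (G ⧸ N) :=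
  Cfsg.Agent.H73.BQ2.quot_two hB N hN h8
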