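import Mathlib
import Cfsg.Agent.H2.BrDefs
import Cfsg.Agent.H4.Blich1
import Cfsg.Agent.H4.PaQb

set_option autoImplicit false

namespace Cfsg.Agent.H73.Br

open Cfsg Cfsg.Agent.H4

universe u

/-- S4501-FAITH. -/
theorem faith : Cfsg.Agent.H2.Br.StmtFaith.{u} := by
  intro G _ _ _ hne χ hχ1
  obtain ⟨x0, y0, hxy⟩ := hne
  have hχc : IsCharacter G χ.1 := isCharacter_of_isIrrCharacter χ.2
  obtain ⟨n, ρ, hirr, hρ⟩ := χ.2
  have hker : ∀ g : G, χ.1 g = χ.1 1 ↔ g ∈ MonoidHom.ker ρ := by
    intro g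
    rw [← hρ, Representation.char_one, character_eq_finrank_iff, MonoidHom.mem_ker]
    rfl
  rcases (MonoidHom.normal_ker ρ).eq_bot_or_eq_top with hK | hK
  · have hfaith : ∀ g : G, χ.1 g = χ.1 1 → g = 1 := by
      intro g hg
      have h := (hker g).mp hg
      rw [hK] at h
      exact Subgroup.mem_bot.mp h
    refine ⟨?_, hfaith⟩
    have hpos := irr_charDegree_pos χ
    by_contra hlt
    have hd1 : charDegree χ.1 = 1 := by omega
    have h1 : χ.1 1 = 1 := by rw [isCharacter_one_eq hχc, hd1]; simp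
    have hcomm := linear_comm hχc h1 x0 y0
    have h3 := hfaith _ hcomm
    apply hxy
    have h2 := mul_inv_eq_one.mp h3
    exact mul_inv_eq_iff_eq_mul.mp h2
  · exfalso
    have hconst : ∀ g : G, χ.1 g = χ.1 1 := fun g => (hker g).mpr (by rw [hK]; trivial)
    let τ : IrrCharacter G := ⟨fun _ => 1, isIrrCharacter_one⟩
    have hneτ : χ ≠ τ := fun h => hχ1 (congrArg Subtype.val h)
    have hli := irr_linearIndependent (G := G)
    rw [linearIndependent_iff'] at hli
    classical
    have h := hli {χ, τ} (fun i => if i = χ then 1 else -(χ.1 1)) (by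
      rw [Finset.sum_pair hneτ]
      funext g
      simp [hneτ.symm, hconst g, τ]) χ (by simp)
    simp at h

example : Cfsg.Agent.H2.Br.StmtFaith.{u} := faith.{u}

end Cfsg.Agent.H73.Br
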