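import Mathlib
import Cfsg.Agent.H79.BrDefs

/-!
# S4504 piece KER (helper73): the kernel of the action on the Sylow `p`-subgroups is the centre
-/

set_option autoImplicit false

namespace Cfsg.Agent.H73.Br

open Cfsg Cfsg.Agent.H79.Br

universe u

/-- A `p`-subgroup normalizing a Sylow `p`-subgroup is contained in it. -/
lemma le_sylow_of_le_normalizer {G : Type u} [Group G] {p : ℕ} [Fact p.Prime]
    {H : Subgroup G} (hH : IsPGroup p H) (Q : Sylow p G)
    (hHQ : H ≤ Subgroup.normalizer ((Q : Subgroup G) : Set G)) : H ≤ (Q : Subgroup G) := by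
  have h1 : IsPGroup p (H ⊔ (Q : Subgroup G) : Subgroup G) :=
    hH.to_sup_of_normal_right' Q.2 hHQ
  have h2 : H ⊔ (Q : Subgroup G) = (Q : Subgroup G) := Q.is_maximal' h1 le_sup_right
  rw [← h2]; exact le_sup_left

/-- All Sylow `p`-subgroups have the same order. -/
lemma sylow_card_eq' {G : Type u} [Group G] [Finite G] {p : ℕ} [Fact p.Prime]
    (P Q : Sylow p G) : Nat.card (Q : Subgroup G) = Nat.card (P : Subgroup G) := by
  rw [Sylow.card_eq_multiplicity, Sylow.card_eq_multiplicity]

theorem ker : StKer.{u} := by
  intro G _ _ p _ P hP hnn hM g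
  have hp : p.Prime := Fact.out
  constructor
  · intro hg
    -- the kernel of the action
    set K : Subgroup G := (MulAction.toPermHom G (Sylow p G)).ker with hK
    have hmemK : ∀ k : G, k ∈ K ↔ ∀ Q : Sylow p G, k • Q = Q := by
      intro k
      rw [hK, MonoidHom.mem_ker]
      constructor
      · intro h Q
        have := congrArg (fun σ => σ Q) h
        simpa using this
      · intro h
        exact Equiv.ext fun Q => h Q
    have hKn : K.Normal := by rw [hK]; infer_instance
    have hpK : ¬ p ∣ Nat.card K := by
      intro hdvd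
      obtain ⟨k, hk⟩ := exists_prime_orderOf_dvd_card' p hdvd
      have hk' : orderOf (k : G) = p := by rw [Subgroup.orderOf_coe]; exact hk
      have hkK : ∀ Q : Sylow p G, (k : G) • Q = Q := (hmemK k).mp k.2
      -- `⟨k⟩` is a `p`-group normalizing every Sylow subgroup
      have hzp : IsPGroup p (Subgroup.zpowers (k : G)) := by
        apply IsPGroup.of_card (n := 1)
        rw [Nat.card_zpowers, hk', pow_one]
      have hzle : ∀ Q : Sylow p G, Subgroup.zpowers (k : G) ≤ (Q : Subgroup G) := by
        intro Q
        apply le_sylow_of_le_normalizer hzp Q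
        rw [Subgroup.zpowers_le]
        exact Sylow.smul_eq_iff_mem_normalizer.mp (hkK Q)
      have hzeq : ∀ Q : Sylow p G, (Q : Subgroup G) = Subgroup.zpowers (k : G) := by
        intro Q
        symm
        apply Subgroup.eq_of_le_of_card_ge (hzle Q)
        rw [sylow_card_eq' P Q, hP, Nat.card_zpowers, hk']
      have hsub : ∀ Q : Sylow p G, Q = P := by
        intro Q
        apply Sylow.ext
        rw [hzeq Q, hzeq P]
      apply hnn
      apply Subgroup.normalizer_eq_top_iff.mp
      rw [eq_top_iff]
      intro c _
      exact Sylow.smul_eq_iff_mem_normalizer.mp (hsub (c • P))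
    exact hM K hKn hpK ((hmemK g).mpr hg)
  · intro hg Q
    rw [Sylow.smul_eq_iff_mem_normalizer]
    exact Subgroup.center_le_normalizer _ hg

example : StKer.{u} := ker

end Cfsg.Agent.H73.Br

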