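import Mathlib
import Cfsg.Agent.H79.BrDefs

/-!
# S4504 piece RED (helper73): reduction to the normal closure of a Sylow `p`-subgroup
-/

set_option autoImplicit false

namespace Cfsg.Agent.H73.Br

open Cfsg Cfsg.Agent.H79.Br

universe u

/-- Membership in a conjugate Sylow subgroup. -/
lemma mem_smul_sylow_iff {G : Type u} [Group G] {p : ℕ} (g : G) (P : Sylow p G) (x : G) :
    x ∈ ((g • P : Sylow p G) : Subgroup G) ↔ g⁻¹ * x * g ∈ (P : Subgroup G) := by
  rw [Sylow.smul_def, Sylow.pointwise_smul_def, Subgroup.mem_pointwise_smul_iff_inv_smul_mem]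
  simp [MulAut.smul_def]

theorem red : StRed.{u} := by
  intro G _ _ p _ P hP hnn
  have hp : p.Prime := Fact.out
  have hPle : (P : Subgroup G) ≤ Subgroup.normalClosure ((P : Subgroup G) : Set G) :=
    Subgroup.subset_normalClosure
  have hG₁n : (Subgroup.normalClosure ((P : Subgroup G) : Set G)).Normal :=
    Subgroup.normalClosure_normal
  generalize hG₁ : Subgroup.normalClosure ((P : Subgroup G) : Set G) = G₁ at hPle hG₁n
  -- every Sylow subgroup lies in `G₁`
  have hall : ∀ Q : Sylow p G, (Q : Subgroup G) ≤ G₁ := by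
    intro Q
    obtain ⟨g, rfl⟩ := MulAction.exists_smul_eq G P Q
    intro x hx
    rw [mem_smul_sylow_iff] at hx
    have h1 := hG₁n.conj_mem _ (hPle hx) g
    have h2 : g * (g⁻¹ * x * g) * g⁻¹ = x := by group
    rwa [h2] at h1
  -- the bijection
  have hinj : Function.Injective (fun Q : Sylow p G => Q.subtype (hall Q)) := by
    intro Q Q' h
    exact Sylow.subtype_injective h
  have hsurj : Function.Surjective (fun Q : Sylow p G => Q.subtype (hall Q)) := by
    intro Q₁
    obtain ⟨h, rfl⟩ := MulAction.exists_smul_eq G₁ (P.subtype hPle) Q₁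
    refine ⟨h • P, ?_⟩
    rw [Sylow.smul_subtype]
  have hcard : Nat.card (Sylow p G₁) = Nat.card (Sylow p G) :=
    (Nat.card_congr (Equiv.ofBijective _ ⟨hinj, hsurj⟩)).symm
  refine ⟨P.subtype hPle, ?_, ?_, ?_, hcard⟩
  · rw [Sylow.coe_subtype, Nat.card_congr (Subgroup.subgroupOfEquivOfLe hPle).toEquiv, hP]
  · intro hn
    have hu : Unique (Sylow p G₁) := Sylow.unique_of_normal _ hn
    have h1 : Nat.card (Sylow p G) = 1 := by rw [← hcard]; exact Nat.card_unique
    have hss : Subsingleton (Sylow p G) := (Nat.card_eq_one_iff_unique.mp h1).1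
    exact hnn (Sylow.normal_of_subsingleton P)
  · intro K hKn hPK
    have hgen : Subgroup.closure (Group.conjugatesOfSet ((P : Subgroup G) : Set G)) ≤
        K.map G₁.subtype := by
      rw [Subgroup.closure_le]
      intro y hy
      rw [Group.mem_conjugatesOfSet_iff] at hy
      obtain ⟨x, hx, hxy⟩ := hy
      rw [isConj_iff] at hxy
      obtain ⟨c, rfl⟩ := hxy
      have hyQ : c * x * c⁻¹ ∈ ((c • P : Sylow p G) : Subgroup G) := by
        rw [mem_smul_sylow_iff]
        have : c⁻¹ * (c * x * c⁻¹) * c = x := by group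
        rw [this]; exact hx
      have hyG : c * x * c⁻¹ ∈ G₁ := hall _ hyQ
      obtain ⟨h, hh⟩ := MulAction.exists_smul_eq G₁ (P.subtype hPle) ((c • P).subtype (hall _))
      have hmem : (⟨c * x * c⁻¹, hyG⟩ : G₁) ∈
          (((c • P).subtype (hall _) : Sylow p G₁) : Subgroup G₁) := by
        rw [Sylow.coe_subtype, Subgroup.mem_subgroupOf]
        exact hyQ
      rw [← hh, mem_smul_sylow_iff] at hmem
      have h1 := hKn.conj_mem _ (hPK hmem) h
      have h2 : h * (h⁻¹ * (⟨c * x * c⁻¹, hyG⟩ : G₁) * h) * h⁻¹ = ⟨c * x * c⁻¹, hyG⟩ := by group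
      rw [h2] at h1
      exact Subgroup.mem_map.mpr ⟨_, h1, rfl⟩
    have hle : G₁ ≤ K.map G₁.subtype := by
      intro y hy
      apply hgen
      rw [← hG₁] at hy
      exact hy
    rw [eq_top_iff]
    intro z _
    obtain ⟨w, hw, hwz⟩ := Subgroup.mem_map.mp (hle z.2)
    have : w = z := Subtype.ext hwz
    rw [← this]; exact hw

example : StRed.{u} := red

end Cfsg.Agent.H73.Br

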