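import Mathlib
import Cfsg.Agent.H79.BrDefs

/-!
# S4504 piece SYLLB (helper73): `|G| = n_p · |N_G(P)|` and `n_p ≥ p + 1` when `P` is not normal
-/

set_option autoImplicit false

namespace Cfsg.Agent.H73.Br

open Cfsg Cfsg.Agent.H79.Br

universe u

theorem sylLB : StSylLB.{u} := by
  intro G _ _ p _ P hnn
  have hp : p.Prime := Fact.out
  have hidx : Nat.card (Sylow p G) = (Subgroup.normalizer ((P : Subgroup G) : Set G)).index :=
    Sylow.card_eq_index_normalizer P
  have hmul : Nat.card (Subgroup.normalizer ((P : Subgroup G) : Set G)) *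
      (Subgroup.normalizer ((P : Subgroup G) : Set G)).index = Nat.card G :=
    Subgroup.card_mul_index _
  have hmod : Nat.card (Sylow p G) ≡ 1 [MOD p] := card_sylow_modEq_one p G
  have hne1 : Nat.card (Sylow p G) ≠ 1 := by
    intro h1
    apply hnn
    rw [hidx, Subgroup.index_eq_one] at h1
    exact Subgroup.normalizer_eq_top_iff.mp h1
  have hpos : 0 < Nat.card (Sylow p G) := Nat.card_pos
  have hge : p + 1 ≤ Nat.card (Sylow p G) := by
    have h2 : Nat.card (Sylow p G) % p = 1 := by
      have := hmod
      unfold Nat.ModEq at this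
      rw [this, Nat.mod_eq_of_lt hp.one_lt]
    have h3 := Nat.div_add_mod (Nat.card (Sylow p G)) p
    rw [h2] at h3
    have h4 : 1 ≤ Nat.card (Sylow p G) / p := by
      by_contra hcon
      have h5 : Nat.card (Sylow p G) / p = 0 := Nat.lt_one_iff.mp (not_le.mp hcon)
      rw [h5, Nat.mul_zero, Nat.zero_add] at h3
      exact hne1 h3.symm
    calc p + 1 = p * 1 + 1 := by ring
      _ ≤ p * (Nat.card (Sylow p G) / p) + 1 := by
          exact Nat.add_le_add_right (Nat.mul_le_mul_left p h4) 1
      _ = Nat.card (Sylow p G) := h3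
  constructor
  · calc (p + 1) * Nat.card (Subgroup.normalizer ((P : Subgroup G) : Set G))
        ≤ Nat.card (Sylow p G) * Nat.card (Subgroup.normalizer ((P : Subgroup G) : Set G)) :=
          Nat.mul_le_mul_right _ hge
      _ = Nat.card G := by rw [hidx, mul_comm]; exact hmul
  · rw [hidx, mul_comm]; exact hmul.symm

example : StSylLB.{u} := sylLB

end Cfsg.Agent.H73.Br

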