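import Mathlib
import Cfsg.Agent.H2.BrDefs
import Cfsg.Agent.H21.BrauerTuan
import Cfsg.Agent.H21.SimpleTools
import Cfsg.Agent.H21.Transfer

set_option autoImplicit false

namespace Cfsg.Agent.H73.Br

open Cfsg

universe u

/-- The elements of a cyclic group of order `3`. -/
theorem mem_zpowers_three {G : Type*} [Group G] {z : G} (hoz : orderOf z = 3) :
    ∀ w ∈ Subgroup.zpowers z, w = 1 ∨ w = z ∨ w = z⁻¹ := by
  intro w hw
  obtain ⟨k, rfl⟩ := Subgroup.mem_zpowers_iff.mp hw
  have hk : z ^ k = z ^ (k % 3) := by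
    have := zpow_mod_orderOf z k
    rw [hoz] at this
    exact_mod_cast this.symm
  rw [hk]
  have h0 : 0 ≤ k % 3 := Int.emod_nonneg k (by norm_num)
  have h3 : k % 3 < 3 := Int.emod_lt_of_pos k (by norm_num)
  have hz3 : z ^ 3 = 1 := by rw [← hoz]; exact pow_orderOf_eq_one z
  obtain h | h | h : k % 3 = 0 ∨ k % 3 = 1 ∨ k % 3 = 2 := by omega
  · left; rw [h]; simp
  · right; left; rw [h]; simp
  · right; right; rw [h]
    rw [eq_inv_iff_mul_eq_one]
    have h' : z ^ (2 : ℤ) * z = z ^ 3 := by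
      have : z ^ (2 : ℤ) = z ^ 2 := by exact_mod_cast zpow_natCast z 2
      rw [this, ← pow_succ]
    rw [h', hz3]

/-- S4501-Z3. -/
theorem z3 : Cfsg.Agent.H2.Br.StmtZ3.{u} := by
  intro G _ _ _ hne p q a b hp hq hpq hp3 hq3 hcard
  obtain ⟨x0, y0, hxy⟩ := hne
  have hG : ¬ IsMulCommutative G := fun hc => hxy (hc.is_comm.comm x0 y0)
  have : Fact (Nat.Prime 3) := ⟨Nat.prime_three⟩
  have hcard' : Nat.card G = p ^ a * q ^ b * 3 := by rw [hcard]; ring
  let S : Sylow 3 G := default
  have hC : Subgroup.centralizer ((S : Subgroup G) : Set G) = (S : Subgroup G) :=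
    Cfsg.Agent.H21.BrauerTuan.centralizer_sylow_eq p q 3 a b hp hq hp3 hq3 hcard' S
  have hS : Nat.card (S : Subgroup G) = 3 :=
    Cfsg.Agent.H21.BrauerTuan.card_sylow p q 3 a b hp hq hp3 hq3 hcard' S
  have hcyc : IsCyclic (S : Subgroup G) := isCyclic_of_prime_card hS
  obtain ⟨⟨z, hzS⟩, hz⟩ := hcyc.exists_generator
  have hzS' : Subgroup.zpowers z = (S : Subgroup G) := by
    apply le_antisymm
    · rw [Subgroup.zpowers_le]; exact hzS
    · intro s hs
      obtain ⟨k, hk⟩ := Subgroup.mem_zpowers_iff.mp (hz ⟨s, hs⟩)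
      refine Subgroup.mem_zpowers_iff.mpr ⟨k, ?_⟩
      have := congrArg Subtype.val hk
      simpa using this
  have hoz : orderOf z = 3 := by
    rw [← Nat.card_zpowers, hzS', hS]
  have hself : ∀ g : G, g * z = z * g → g ∈ Subgroup.zpowers z := by
    intro g hgz
    rw [hzS', ← hC, Subgroup.mem_centralizer_iff]
    intro h hh
    rw [SetLike.mem_coe, ← hzS'] at hh
    obtain ⟨k, rfl⟩ := Subgroup.mem_zpowers_iff.mp hh
    have hc : Commute g z := hgz
    exact (hc.zpow_right k).eq.symm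
  have hSne : (S : Subgroup G) ≠ ⊥ := by
    intro hb; rw [hb, Subgroup.card_bot] at hS; omega
  have hz1 : z ≠ 1 := by
    intro h; rw [h, orderOf_one] at hoz; omega
  have hzinv : z⁻¹ ≠ z := by
    intro h
    have h2 : z ^ 2 = 1 := by rw [pow_two]; nth_rewrite 1 [← h]; exact inv_mul_cancel z
    have := orderOf_dvd_of_pow_eq_one h2
    rw [hoz] at this; omega
  have hex : ∃ g : G, g * z * g⁻¹ = z⁻¹ := by
    by_contra hno
    push Not at hno
    apply Cfsg.Agent.H21.simple_not_normalizer_le_centralizer hG S hSne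
    intro g hgN
    have hgz : g * z * g⁻¹ ∈ (S : Subgroup G) :=
      (Subgroup.mem_normalizer_iff.mp hgN z).mp hzS
    rw [← hzS'] at hgz
    have hcomm : g * z = z * g := by
      rcases mem_zpowers_three hoz _ hgz with h | h | h
      · exfalso; apply hz1
        have h' : z = g⁻¹ * (g * z * g⁻¹) * g := by group
        rw [h', h]; group
      · calc g * z = g * z * g⁻¹ * g := by group
          _ = z * g := by rw [h]
      · exact absurd h (hno g)
    have h5 := hself g hcomm
    rw [hzS', ← hC] at h5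
    exact h5
  obtain ⟨g, hg⟩ := hex
  have h2 : 2 ∣ Nat.card G := by
    by_contra h2
    have hodd : Odd (orderOf g) := by
      rw [← Nat.not_even_iff_odd, even_iff_two_dvd]
      intro h; exact h2 (h.trans (orderOf_dvd_natCard g))
    obtain ⟨m, hm⟩ := hodd
    have hgz1 : g * z = z⁻¹ * g := by
      calc g * z = g * z * g⁻¹ * g := by group
        _ = z⁻¹ * g := by rw [hg]
    have hgz2 : g * z⁻¹ = z * g := by
      have h' : g * z⁻¹ = z * (z⁻¹ * g) * z⁻¹ := by group
      rw [h', ← hgz1]; group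
    have hc2 : Commute (g ^ 2) z := by
      show g ^ 2 * z = z * g ^ 2
      calc g ^ 2 * z = g * (g * z) := by rw [pow_two, mul_assoc]
        _ = g * z⁻¹ * g := by rw [hgz1, mul_assoc]
        _ = z * g ^ 2 := by rw [hgz2, mul_assoc, pow_two]
    have hc3 : Commute (g ^ (2 * m)) z := by rw [pow_mul]; exact hc2.pow_left m
    have hginv : g ^ (2 * m) = g⁻¹ := by
      rw [eq_inv_iff_mul_eq_one, ← pow_succ, ← hm]; exact pow_orderOf_eq_one g
    rw [hginv] at hc3
    have hc4 : Commute g z := by simpa using hc3.inv_left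
    have h' : g * z * g⁻¹ = z := by rw [hc4.eq]; group
    rw [h'] at hg
    exact hzinv hg.symm
  exact ⟨z, hoz, hself, ⟨g, hg⟩, h2⟩

example : Cfsg.Agent.H2.Br.StmtZ3.{u} := z3.{u}

end Cfsg.Agent.H73.Br
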