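import Mathlib

set_option autoImplicit false

namespace Cfsg.Agent.H73

open Finset
open scoped Classical

section
variable {X : Type*} [Group X] [Fintype X]

/-- Number of commuting pairs in `S × T`. -/
noncomputable def cp (S T : Finset X) : ℕ :=
  ((S ×ˢ T).filter (fun p => p.1 * p.2 = p.2 * p.1)).card

theorem cp_comm (S T : Finset X) : cp S T = cp T S := by
  unfold cp
  refine Finset.card_bij' (fun p _ => (p.2, p.1)) (fun p _ => (p.2, p.1)) ?_ ?_ ?_ ?_
  · intro p hp
    rw [mem_filter, mem_product] at hp ⊢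
    exact ⟨⟨hp.1.2, hp.1.1⟩, hp.2.symm⟩
  · intro p hp
    rw [mem_filter, mem_product] at hp ⊢
    exact ⟨⟨hp.1.2, hp.1.1⟩, hp.2.symm⟩
  · intro p _; rfl
  · intro p _; rfl

theorem cp_eq_sum (S T : Finset X) :
    cp S T = ∑ s ∈ S, (T.filter (fun t => s * t = t * s)).card := by
  unfold cp
  rw [Finset.card_filter, Finset.sum_product]
  apply Finset.sum_congr rfl
  intro s _
  rw [Finset.card_filter]

theorem cp_mono {S S' T T' : Finset X} (hS : S ⊆ S') (hT : T ⊆ T') : cp S T ≤ cp S' T' := by
  unfold cp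
  apply Finset.card_le_card
  apply Finset.filter_subset_filter
  exact Finset.product_subset_product hS hT

theorem cp_univ : cp (univ : Finset X) univ = Nat.card (ConjClasses X) * Nat.card X := by
  rw [← card_comm_eq_card_conjClasses_mul_card, Nat.card_eq_fintype_card, Fintype.card_subtype]
  unfold cp
  rw [Finset.univ_product_univ]
  congr 1

/-- The elements of a subgroup as a finset. -/
noncomputable def subF (Y : Subgroup X) : Finset X := univ.filter (· ∈ Y)

theorem mem_subF (Y : Subgroup X) (x : X) : x ∈ subF Y ↔ x ∈ Y := by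
  simp [subF]

theorem card_subF (Y : Subgroup X) : (subF Y).card = Nat.card Y := by
  rw [Nat.card_eq_fintype_card, Fintype.card_subtype]
  rfl

theorem cp_subgroup (Y : Subgroup X) :
    cp (subF Y) (subF Y) = Nat.card (ConjClasses Y) * Nat.card Y := by
  rw [← card_comm_eq_card_conjClasses_mul_card]
  unfold cp
  rw [← Nat.card_eq_finsetCard]
  apply Nat.card_congr
  refine ⟨fun p => ⟨(⟨p.1.1, ?_⟩, ⟨p.1.2, ?_⟩), ?_⟩, fun p => ⟨(p.1.1, p.1.2), ?_⟩, ?_, ?_⟩
  · have := p.2
    simp only [mem_filter, mem_product, mem_subF] at this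
    exact this.1.1
  · have := p.2
    simp only [mem_filter, mem_product, mem_subF] at this
    exact this.1.2
  · have := p.2
    simp only [mem_filter, mem_product, mem_subF] at this
    exact Subtype.ext this.2
  · simp only [mem_filter, mem_product, mem_subF]
    refine ⟨⟨p.1.1.2, p.1.2.2⟩, ?_⟩
    have := p.2
    exact congrArg Subtype.val this
  · intro p; rfl
  · intro p; rfl

/-- The fibre of the coset map over `q`. -/
noncomputable def fibF (Y : Subgroup X) (q : X ⧸ Y) : Finset X :=
  univ.filter (fun t : X => (t : X ⧸ Y) = q)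

theorem mem_fibF (Y : Subgroup X) (q : X ⧸ Y) (x : X) : x ∈ fibF Y q ↔ (x : X ⧸ Y) = q := by
  simp [fibF]

theorem fibF_one (Y : Subgroup X) : fibF Y ((1 : X) : X ⧸ Y) = subF Y := by
  ext x
  rw [mem_fibF, mem_subF, eq_comm, QuotientGroup.eq]
  simp

/-- Key lemma: a centralizer meets a coset of `Y` in at most as many points as it meets `Y`. -/
theorem card_cent_fib_le (Y : Subgroup X) (q : X ⧸ Y) (x : X) :
    ((fibF Y q).filter (fun t => x * t = t * x)).card ≤
      ((subF Y).filter (fun t => x * t = t * x)).card := by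
  by_cases h : ((fibF Y q).filter (fun t => x * t = t * x)) = ∅
  · rw [h]; simp
  · obtain ⟨c₀, hc₀⟩ := Finset.nonempty_iff_ne_empty.mpr h
    rw [mem_filter, mem_fibF] at hc₀
    apply Finset.card_le_card_of_injOn (fun t => c₀⁻¹ * t)
    · intro t ht
      rw [Finset.mem_coe, mem_filter, mem_fibF] at ht
      rw [Finset.mem_coe, mem_filter, mem_subF]
      refine ⟨QuotientGroup.eq.mp (hc₀.1.trans ht.1.symm), ?_⟩
      have h1 : x * c₀⁻¹ = c₀⁻¹ * x := by
        have := hc₀.2
        calc x * c₀⁻¹ = c₀⁻¹ * (c₀ * x) * c₀⁻¹ := by group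
          _ = c₀⁻¹ * (x * c₀) * c₀⁻¹ := by rw [this]
          _ = c₀⁻¹ * x := by group
      rw [← mul_assoc, h1, mul_assoc, ht.2, mul_assoc]
    · intro a _ b _ hab
      exact mul_left_cancel hab

theorem card_cent_eq_sum_fib (Y : Subgroup X) (S : Finset X) (x : X) :
    ((S).filter (fun t => x * t = t * x)).card =
      ∑ q : X ⧸ Y, ((S ∩ fibF Y q).filter (fun t => x * t = t * x)).card := by
  rw [Finset.card_eq_sum_card_fiberwise (f := fun t : X => (t : X ⧸ Y)) (t := univ)
    (fun _ _ => mem_univ _)]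
  apply Finset.sum_congr rfl
  intro q _
  congr 1
  ext t
  simp only [mem_filter, mem_inter, mem_fibF]
  tauto

theorem card_cent_le_index_mul (Y : Subgroup X) (x : X) :
    ((univ : Finset X).filter (fun t => x * t = t * x)).card ≤
      Y.index * ((subF Y).filter (fun t => x * t = t * x)).card := by
  rw [card_cent_eq_sum_fib Y univ x]
  have : ∀ q ∈ (univ : Finset (X ⧸ Y)),
      ((univ ∩ fibF Y q).filter (fun t => x * t = t * x)).card ≤
        ((subF Y).filter (fun t => x * t = t * x)).card := by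
    intro q _
    rw [Finset.univ_inter]
    exact card_cent_fib_le Y q x
  refine (Finset.sum_le_sum this).trans ?_
  rw [Finset.sum_const, smul_eq_mul, Finset.card_univ, Subgroup.index, Nat.card_eq_fintype_card]

theorem cp_univ_right_le (Y : Subgroup X) (S : Finset X) :
    cp S univ ≤ Y.index * cp S (subF Y) := by
  rw [cp_eq_sum, cp_eq_sum, Finset.mul_sum]
  exact Finset.sum_le_sum (fun s _ => card_cent_le_index_mul Y s)

/-- Strict version when some coset is missed by the centralizer of some `y ∈ S`. -/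
theorem cp_univ_right_lt (Y : Subgroup X) (S : Finset X) (y : X) (hy : y ∈ S) (q : X ⧸ Y)
    (hq : ((fibF Y q).filter (fun t => y * t = t * y)) = ∅) :
    cp S univ < Y.index * cp S (subF Y) := by
  rw [cp_eq_sum, cp_eq_sum, Finset.mul_sum]
  apply Finset.sum_lt_sum (fun s _ => card_cent_le_index_mul Y s)
  refine ⟨y, hy, ?_⟩
  rw [card_cent_eq_sum_fib Y univ y]
  have hle : ∀ q' ∈ (univ : Finset (X ⧸ Y)),
      ((univ ∩ fibF Y q').filter (fun t => y * t = t * y)).card ≤
        ((subF Y).filter (fun t => y * t = t * y)).card := by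
    intro q' _
    rw [Finset.univ_inter]
    exact card_cent_fib_le Y q' y
  have hpos : 0 < ((subF Y).filter (fun t => y * t = t * y)).card := by
    apply Finset.card_pos.mpr
    exact ⟨1, by simp [mem_subF]⟩
  have hlt : ∑ q' : X ⧸ Y, ((univ ∩ fibF Y q').filter (fun t => y * t = t * y)).card <
      ∑ _q' : X ⧸ Y, ((subF Y).filter (fun t => y * t = t * y)).card := by
    apply Finset.sum_lt_sum hle
    refine ⟨q, mem_univ _, ?_⟩
    rw [Finset.univ_inter, hq, Finset.card_empty]
    exact hpos
  refine hlt.trans_le ?_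
  rw [Finset.sum_const, smul_eq_mul, Finset.card_univ, Subgroup.index, Nat.card_eq_fintype_card]

end

section Interface
variable {X : Type*} [Group X] [Finite X]

theorem card_conjClasses_subgroup_le (Y : Subgroup X) :
    Nat.card (ConjClasses Y) ≤ Y.index * Nat.card (ConjClasses X) := by
  have := Fintype.ofFinite X
  have h1 : cp (subF Y) (subF Y) ≤ cp (univ : Finset X) univ :=
    cp_mono (Finset.subset_univ _) (Finset.subset_univ _)
  rw [cp_subgroup, cp_univ, ← Y.card_mul_index] at h1
  have hpos : 0 < Nat.card Y := Nat.card_pos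
  have h2 : Nat.card (ConjClasses Y) * Nat.card Y ≤
      (Y.index * Nat.card (ConjClasses X)) * Nat.card Y := by
    calc Nat.card (ConjClasses Y) * Nat.card Y
        ≤ Nat.card (ConjClasses X) * (Nat.card Y * Y.index) := h1
      _ = (Y.index * Nat.card (ConjClasses X)) * Nat.card Y := by ring
  exact Nat.le_of_mul_le_mul_right h2 hpos

theorem card_conjClasses_le_index_mul (Y : Subgroup X) :
    Nat.card (ConjClasses X) ≤ Y.index * Nat.card (ConjClasses Y) := by
  have := Fintype.ofFinite X
  have h1 : cp (univ : Finset X) univ ≤ Y.index * cp univ (subF Y) := cp_univ_right_le Y univ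
  have h2 : cp (subF Y) (univ : Finset X) ≤ Y.index * cp (subF Y) (subF Y) :=
    cp_univ_right_le Y (subF Y)
  rw [cp_comm univ (subF Y)] at h1
  have h3 : cp (univ : Finset X) univ ≤ Y.index * (Y.index * cp (subF Y) (subF Y)) :=
    h1.trans (Nat.mul_le_mul_left _ h2)
  rw [cp_subgroup, cp_univ, ← Y.card_mul_index] at h3
  have hpos : 0 < Nat.card Y * Y.index := by
    rw [Y.card_mul_index]; exact Nat.card_pos
  have h4 : Nat.card (ConjClasses X) * (Nat.card Y * Y.index) ≤
      (Y.index * Nat.card (ConjClasses Y)) * (Nat.card Y * Y.index) := by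
    calc Nat.card (ConjClasses X) * (Nat.card Y * Y.index)
        ≤ Y.index * (Y.index * (Nat.card (ConjClasses Y) * Nat.card Y)) := h3
      _ = (Y.index * Nat.card (ConjClasses Y)) * (Nat.card Y * Y.index) := by ring
  exact Nat.le_of_mul_le_mul_right h4 hpos

theorem card_conjClasses_lt_index_mul (Y : Subgroup X) (hY : ¬ Y.Normal) :
    Nat.card (ConjClasses X) < Y.index * Nat.card (ConjClasses Y) := by
  have := Fintype.ofFinite X
  -- find y ∈ Y and x with x y x⁻¹ ∉ Y
  have hex : ∃ y ∈ Y, ∃ x : X, x * y * x⁻¹ ∉ Y := by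
    by_contra hcon
    push Not at hcon
    exact hY ⟨fun y hy x => hcon y hy x⟩
  obtain ⟨y, hy, x, hx⟩ := hex
  have hq : ((fibF Y ((x⁻¹ : X) : X ⧸ Y)).filter (fun t => y * t = t * y)) = ∅ := by
    apply Finset.eq_empty_of_forall_notMem
    intro t ht
    rw [mem_filter, mem_fibF] at ht
    apply hx
    -- t⁻¹ * x⁻¹ ∈ Y, t commutes with y
    have h1 : t⁻¹ * x⁻¹ ∈ Y := QuotientGroup.eq.mp ht.1
    have h2 : x * y * x⁻¹ = (t⁻¹ * x⁻¹)⁻¹ * y * (t⁻¹ * x⁻¹) := by
      have : y = t * y * t⁻¹ := by rw [← ht.2]; group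
      calc x * y * x⁻¹ = x * (t * y * t⁻¹) * x⁻¹ := by rw [← this]
        _ = (t⁻¹ * x⁻¹)⁻¹ * y * (t⁻¹ * x⁻¹) := by group
    rw [h2]
    exact Y.mul_mem (Y.mul_mem (Y.inv_mem h1) hy) h1
  have h1 : cp (univ : Finset X) univ ≤ Y.index * cp univ (subF Y) := cp_univ_right_le Y univ
  have h2 : cp (subF Y) (univ : Finset X) < Y.index * cp (subF Y) (subF Y) :=
    cp_univ_right_lt Y (subF Y) y ((mem_subF Y y).mpr hy) _ hq
  rw [cp_comm univ (subF Y)] at h1
  have hipos : 0 < Y.index := Nat.pos_of_ne_zero Subgroup.index_ne_zero_of_finite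
  have h3 : cp (univ : Finset X) univ < Y.index * (Y.index * cp (subF Y) (subF Y)) :=
    h1.trans_lt (Nat.mul_lt_mul_of_pos_left h2 hipos)
  rw [cp_subgroup, cp_univ, ← Y.card_mul_index] at h3
  have h4 : Nat.card (ConjClasses X) * (Nat.card Y * Y.index) <
      (Y.index * Nat.card (ConjClasses Y)) * (Nat.card Y * Y.index) := by
    calc Nat.card (ConjClasses X) * (Nat.card Y * Y.index)
        < Y.index * (Y.index * (Nat.card (ConjClasses Y) * Nat.card Y)) := h3
      _ = (Y.index * Nat.card (ConjClasses Y)) * (Nat.card Y * Y.index) := by ring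
  exact Nat.lt_of_mul_lt_mul_right h4

end Interface

section Normal
variable {X : Type*} [Group X] [Fintype X]

theorem cp_fib_right_le (Y : Subgroup X) (S : Finset X) (q : X ⧸ Y) :
    cp S (fibF Y q) ≤ cp S (subF Y) := by
  rw [cp_eq_sum, cp_eq_sum]
  exact Finset.sum_le_sum (fun s _ => card_cent_fib_le Y q s)

theorem cp_fib_fib_le (N : Subgroup X) [N.Normal] (q q' : X ⧸ N) :
    cp (fibF N q) (fibF N q') ≤ if q * q' = q' * q then cp (subF N) (subF N) else 0 := by
  split_ifs with h
  · calc cp (fibF N q) (fibF N q') ≤ cp (fibF N q) (subF N) := cp_fib_right_le N _ q'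
      _ = cp (subF N) (fibF N q) := cp_comm _ _
      _ ≤ cp (subF N) (subF N) := cp_fib_right_le N _ q
  · apply Nat.le_of_eq
    unfold cp
    rw [Finset.card_eq_zero]
    apply Finset.eq_empty_of_forall_notMem
    intro p hp
    rw [mem_filter, mem_product, mem_fibF, mem_fibF] at hp
    apply h
    rw [← hp.1.1, ← hp.1.2, ← QuotientGroup.mk_mul, ← QuotientGroup.mk_mul, hp.2]

theorem cp_univ_eq_sum_fib (N : Subgroup X) [N.Normal] :
    cp (univ : Finset X) univ = ∑ r : (X ⧸ N) × (X ⧸ N), cp (fibF N r.1) (fibF N r.2) := by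
  unfold cp
  rw [Finset.card_eq_sum_card_fiberwise
    (f := fun p : X × X => ((p.1 : X ⧸ N), (p.2 : X ⧸ N))) (t := univ) (fun _ _ => mem_univ _)]
  apply Finset.sum_congr rfl
  intro r _
  congr 1
  ext p
  simp only [mem_filter, mem_product, mem_fibF, mem_univ, true_and, Prod.ext_iff]
  tauto

end Normal

section Interface2
variable {X : Type*} [Group X] [Finite X]

theorem card_conjClasses_le_mul_quotient (N : Subgroup X) [N.Normal] :
    Nat.card (ConjClasses X) ≤ Nat.card (ConjClasses N) * Nat.card (ConjClasses (X ⧸ N)) := by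
  have := Fintype.ofFinite X
  have h1 : cp (univ : Finset X) univ ≤
      ∑ r : (X ⧸ N) × (X ⧸ N), if r.1 * r.2 = r.2 * r.1 then cp (subF N) (subF N) else 0 := by
    rw [cp_univ_eq_sum_fib N]
    exact Finset.sum_le_sum (fun r _ => cp_fib_fib_le N r.1 r.2)
  rw [← Finset.sum_filter, Finset.sum_const, smul_eq_mul] at h1
  have h2 : ((univ : Finset ((X ⧸ N) × (X ⧸ N))).filter (fun r => r.1 * r.2 = r.2 * r.1)).card =
      cp (univ : Finset (X ⧸ N)) univ := by
    unfold cp
    rw [Finset.univ_product_univ]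
    congr 1
    ext r
    simp only [mem_filter, mem_univ, true_and]
  rw [h2, cp_univ, cp_univ, cp_subgroup, Subgroup.card_eq_card_quotient_mul_card_subgroup N] at h1
  have hpos : 0 < Nat.card (X ⧸ N) * Nat.card N := Nat.mul_pos Nat.card_pos Nat.card_pos
  have h3 : Nat.card (ConjClasses X) * (Nat.card (X ⧸ N) * Nat.card N) ≤
      (Nat.card (ConjClasses N) * Nat.card (ConjClasses (X ⧸ N))) *
        (Nat.card (X ⧸ N) * Nat.card N) := by
    calc Nat.card (ConjClasses X) * (Nat.card (X ⧸ N) * Nat.card N)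
        ≤ Nat.card (ConjClasses (X ⧸ N)) * Nat.card (X ⧸ N) *
          (Nat.card (ConjClasses N) * Nat.card N) := h1
      _ = (Nat.card (ConjClasses N) * Nat.card (ConjClasses (X ⧸ N))) *
        (Nat.card (X ⧸ N) * Nat.card N) := by ring
  exact Nat.le_of_mul_le_mul_right h3 hpos

end Interface2

end Cfsg.Agent.H73
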