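import Mathlib
import Cfsg.Agent.H3.PGroup
import Cfsg.Agent.H3.Critical
import Cfsg.Agent.H11.G168A
import Cfsg.Agent.H71.SylowConj

set_option autoImplicit false
set_option linter.style.haveILetI false

namespace Cfsg.Agent.H73.D8Core

open Equiv
open scoped commutatorElement

/-- Orbit divisibility: if `n` divides the index of every point stabilizer of `H` on an
`H`-invariant finite set `A`, then `n` divides `|A|` (same statement as `H70.N22.odl`, proved
here again to keep the import closure small). -/
theorem orbit_dvd {Y Ω : Type*} [Group Y] [MulAction Y Ω] (H : Subgroup Y) [Finite H] (n : ℕ) :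
    ∀ (A : Finset Ω), (∀ h ∈ H, ∀ a ∈ A, h • a ∈ A) →
    (∀ a ∈ A, n ∣ (MulAction.stabilizer ↥H a).index) → n ∣ A.card := by
  classical
  intro A
  induction' hk : A.card using Nat.strong_induction_on with k ih generalizing A
  intro hinv hdiv
  rcases A.eq_empty_or_nonempty with rfl | ⟨a, ha⟩
  · rw [← hk]; simp
  · let O : Finset Ω := A.filter (fun b => b ∈ MulAction.orbit ↥H a)
    have hO : (O : Set Ω) = MulAction.orbit ↥H a := by
      ext b
      simp only [O, Finset.coe_filter, Set.mem_ofPred_eq]
      constructor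
      · exact fun h => h.2
      · intro hb
        refine ⟨?_, hb⟩
        obtain ⟨h, rfl⟩ := hb
        exact hinv h h.2 a ha
    have hOcard : O.card = (MulAction.stabilizer ↥H a).index := by
      rw [MulAction.index_stabilizer, ← hO, Set.ncard_coe_finset]
    have hOsub : O ⊆ A := Finset.filter_subset _ _
    have hsplit := Finset.card_sdiff_add_card_eq_card hOsub
    have haO : a ∈ O := by
      simp only [O, Finset.mem_filter]
      exact ⟨ha, MulAction.mem_orbit_self a⟩
    have hlt : (A \ O).card < A.card := by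
      have : 0 < O.card := Finset.card_pos.mpr ⟨a, haO⟩
      omega
    have hinv' : ∀ h ∈ H, ∀ b ∈ A \ O, h • b ∈ A \ O := by
      intro h hh b hb
      rw [Finset.mem_sdiff] at hb ⊢
      refine ⟨hinv h hh b hb.1, fun hmem => hb.2 ?_⟩
      simp only [O, Finset.mem_filter] at hmem ⊢
      refine ⟨hb.1, ?_⟩
      have h1 : (⟨h, hh⟩ : ↥H)⁻¹ • (h • b) ∈ MulAction.orbit ↥H a :=
        MulAction.mem_orbit_of_mem_orbit _ hmem.2
      have h2 : (⟨h, hh⟩ : ↥H)⁻¹ • (h • b) = b := by
        change (h⁻¹ : Y) • (h • b) = b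
        rw [inv_smul_smul]
      rwa [h2] at h1
    have hdiv' : ∀ b ∈ A \ O, n ∣ (MulAction.stabilizer ↥H b).index :=
      fun b hb => hdiv b (Finset.mem_sdiff.mp hb).1
    have h1 := ih (A \ O).card (by rw [← hk]; exact hlt) (A \ O) rfl hinv' hdiv'
    rw [← hk, ← hsplit, hOcard]
    exact dvd_add h1 (hdiv a ha)

/-- An involutory permutation of even sign on `2 * m` points, `m` odd, has `2 mod 4` fixed
points. -/
theorem fixed_mod_four {α : Type*} [Fintype α] [DecidableEq α] (σ : Perm α) (h2 : σ * σ = 1)
    (m : ℕ) (hm : Fintype.card α = 2 * m) (hodd : Odd m) (hs : Perm.sign σ = 1) :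
    (Finset.univ.filter (fun a => σ a = a)).card % 4 = 2 := by
  have hsupp : σ.support.card + (Finset.univ.filter (fun a => σ a = a)).card
      = Fintype.card α := by
    have h1 : σ.support = Finset.univ.filter (fun a => ¬ σ a = a) := by
      ext a; simp [Perm.mem_support]
    rw [h1, add_comm]
    exact Finset.card_filter_add_card_filter_not _
  obtain ⟨k, hk⟩ := hodd
  by_cases h1 : σ = 1
  · subst h1
    have : (Finset.univ.filter (fun a : α => (1 : Perm α) a = a)) = Finset.univ := by
      ext a; simp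
    rw [this, Finset.card_univ, hm]
    omega
  · have hord : orderOf σ = 2 := orderOf_eq_prime (by rw [pow_two]; exact h2) h1
    have hprime : (orderOf σ).Prime := by rw [hord]; exact Nat.prime_two
    obtain ⟨n, hn⟩ := Perm.cycleType_prime_order hprime
    rw [hord] at hn
    have hsum : σ.cycleType.sum = σ.support.card := Perm.sum_cycleType σ
    rw [hn, Multiset.sum_replicate, smul_eq_mul] at hsum
    have hsign := Perm.sign_of_cycleType σ
    rw [hn, Multiset.sum_replicate, Multiset.card_replicate, smul_eq_mul, hs] at hsign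
    have heven : Even (n + 1) := by
      by_contra hne
      rw [Nat.not_even_iff_odd] at hne
      have hoo : Odd ((n + 1) * 2 + (n + 1)) := by
        obtain ⟨j, hj⟩ := hne
        exact ⟨3 * j + 1, by omega⟩
      rw [hoo.neg_one_pow] at hsign
      exact absurd hsign (by decide)
    obtain ⟨j, hj⟩ := heven
    omega

/-- A refined form of Thompson's transfer lemma: if `L` has no normal subgroup of index `2`,
`M` has index `2` in the Sylow `2`-subgroup `R`, and `b` is an involution centralizing `R`,
then some conjugate of `b` lies in `M` via an element conjugating `M` into `R`. -/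
theorem refined_transfer {L : Type*} [Group L] [Finite L]
    (hno2 : ∀ K : Subgroup L, K.Normal → K.index ≠ 2) (R : Sylow 2 L)
    (M : Subgroup L) (hMR : M ≤ (R : Subgroup L)) (hMi : M.relIndex (R : Subgroup L) = 2)
    (b : L) (hb : orderOf b = 2) (hbc : ∀ r ∈ (R : Subgroup L), r * b = b * r) :
    ∃ g : L, g⁻¹ * b * g ∈ M ∧ ∀ x ∈ M, g * x * g⁻¹ ∈ (R : Subgroup L) := by
  classical
  haveI : Fact (Nat.Prime 2) := ⟨Nat.prime_two⟩
  haveI : Fintype (L ⧸ M) := Fintype.ofFinite _
  let s : L →* ℤˣ := (Perm.sign).comp (MulAction.toPermHom L (L ⧸ M))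
  have hbb : b * b = 1 := by rw [← pow_two, ← hb]; exact pow_orderOf_eq_one b
  have hsb : s b = 1 := by
    by_contra hne
    have hsb' : s b = -1 := (Int.units_eq_one_or (s b)).resolve_left hne
    apply hno2 s.ker inferInstance
    rw [Subgroup.index_ker]
    have hr : s.range = ⊤ := by
      rw [MonoidHom.range_eq_top]
      intro y
      rcases Int.units_eq_one_or y with rfl | rfl
      · exact ⟨1, map_one s⟩
      · exact ⟨b, hsb'⟩
    rw [hr, Subgroup.card_top, Nat.card_eq_fintype_card, Fintype.card_units_int]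
  have hidx : Fintype.card (L ⧸ M) = 2 * (R : Subgroup L).index := by
    rw [← Nat.card_eq_fintype_card]
    show M.index = _
    rw [← Subgroup.relIndex_mul_index hMR, hMi]
  have hodd : Odd (R : Subgroup L).index := by
    rw [← Nat.not_even_iff_odd, even_iff_two_dvd]
    exact R.not_dvd_index
  set σ : Perm (L ⧸ M) := MulAction.toPermHom L (L ⧸ M) b with hσ
  have hσ2 : σ * σ = 1 := by
    rw [hσ, ← map_mul, hbb, map_one]
  have hF := fixed_mod_four σ hσ2 _ hidx hodd hsb
  have hcardR : 2 * Nat.card M = Nat.card (R : Subgroup L) := by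
    have h := Cfsg.Agent.H3.relIndex_mul_card_of_le hMR
    rw [hMi] at h
    exact h
  by_contra hcon
  push Not at hcon
  have h4 : 4 ∣ (Finset.univ.filter (fun a => σ a = a)).card := by
    apply orbit_dvd (R : Subgroup L) 4
    · intro r hr q hq
      rw [Finset.mem_filter] at hq ⊢
      refine ⟨Finset.mem_univ _, ?_⟩
      have hq2 : b • q = q := hq.2
      show b • (r • q) = r • q
      rw [smul_smul, ← hbc r hr, ← smul_smul, hq2]
    · intro q hq
      rw [Finset.mem_filter] at hq
      have hq2 : b • q = q := hq.2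
      obtain ⟨g, rfl⟩ := QuotientGroup.mk_surjective q
      have hgb : g⁻¹ * b * g ∈ M := by
        rw [MulAction.Quotient.smul_mk, QuotientGroup.eq] at hq2
        have := M.inv_mem hq2
        simpa [mul_assoc] using this
      obtain ⟨x, hxM, hxR⟩ := hcon g hgb
      set S := MulAction.stabilizer ↥(R : Subgroup L) ((g : L) : L ⧸ M) with hS
      obtain ⟨k, hk⟩ := R.isPGroup'.index S
      rcases Nat.lt_or_ge k 2 with hk2 | hk2
      · exfalso
        have hSi : S.index ≤ 2 := by
          rw [hk]
          interval_cases k <;> norm_num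
        have hcS : Nat.card S * S.index = Nat.card (R : Subgroup L) := Subgroup.card_mul_index S
        have hSpos : 0 < Nat.card S := Nat.card_pos
        have hle : Nat.card M ≤ Nat.card S := by nlinarith
        have hmem : ∀ r : S, g⁻¹ * ((r : ↥(R : Subgroup L)) : L) * g ∈ M := by
          intro r
          have h1 : (r : ↥(R : Subgroup L)) • ((g : L) : L ⧸ M) = ((g : L) : L ⧸ M) :=
            MulAction.mem_stabilizer_iff.mp r.2
          change (((r : ↥(R : Subgroup L)) : L) • ((g : L) : L ⧸ M)) = ((g : L) : L ⧸ M) at h1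
          rw [MulAction.Quotient.smul_mk, QuotientGroup.eq] at h1
          have := M.inv_mem h1
          simpa [mul_assoc] using this
        let f : S → M := fun r => ⟨g⁻¹ * ((r : ↥(R : Subgroup L)) : L) * g, hmem r⟩
        have hfinj : Function.Injective f := by
          intro r1 r2 h12
          have h3 : g⁻¹ * ((r1 : ↥(R : Subgroup L)) : L) * g
              = g⁻¹ * ((r2 : ↥(R : Subgroup L)) : L) * g := congrArg Subtype.val h12
          have h4 : ((r1 : ↥(R : Subgroup L)) : L) = ((r2 : ↥(R : Subgroup L)) : L) := by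
            have := mul_left_cancel (mul_right_cancel h3)
            exact this
          exact Subtype.ext (Subtype.ext h4)
        have hbij := hfinj.bijective_of_nat_card_le hle
        obtain ⟨r, hr⟩ := hbij.2 ⟨x, hxM⟩
        have h5 : g⁻¹ * ((r : ↥(R : Subgroup L)) : L) * g = x := congrArg Subtype.val hr
        apply hxR
        rw [← h5]
        have h6 : g * (g⁻¹ * ((r : ↥(R : Subgroup L)) : L) * g) * g⁻¹
            = ((r : ↥(R : Subgroup L)) : L) := by group
        rw [h6]
        exact (r : ↥(R : Subgroup L)).2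
      · show 4 ∣ S.index
        rw [hk]
        exact pow_dvd_pow 2 hk2
  omega

theorem mem_zpowers_invol {L : Type*} [Group L] {z y : L} (hz : orderOf z = 2)
    (hy : y ∈ Subgroup.zpowers z) : y = 1 ∨ y = z := by
  obtain ⟨k, rfl⟩ := Subgroup.mem_zpowers_iff.mp hy
  have h := zpow_mod_orderOf z k
  rw [hz] at h
  simp only [Nat.cast_ofNat] at h
  rcases Int.emod_two_eq_zero_or_one k with h0 | h1
  · left; rw [← h, h0]; exact zpow_zero z
  · right; rw [← h, h1]; exact zpow_one z

theorem comm_of_card_lt_eight {Q : Type*} [Group Q] [Finite Q] (hQ : IsPGroup 2 Q)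
    (h : Nat.card Q < 8) : ∀ a b : Q, a * b = b * a := by
  haveI : Fact (Nat.Prime 2) := ⟨Nat.prime_two⟩
  obtain ⟨k, hk⟩ := IsPGroup.iff_card.mp hQ
  have hk3 : k < 3 := by
    by_contra hcon
    have : 2 ^ 3 ≤ 2 ^ k := Nat.pow_le_pow_right (by norm_num) (by omega)
    omega
  interval_cases k
  · rw [pow_zero] at hk
    haveI : Subsingleton Q := (Nat.card_eq_one_iff_unique.mp hk).1
    intro a b
    exact Subsingleton.elim _ _
  · rw [pow_one] at hk
    haveI : IsCyclic Q := isCyclic_of_prime_card hk
    intro a b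
    exact IsCyclic.commGroup.mul_comm a b
  · intro a b
    exact (IsPGroup.isMulCommutative_of_card_eq_prime_sq hk).is_comm.comm a b

/-- Core of S5435, with the `Z*`-theorem for `L` as a hypothesis. -/
theorem core {L : Type*} [Group L] [Finite L] [IsSimpleGroup L] (hL : ¬ IsMulCommutative L)
    (hZ : ∀ (P : Sylow 2 L) (u : L), orderOf u = 2 → u ∈ P →
      (∀ g : L, g * u * g⁻¹ ∈ P → g * u * g⁻¹ = u) →
      ∃ N : Subgroup L, N.Normal ∧ Odd (Nat.card N) ∧ ∀ g : L, u * g * u⁻¹ * g⁻¹ ∈ N)
    (z : L) (hz : orderOf z = 2) (R : Sylow 2 L)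
    (hR : (R : Subgroup L) = Subgroup.centralizer ({z} : Set L))
    (hΦ : (frattini ↥(R : Subgroup L)).map (R : Subgroup L).subtype = Subgroup.zpowers z) :
    Nonempty (↥(R : Subgroup L) ≃* DihedralGroup 4) := by
  classical
  haveI : Fact (Nat.Prime 2) := ⟨Nat.prime_two⟩
  have hzz : z * z = 1 := by rw [← pow_two, ← hz]; exact pow_orderOf_eq_one z
  have hz1 : z ≠ 1 := by
    intro h; rw [h, orderOf_one] at hz; omega
  have hmemR : ∀ x : L, x ∈ (R : Subgroup L) ↔ z * x = x * z := by
    intro x
    rw [hR, Subgroup.mem_centralizer_iff]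
    simp
  have hzR : z ∈ (R : Subgroup L) := (hmemR z).mpr rfl
  have hRp : IsPGroup 2 ↥(R : Subgroup L) := R.isPGroup'
  have hzc : ∀ r ∈ (R : Subgroup L), z * r = r * z := fun r hr => (hmemR r).mp hr
  -- squares
  have F1 : ∀ x ∈ (R : Subgroup L), x * x = 1 ∨ x * x = z := by
    intro x hx
    have h1 := Cfsg.Agent.H3.pow_mem_frattini hRp (⟨x, hx⟩ : ↥(R : Subgroup L))
    have h2 : x ^ 2 ∈ (frattini ↥(R : Subgroup L)).map (R : Subgroup L).subtype :=
      ⟨_, h1, rfl⟩
    rw [hΦ] at h2
    rw [← pow_two]
    exact mem_zpowers_invol hz h2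
  -- commutators
  have F2 : ∀ x ∈ (R : Subgroup L), ∀ y ∈ (R : Subgroup L),
      x * y * x⁻¹ * y⁻¹ = 1 ∨ x * y * x⁻¹ * y⁻¹ = z := by
    intro x hx y hy
    have h1 : ⁅(⟨x, hx⟩ : ↥(R : Subgroup L)), ⟨y, hy⟩⁆ ∈ frattini ↥(R : Subgroup L) :=
      Cfsg.Agent.H3.commutator_le_frattini hRp (by
        rw [commutator_def]
        exact Subgroup.commutator_mem_commutator (Subgroup.mem_top _) (Subgroup.mem_top _))
    have h2 : x * y * x⁻¹ * y⁻¹ ∈ (frattini ↥(R : Subgroup L)).map (R : Subgroup L).subtype :=
      ⟨_, h1, by simp [commutatorElement_def]⟩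
    rw [hΦ] at h2
    exact mem_zpowers_invol hz h2
  -- an element of order 4
  obtain ⟨x0, hx0R, hx0⟩ : ∃ x0 ∈ (R : Subgroup L), x0 * x0 = z := by
    by_contra hcon
    push Not at hcon
    have hexp : ∀ x ∈ (R : Subgroup L), x * x = 1 :=
      fun x hx => (F1 x hx).resolve_right (hcon x hx)
    have hfr : frattini ↥(R : Subgroup L) = ⊥ := by
      apply Cfsg.Agent.H3.frattini_eq_bot_of_elementary (p := 2)
      · intro a b
        have ha := hexp a a.2
        have hb := hexp b b.2
        have hab := hexp (a * b) (mul_mem a.2 b.2)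
        apply Subtype.ext
        show (a : L) * b = b * a
        calc (a : L) * b = a * (a * b * (a * b)) * b := by rw [hab, mul_one]
          _ = (a * a) * (b * a) * (b * b) := by group
          _ = b * a := by rw [ha, hb, one_mul, mul_one]
      · intro a
        apply Subtype.ext
        show (a : L) ^ 2 = 1
        rw [pow_two]; exact hexp a a.2
    rw [hfr, Subgroup.map_bot] at hΦ
    have : z ∈ (⊥ : Subgroup L) := by rw [hΦ]; exact Subgroup.mem_zpowers z
    exact hz1 (Subgroup.mem_bot.mp this)
  -- the normalizer of R centralizes z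
  have P7 : ∀ n : L, (∀ r ∈ (R : Subgroup L), n * r * n⁻¹ ∈ (R : Subgroup L)) →
      n * z = z * n := by
    intro n hn
    have h1 := F1 (n * x0 * n⁻¹) (hn x0 hx0R)
    have h2 : n * x0 * n⁻¹ * (n * x0 * n⁻¹) = n * z * n⁻¹ := by rw [← hx0]; group
    rw [h2] at h1
    rcases h1 with h1 | h1
    · exfalso; apply hz1
      have : z = n⁻¹ * (n * z * n⁻¹) * n := by group
      rw [this, h1]; group
    · calc n * z = (n * z * n⁻¹) * n := by group
        _ = z * n := by rw [h1]
  -- Z*: z is not isolated
  obtain ⟨g, hgR, hgz⟩ : ∃ g : L, g * z * g⁻¹ ∈ (R : Subgroup L) ∧ g * z * g⁻¹ ≠ z := by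
    by_contra hcon
    push Not at hcon
    obtain ⟨N, hN, hNodd, hNc⟩ := hZ R z hz hzR hcon
    rcases hN.eq_bot_or_eq_top with h | h
    · apply hL
      have hzcen : ∀ g : L, g * z = z * g := by
        intro g
        have := hNc g
        rw [h, Subgroup.mem_bot] at this
        calc g * z = (z * g * z⁻¹ * g⁻¹)⁻¹ * (z * g) := by group
          _ = z * g := by rw [this, inv_one, one_mul]
      have hRtop : (R : Subgroup L) = ⊤ := by
        rw [eq_top_iff]
        intro x _
        exact (hmemR x).mpr (hzcen x).symm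
      have hcenter : Subgroup.center L = ⊤ := by
        rcases (inferInstance : (Subgroup.center L).Normal).eq_bot_or_eq_top with h' | h'
        · exfalso
          have : z ∈ Subgroup.center L := Subgroup.mem_center_iff.mpr hzcen
          rw [h', Subgroup.mem_bot] at this
          exact hz1 this
        · exact h'
      refine ⟨⟨fun a b => ?_⟩⟩
      have : a ∈ Subgroup.center L := by rw [hcenter]; trivial
      exact (Subgroup.mem_center_iff.mp this b).symm
    · rw [h, Subgroup.card_top] at hNodd
      have h2 : 2 ∣ Nat.card L := by rw [← hz]; exact orderOf_dvd_natCard z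
      exact (Nat.not_even_iff_odd.mpr hNodd) (even_iff_two_dvd.mpr h2)
  obtain ⟨t, ht⟩ : ∃ t, t = g * z * g⁻¹ := ⟨_, rfl⟩
  rw [← ht] at hgR hgz
  have hzt' : z = g⁻¹ * t * g := by rw [ht]; group
  have htt : t * t = 1 := by
    rw [ht]
    calc g * z * g⁻¹ * (g * z * g⁻¹) = g * (z * z) * g⁻¹ := by group
      _ = 1 := by rw [hzz]; group
  have ht1 : t ≠ 1 := by
    intro h; apply hz1
    rw [hzt', h]; group
  have hzt : z * t = t * z := hzc t hgR
  have hconjR : ∀ a : L, a * t = t * a → g⁻¹ * a * g ∈ (R : Subgroup L) := by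
    intro a ha
    rw [hmemR, hzt']
    calc g⁻¹ * t * g * (g⁻¹ * a * g) = g⁻¹ * (t * a) * g := by group
      _ = g⁻¹ * (a * t) * g := by rw [ha]
      _ = g⁻¹ * a * g * (g⁻¹ * t * g) := by group
  -- t is not central in R
  obtain ⟨u, huR, hut⟩ : ∃ u ∈ (R : Subgroup L), u * t ≠ t * u := by
    by_contra hcon
    push Not at hcon
    apply hgz
    have h1 := P7 g⁻¹ (fun r hr => by
      have := hconjR r (hcon r hr)
      rwa [inv_inv])
    rw [ht]
    calc g * z * g⁻¹ = g * (z * g⁻¹) := by group
      _ = g * (g⁻¹ * z) := by rw [h1]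
      _ = z := by group
  -- elements of C_R(t) are involutions
  have P8 : ∀ a ∈ (R : Subgroup L), a * t = t * a → a * a = 1 := by
    intro a haR hat
    rcases F1 a haR with h | h
    · exact h
    · exfalso
      rcases F1 _ (hconjR a hat) with h' | h'
      · apply hz1
        rw [← h]
        calc a * a = g * (g⁻¹ * a * g * (g⁻¹ * a * g)) * g⁻¹ := by group
          _ = 1 := by rw [h']; group
      · apply hgz
        rw [ht]
        calc g * z * g⁻¹ = g * (g⁻¹ * a * g * (g⁻¹ * a * g)) * g⁻¹ := by rw [h']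
          _ = a * a := by group
          _ = z := h
  have Acomm : ∀ a ∈ (R : Subgroup L), ∀ a' ∈ (R : Subgroup L), a * t = t * a →
      a' * t = t * a' → a * a' = a' * a := by
    intro a ha a' ha' hat hat'
    have h1 := P8 a ha hat
    have h2 := P8 a' ha' hat'
    have h3 := P8 (a * a') (mul_mem ha ha') (by rw [mul_assoc, hat', ← mul_assoc, hat, mul_assoc])
    calc a * a' = a * (a * a' * (a * a')) * a' := by rw [h3, mul_one]
      _ = (a * a) * (a' * a) * (a' * a') := by group
      _ = a' * a := by rw [h1, h2, one_mul, mul_one]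
  have P9 : ∀ r ∈ (R : Subgroup L), ∀ a ∈ (R : Subgroup L), r * a = a * r ∨ r * a = a * r * z := by
    intro r hr a ha
    rcases F2 r hr a ha with h | h
    · left
      calc r * a = (r * a * r⁻¹ * a⁻¹) * (a * r) := by group
        _ = a * r := by rw [h, one_mul]
    · right
      calc r * a = (r * a * r⁻¹ * a⁻¹) * (a * r) := by group
        _ = z * (a * r) := by rw [h]
        _ = a * r * z := hzc _ (mul_mem ha hr)
  have hutz : u * t = t * u * z := (P9 u huR t hgR).resolve_left hut
  -- no index two subgroups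
  have hno2 : ∀ K : Subgroup L, K.Normal → K.index ≠ 2 := by
    intro K hK hKi
    rcases hK.eq_bot_or_eq_top with h | h
    · rw [h, Subgroup.index_bot] at hKi
      have hcyc : IsCyclic L := isCyclic_of_prime_card hKi
      exact hL inferInstance
    · rw [h, Subgroup.index_top] at hKi; omega
  -- the transfer argument: Z(R) = ⟨z⟩
  have P11 : ∀ b ∈ (R : Subgroup L), (∀ r ∈ (R : Subgroup L), r * b = b * r) →
      b = 1 ∨ b = z := by
    intro b hbR hbc
    by_contra hb
    push Not at hb
    obtain ⟨hb1, hbz⟩ := hb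
    have hbb : b * b = 1 := P8 b hbR (hbc t hgR).symm
    have hbo : orderOf b = 2 := orderOf_eq_prime (by rw [pow_two]; exact hbb) hb1
    have hbΦ : (⟨b, hbR⟩ : ↥(R : Subgroup L)) ∉ frattini ↥(R : Subgroup L) := by
      intro h
      have : b ∈ (frattini ↥(R : Subgroup L)).map (R : Subgroup L).subtype := ⟨_, h, rfl⟩
      rw [hΦ] at this
      rcases mem_zpowers_invol hz this with h | h
      · exact hb1 h
      · exact hbz h
    obtain ⟨K, hK, hbK⟩ : ∃ K : Subgroup ↥(R : Subgroup L), IsCoatom K ∧
        (⟨b, hbR⟩ : ↥(R : Subgroup L)) ∉ K := by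
      by_contra hcon
      push Not at hcon
      apply hbΦ
      show _ ∈ ⨅ a ∈ {H : Subgroup ↥(R : Subgroup L) | IsCoatom H}, a
      simp only [Subgroup.mem_iInf]
      intro M hM
      exact hcon M hM
    have hKi : K.index = 2 := Cfsg.Agent.H3.coatom_index hRp hK
    obtain ⟨M, hM⟩ : ∃ M : Subgroup L, M = K.map (R : Subgroup L).subtype := ⟨_, rfl⟩
    have hMR : M ≤ (R : Subgroup L) := by rw [hM]; exact Subgroup.map_subtype_le K
    have hMi : M.relIndex (R : Subgroup L) = 2 := by
      rw [Subgroup.relIndex, hM]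
      have : (K.map (R : Subgroup L).subtype).subgroupOf (R : Subgroup L) = K :=
        Subgroup.comap_map_eq_self_of_injective (Subgroup.subtype_injective _) K
      rw [this, hKi]
    have hmemM : ∀ x (hx : x ∈ (R : Subgroup L)), x ∈ M ↔ (⟨x, hx⟩ : ↥(R : Subgroup L)) ∈ K := by
      intro x hx
      rw [hM]
      constructor
      · rintro ⟨k, hk, hkx⟩
        have : k = ⟨x, hx⟩ := Subtype.ext hkx
        rw [← this]; exact hk
      · intro h; exact ⟨_, h, rfl⟩
    have hbM : b ∉ M := fun h => hbK ((hmemM b hbR).mp h)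
    obtain ⟨g', hcM, hgM⟩ := refined_transfer hno2 R M hMR hMi b hbo hbc
    obtain ⟨c, hc⟩ : ∃ c, c = g'⁻¹ * b * g' := ⟨_, rfl⟩
    rw [← hc] at hcM
    have hcR : c ∈ (R : Subgroup L) := hMR hcM
    have hbcc : b * c = c * b := (hbc c hcR).symm
    have hcc : ∀ r ∈ (R : Subgroup L), r * c = c * r := by
      have key : ∀ r ∈ M, r * c = c * r := by
        intro r hr
        have h1 := hbc (g' * r * g'⁻¹) (hgM r hr)
        rw [hc]
        calc r * (g'⁻¹ * b * g') = g'⁻¹ * ((g' * r * g'⁻¹) * b) * g' := by group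
          _ = g'⁻¹ * (b * (g' * r * g'⁻¹)) * g' := by rw [h1]
          _ = (g'⁻¹ * b * g') * r := by group
      intro r hr
      by_cases hrM : r ∈ M
      · exact key r hrM
      · have h2 : b * r ∈ M := by
          rw [hmemM (b * r) (mul_mem hbR hr)]
          have h3 := (Subgroup.mul_mem_iff_of_index_two hKi
            (a := (⟨b, hbR⟩ : ↥(R : Subgroup L))) (b := ⟨r, hr⟩))
          exact h3.mpr ⟨fun h => absurd h hbK, fun h => absurd ((hmemM r hr).mpr h) hrM⟩
        have h4 := key (b * r) h2
        calc r * c = b⁻¹ * ((b * r) * c) := by group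
          _ = b⁻¹ * (c * (b * r)) := by rw [h4]
          _ = b⁻¹ * (c * b) * r := by group
          _ = b⁻¹ * (b * c) * r := by rw [hbcc]
          _ = c * r := by group
    obtain ⟨h, hhK, hh⟩ := Cfsg.Agent.H71.sylow_conj_in_subgroup
      (Subgroup.centralizer ({c} : Set L)) R (g'⁻¹ • R) (by
        intro r hr
        rw [Subgroup.mem_centralizer_iff]
        intro y hy
        rw [Set.mem_singleton_iff] at hy
        rw [hy]; exact (hcc r hr).symm) (by
        intro y hy
        have hy' : g' * y * g'⁻¹ ∈ (R : Subgroup L) := by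
          have := (Cfsg.Agent.H71.mem_smul_sylow_iff g'⁻¹ R y).mp hy
          rwa [inv_inv] at this
        rw [Subgroup.mem_centralizer_iff]
        intro w hw
        rw [Set.mem_singleton_iff] at hw
        rw [hw, hc]
        have h1 := hbc _ hy'
        calc g'⁻¹ * b * g' * y = g'⁻¹ * (b * (g' * y * g'⁻¹)) * g' := by group
          _ = g'⁻¹ * ((g' * y * g'⁻¹) * b) * g' := by rw [h1]
          _ = y * (g'⁻¹ * b * g') := by group)
    have hn : ∀ r ∈ (R : Subgroup L), (g' * h) * r * (g' * h)⁻¹ ∈ (R : Subgroup L) := by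
      intro r hr
      have h1 : h * r * h⁻¹ ∈ (g'⁻¹ • R : Sylow 2 L) := by
        rw [hh]
        have : h⁻¹ * (h * r * h⁻¹) * h = r := by group
        rw [this]; exact hr
      have h2 := (Cfsg.Agent.H71.mem_smul_sylow_iff g'⁻¹ R _).mp h1
      rw [inv_inv] at h2
      have : g' * h * r * (g' * h)⁻¹ = g' * (h * r * h⁻¹) * g'⁻¹ := by group
      rw [this]; exact h2
    have hnz := P7 (g' * h) hn
    have hnR : g' * h ∈ (R : Subgroup L) := (hmemR _).mpr hnz.symm
    have hhc : c * h = h * c := Subgroup.mem_centralizer_iff.mp hhK c (Set.mem_singleton c)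
    have h5 : (g' * h) * c = c * (g' * h) := hcc _ hnR
    have h6 : g' * c = c * g' := by
      calc g' * c = g' * (c * h) * h⁻¹ := by group
        _ = g' * (h * c) * h⁻¹ := by rw [hhc]
        _ = (g' * h * c) * h⁻¹ := by group
        _ = c * (g' * h) * h⁻¹ := by rw [h5]
        _ = c * g' := by group
    have hbc' : b = c := by
      calc b = g' * (g'⁻¹ * b * g') * g'⁻¹ := by group
        _ = g' * c * g'⁻¹ := by rw [hc]
        _ = c * g' * g'⁻¹ := by rw [h6]
        _ = c := by group
    exact hbM (hbc' ▸ hcM)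
  -- u⁻¹ r commutes with t when r does not
  have hshift : ∀ r ∈ (R : Subgroup L), r * t ≠ t * r → (u⁻¹ * r) * t = t * (u⁻¹ * r) := by
    intro r hr hrt
    have h1 : r * t = t * r * z := (P9 r hr t hgR).resolve_left hrt
    have h2 : u⁻¹ * t = t * z⁻¹ * u⁻¹ := by
      calc u⁻¹ * t = u⁻¹ * (t * u * z) * (u * z)⁻¹ := by group
        _ = u⁻¹ * (u * t) * (u * z)⁻¹ := by rw [hutz]
        _ = t * z⁻¹ * u⁻¹ := by group
    calc u⁻¹ * r * t = u⁻¹ * (r * t) := by group
      _ = u⁻¹ * (t * r * z) := by rw [h1]
      _ = (u⁻¹ * t) * r * z := by group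
      _ = t * z⁻¹ * u⁻¹ * r * z := by rw [h2]
      _ = t * z⁻¹ * ((u⁻¹ * r) * z) := by group
      _ = t * z⁻¹ * (z * (u⁻¹ * r)) := by rw [hzc _ (mul_mem (inv_mem huR) hr)]
      _ = t * (u⁻¹ * r) := by group
  have hcent : ∀ a ∈ (R : Subgroup L), a * t = t * a → a * u = u * a → a = 1 ∨ a = z := by
    intro a haR hat hau
    apply P11 a haR
    intro r hr
    by_cases hrt : r * t = t * r
    · exact Acomm r hr a haR hrt hat
    · have hw := hshift r hr hrt
      have h3 := Acomm (u⁻¹ * r) (mul_mem (inv_mem huR) hr) a haR hw hat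
      calc r * a = u * ((u⁻¹ * r) * a) := by group
        _ = u * (a * (u⁻¹ * r)) := by rw [h3]
        _ = (u * a) * u⁻¹ * r := by group
        _ = (a * u) * u⁻¹ * r := by rw [hau]
        _ = a * r := by group
  have hA : ∀ a ∈ (R : Subgroup L), a * t = t * a → a = 1 ∨ a = z ∨ a = t ∨ a = t * z := by
    intro a haR hat
    rcases P9 u huR a haR with h | h
    · rcases hcent a haR hat h.symm with h' | h'
      · exact Or.inl h'
      · exact Or.inr (Or.inl h')
    · have hat2 : (a * t) * t = t * (a * t) := by rw [← mul_assoc, ← hat]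
      have hau2 : (a * t) * u = u * (a * t) := by
        symm
        calc u * (a * t) = (u * a) * t := by group
          _ = (a * u * z) * t := by rw [h]
          _ = a * u * (z * t) := by group
          _ = a * u * (t * z) := by rw [hzt]
          _ = a * (u * t) * z := by group
          _ = a * (t * u * z) * z := by rw [hutz]
          _ = a * t * u * (z * z) := by group
          _ = a * t * u := by rw [hzz, mul_one]
      rcases hcent (a * t) (mul_mem haR hgR) hat2 hau2 with h' | h'
      · right; right; left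
        calc a = (a * t) * t⁻¹ := by group
          _ = t⁻¹ := by rw [h', one_mul]
          _ = t := inv_eq_of_mul_eq_one_right htt
      · right; right; right
        calc a = (a * t) * t⁻¹ := by group
          _ = z * t⁻¹ := by rw [h']
          _ = z * t := by rw [inv_eq_of_mul_eq_one_right htt]
          _ = t * z := hzt
  -- |R| = 8
  have hlist : ∀ r ∈ (R : Subgroup L),
      r ∈ ([1, z, t, t * z, u, u * z, u * t, u * (t * z)] : List L).toFinset := by
    intro r hr
    rw [List.mem_toFinset]
    by_cases hrt : r * t = t * r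
    · rcases hA r hr hrt with h | h | h | h <;> simp [h]
    · have hw := hshift r hr hrt
      have hru : r = u * (u⁻¹ * r) := by group
      rcases hA (u⁻¹ * r) (mul_mem (inv_mem huR) hr) hw with h | h | h | h <;>
        (rw [hru, h]; simp)
  have hcard_le : Nat.card ↥(R : Subgroup L) ≤ 8 := by
    have h1 : Nat.card ↥(R : Subgroup L) = ((R : Subgroup L) : Set L).ncard :=
      Nat.card_coe_set_eq _
    have h2 : ((R : Subgroup L) : Set L) ⊆
        ((([1, z, t, t * z, u, u * z, u * t, u * (t * z)] : List L).toFinset : Finset L) : Set L) :=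
      fun r hr => hlist r hr
    have h3 := Set.ncard_le_ncard h2 (Finset.finite_toSet _)
    rw [Set.ncard_coe_finset] at h3
    have h4 := List.toFinset_card_le ([1, z, t, t * z, u, u * z, u * t, u * (t * z)] : List L)
    rw [h1]
    exact h3.trans (h4.trans (by simp))
  have hnc : ¬ ∀ a b : ↥(R : Subgroup L), a * b = b * a := by
    intro hcomm
    apply hut
    have := hcomm ⟨u, huR⟩ ⟨t, hgR⟩
    exact congrArg Subtype.val this
  have hcard8 : Nat.card ↥(R : Subgroup L) = 8 := by
    by_contra hne
    exact hnc (comm_of_card_lt_eight hRp (by omega))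
  have hx4 : orderOf (⟨x0, hx0R⟩ : ↥(R : Subgroup L)) = 4 := by
    rw [Subgroup.orderOf_mk]
    have := orderOf_eq_prime_pow (x := x0) (p := 2) (n := 1)
      (by rw [pow_one, pow_two, hx0]; exact hz1)
      (by
        have : x0 ^ 2 ^ (1 + 1) = (x0 * x0) * (x0 * x0) := by
          show x0 ^ (2 + 2) = _
          rw [pow_add, pow_two]
        rw [this, hx0, hzz])
    simpa using this
  have ht2 : orderOf (⟨t, hgR⟩ : ↥(R : Subgroup L)) = 2 := by
    rw [Subgroup.orderOf_mk]
    exact orderOf_eq_prime (by rw [pow_two]; exact htt) ht1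
  have htx : (⟨t, hgR⟩ : ↥(R : Subgroup L)) ∉
      Subgroup.zpowers (⟨x0, hx0R⟩ : ↥(R : Subgroup L)) := by
    intro hmem
    obtain ⟨k, hk⟩ := Subgroup.mem_zpowers_iff.mp hmem
    have hk' : x0 ^ k = t := by
      have := congrArg Subtype.val hk
      simpa using this
    have h1 : z ^ k = 1 := by
      rw [← hx0, ← htt, ← hk']
      exact (Commute.refl x0).mul_zpow k
    have h2 : ((orderOf z : ℕ) : ℤ) ∣ k := orderOf_dvd_iff_zpow_eq_one.mpr h1
    rw [hz] at h2
    obtain ⟨j, rfl⟩ := h2
    have h3 : t ∈ Subgroup.zpowers z := by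
      rw [← hk', zpow_mul, zpow_natCast, pow_two, hx0]
      exact Subgroup.zpow_mem_zpowers z j
    rcases mem_zpowers_invol hz h3 with h | h
    · exact ht1 h
    · exact hgz h
  exact Cfsg.Agent.H11.G168.order8_dihedral hcard8 hnc hx4 ht2 htx

end Cfsg.Agent.H73.D8Core
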