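import Cfsg.Agent.H39.FcDefs

/-!
# S4291-NSC: the centralizer of the perfect core of a Frobenius complement
(helper73, for helper39).
-/

set_option autoImplicit false

namespace Cfsg.Agent.H73.Fc

universe u

open Cfsg.Agent.H39.Fc

/-- A 2-subgroup of order divisible by 4 contains an element of order 4. -/
theorem exists_order_four {G : Type u} [Group G] [Finite G] (hax : FcAx G) (H : Subgroup G)
    (hH : IsPGroup 2 H) (h4 : 4 ∣ Nat.card H) : ∃ c ∈ H, orderOf c = 4 := by
  have : Fact (Nat.Prime 2) := ⟨Nat.prime_two⟩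
  rcases hax.syl 2 H hH with hcyc | ⟨_, n, hn, ⟨e⟩⟩
  · obtain ⟨g, hg⟩ := hcyc.exists_generator
    have ho : orderOf g = Nat.card H := orderOf_eq_card_of_forall_mem_zpowers hg
    obtain ⟨m, hm⟩ := h4
    have hm0 : m ≠ 0 := by
      rintro rfl
      have : Nat.card H ≠ 0 := Nat.card_pos.ne'
      omega
    refine ⟨((g ^ m : H) : G), (g ^ m).2, ?_⟩
    rw [Subgroup.orderOf_coe, orderOf_pow_of_dvd hm0 (by rw [ho, hm]; exact Dvd.intro_left 4 rfl),
      ho, hm]
    exact Nat.mul_div_cancel 4 (Nat.pos_of_ne_zero hm0)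
  · have : NeZero (2 ^ n) := ⟨by positivity⟩
    refine ⟨((e.symm (QuaternionGroup.xa 0) : H) : G), (e.symm (QuaternionGroup.xa 0)).2, ?_⟩
    rw [Subgroup.orderOf_coe, MulEquiv.orderOf_eq, QuaternionGroup.orderOf_xa]

/-- The square of an element of order 4 has order 2. -/
theorem orderOf_sq_of_four {G : Type u} [Group G] (c : G) (hc : orderOf c = 4) :
    orderOf (c * c) = 2 := by
  rw [← pow_two, orderOf_pow' c (by norm_num), hc]
  rfl

/-- 2-subgroups of the centralizer of `L` have order at most 2. -/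
theorem two_sub_small {G : Type u} [Group G] [Finite G] (hax : FcAx G) (L : Subgroup G)
    (hL8 : 8 ∣ Nat.card L)
    (hZ : Nat.card (L ⊓ Subgroup.centralizer (L : Set G) : Subgroup G) = 2)
    (Q : Subgroup G) (hQ : IsPGroup 2 Q) (hQC : Q ≤ Subgroup.centralizer (L : Set G)) :
    ¬ 4 ∣ Nat.card Q := by
  intro h4
  have : Fact (Nat.Prime 2) := ⟨Nat.prime_two⟩
  obtain ⟨c, hcQ, hc⟩ := exists_order_four hax Q hQ h4
  -- Sylow 2-subgroup of L
  obtain ⟨S⟩ : Nonempty (Sylow 2 L) := inferInstance
  have hS8 : 2 ^ 3 ∣ Nat.card S := S.pow_dvd_card_of_pow_dvd_card (by simpa using hL8)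
  have hS'p : IsPGroup 2 ((S : Subgroup L).map L.subtype) := S.2.map L.subtype
  have hS'4 : 4 ∣ Nat.card ((S : Subgroup L).map L.subtype) := by
    rw [Subgroup.card_map_of_injective L.subtype_injective]
    exact dvd_trans (by norm_num) hS8
  obtain ⟨i, hiS, hi⟩ := exists_order_four hax _ hS'p hS'4
  have hiL : i ∈ L := by
    obtain ⟨x, _, rfl⟩ := hiS; exact x.2
  have hcC : c ∈ Subgroup.centralizer (L : Set G) := hQC hcQ
  have hcomm : i * c = c * i := hcC i hiL
  have hc2 : orderOf (c * c) = 2 := orderOf_sq_of_four c hc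
  have hi2 : orderOf (i * i) = 2 := orderOf_sq_of_four i hi
  have heq : c * c = i * i := hax.invol _ _ hc2 hi2
  have hsq : (i * c⁻¹) * (i * c⁻¹) = 1 := by
    have hcomm' : c⁻¹ * i = i * c⁻¹ := by
      rw [inv_mul_eq_iff_eq_mul, ← mul_assoc, ← hcomm, mul_assoc, mul_inv_cancel, mul_one]
    calc (i * c⁻¹) * (i * c⁻¹) = i * (c⁻¹ * i) * c⁻¹ := by group
      _ = i * (i * c⁻¹) * c⁻¹ := by rw [hcomm']
      _ = (i * i) * (c * c)⁻¹ := by group
      _ = 1 := by rw [heq]; group
  have hcL : c ∈ L := by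
    by_cases h1 : i * c⁻¹ = 1
    · have : c = i := by rw [mul_inv_eq_one] at h1; exact h1.symm
      rw [this]; exact hiL
    · have ho : orderOf (i * c⁻¹) = 2 := orderOf_eq_prime (by rw [pow_two]; exact hsq) h1
      have h2 : i * c⁻¹ = i * i := hax.invol _ _ ho hi2
      have h3 : c⁻¹ = i := mul_left_cancel h2
      have h4 : c = i⁻¹ := by rw [← h3, inv_inv]
      rw [h4]; exact L.inv_mem hiL
  have hcZ : c ∈ (L ⊓ Subgroup.centralizer (L : Set G) : Subgroup G) := ⟨hcL, hcC⟩
  have hdvd : orderOf c ∣ 2 := by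
    rw [← hZ]
    have := orderOf_dvd_natCard (⟨c, hcZ⟩ : (L ⊓ Subgroup.centralizer (L : Set G) : Subgroup G))
    rwa [Subgroup.orderOf_mk] at this
  rw [hc] at hdvd
  omega

/-- No element of odd prime order `p ∣ |L|` centralizes `L`. -/
theorem no_odd_prime {G : Type u} [Group G] [Finite G] (hax : FcAx G) (L : Subgroup G)
    (hZ : Nat.card (L ⊓ Subgroup.centralizer (L : Set G) : Subgroup G) = 2)
    (p : ℕ) [hp : Fact p.Prime] (hp2 : p ≠ 2) (hpL : p ∣ Nat.card L)
    (m : G) (hm : orderOf m = p) (hmC : m ∈ Subgroup.centralizer (L : Set G)) : False := by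
  classical
  obtain ⟨l', hl'⟩ := exists_prime_orderOf_dvd_card' p hpL
  have hl : orderOf (l' : G) = p := by rw [Subgroup.orderOf_coe]; exact hl'
  have hlL : (l' : G) ∈ L := l'.2
  generalize (l' : G) = l at hl hlL
  have hcomm : l * m = m * l := hmC l hlL
  have hpm : IsPGroup p (Subgroup.zpowers m) := by
    apply IsPGroup.of_card (n := 1)
    rw [Nat.card_zpowers, hm, pow_one]
  have hpl : IsPGroup p (Subgroup.zpowers l) := by
    apply IsPGroup.of_card (n := 1)
    rw [Nat.card_zpowers, hl, pow_one]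
  have hnorm : Subgroup.zpowers m ≤ Subgroup.normalizer ((Subgroup.zpowers l : Subgroup G) : Set G) := by
    rw [Subgroup.zpowers_le]
    rw [Subgroup.mem_normalizer_iff]
    intro h
    have key : ∀ h ∈ Subgroup.zpowers l, m * h * m⁻¹ = h := by
      intro h hh
      obtain ⟨k, rfl⟩ := hh
      have : Commute m l := hcomm.symm
      have hc : Commute m (l ^ k) := this.zpow_right k
      rw [hc.eq, mul_inv_cancel_right]
    constructor
    · intro hh; rw [key h hh]; exact hh
    · intro hh
      have := key _ hh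
      have h5 : m⁻¹ * (m * h * m⁻¹) * m = h := by group
      rw [← h5, ← this]
      have h6 : m⁻¹ * (m * (m * h * m⁻¹) * m⁻¹) * m = m * h * m⁻¹ := by group
      rw [h6]; exact hh
  have hH : IsPGroup p (Subgroup.zpowers m ⊔ Subgroup.zpowers l : Subgroup G) :=
    IsPGroup.to_sup_of_normal_right' hpm hpl hnorm
  set H : Subgroup G := Subgroup.zpowers m ⊔ Subgroup.zpowers l with hHdef
  have hmH : m ∈ H := (le_sup_left : Subgroup.zpowers m ≤ H) (Subgroup.mem_zpowers m)
  have hlH : l ∈ H := (le_sup_right : Subgroup.zpowers l ≤ H) (Subgroup.mem_zpowers l)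
  have hcyc : IsCyclic H := by
    rcases hax.syl p H hH with h | ⟨h, _⟩
    · exact h
    · exact absurd h hp2
  have := Fintype.ofFinite H
  have hle := IsCyclic.card_pow_eq_one_le (α := H) (n := p) hp.out.pos
  have hlo : orderOf (⟨l, hlH⟩ : H) = p := by rw [Subgroup.orderOf_mk]; exact hl
  have hinj : Set.InjOn (fun k : ℕ => (⟨l, hlH⟩ : H) ^ k) (Finset.range p : Set ℕ) := by
    intro a ha b hb hab
    simp only [Finset.coe_range, Set.mem_Iio] at ha hb
    rw [← hlo] at ha hb
    exact pow_injOn_Iio_orderOf ha hb hab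
  have hcard : ((Finset.range p).image (fun k : ℕ => (⟨l, hlH⟩ : H) ^ k)).card = p := by
    rw [Finset.card_image_of_injOn hinj, Finset.card_range]
  have hsub : (Finset.range p).image (fun k : ℕ => (⟨l, hlH⟩ : H) ^ k) ⊆
      Finset.univ.filter (fun a : H => a ^ p = 1) := by
    intro x hx
    rw [Finset.mem_image] at hx
    obtain ⟨k, _, rfl⟩ := hx
    rw [Finset.mem_filter]
    refine ⟨Finset.mem_univ _, ?_⟩
    rw [← pow_mul, mul_comm, pow_mul, ← hlo, pow_orderOf_eq_one, one_pow]
  have heq := Finset.eq_of_subset_of_card_le hsub (by rw [hcard]; exact hle)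
  have hmem : (⟨m, hmH⟩ : H) ∈ (Finset.range p).image (fun k : ℕ => (⟨l, hlH⟩ : H) ^ k) := by
    rw [heq, Finset.mem_filter]
    refine ⟨Finset.mem_univ _, ?_⟩
    apply Subtype.ext
    simp only [Subgroup.coe_pow, Subgroup.coe_one]
    rw [← hm]; exact pow_orderOf_eq_one m
  rw [Finset.mem_image] at hmem
  obtain ⟨k, _, hk⟩ := hmem
  have hk' : l ^ k = m := by simpa using congrArg Subtype.val hk
  have hmL : m ∈ L := by rw [← hk']; exact L.pow_mem hlL k
  have hmZ : m ∈ (L ⊓ Subgroup.centralizer (L : Set G) : Subgroup G) := ⟨hmL, hmC⟩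
  have hdvd : orderOf m ∣ 2 := by
    rw [← hZ]
    have := orderOf_dvd_natCard (⟨m, hmZ⟩ : (L ⊓ Subgroup.centralizer (L : Set G) : Subgroup G))
    rwa [Subgroup.orderOf_mk] at this
  rw [hm] at hdvd
  exact hp2 ((Nat.prime_dvd_prime_iff_eq hp.out Nat.prime_two).1 hdvd)

/-- NSC: the centralizer of the perfect core. -/
theorem nsc : StNsC.{u} := by
  intro G _ _ hax L hLn hperf hL120 hZ
  have : Fact (Nat.Prime 2) := ⟨Nat.prime_two⟩
  have hL8 : 8 ∣ Nat.card L := by rw [hL120]; norm_num
  have hsmall := two_sub_small hax L hL8 hZ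
  obtain ⟨P⟩ : Nonempty (Sylow 2 (Subgroup.centralizer (L : Set G))) := inferInstance
  have hPp : IsPGroup 2 ((P : Subgroup (Subgroup.centralizer (L : Set G))).map
      (Subgroup.centralizer (L : Set G)).subtype) := P.2.map _
  have hPle : (P : Subgroup (Subgroup.centralizer (L : Set G))).map
      (Subgroup.centralizer (L : Set G)).subtype ≤ Subgroup.centralizer (L : Set G) := by
    rintro _ ⟨x, _, rfl⟩; exact x.2
  have hPcard' : Nat.card ((P : Subgroup (Subgroup.centralizer (L : Set G))).map
      (Subgroup.centralizer (L : Set G)).subtype) = Nat.card P :=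
    Subgroup.card_map_of_injective (Subgroup.centralizer (L : Set G)).subtype_injective
  have hP4 : ¬ 4 ∣ Nat.card P := by rw [← hPcard']; exact hsmall _ hPp hPle
  have h2C : 2 ∣ Nat.card (Subgroup.centralizer (L : Set G)) := by
    rw [← hZ]; exact Subgroup.card_dvd_of_le inf_le_right
  have h2P : 2 ∣ Nat.card P := P.dvd_card_of_dvd_card h2C
  have hPcard : Nat.card P = 2 := by
    obtain ⟨k, hk⟩ := IsPGroup.iff_card.1 P.2
    rcases k with _ | _ | k
    · rw [hk] at h2P; norm_num at h2P
    · simpa using hk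
    · exfalso; apply hP4; rw [hk]; exact Dvd.intro_left (2 ^ k) (by ring)
  -- P is central
  have hPcent : ∀ x ∈ (P : Subgroup (Subgroup.centralizer (L : Set G))),
      ∀ g : Subgroup.centralizer (L : Set G), g * x = x * g := by
    intro x hx g
    by_cases hx1 : x = 1
    · rw [hx1]; simp
    · have hox : orderOf x = 2 := by
        have h1 := orderOf_dvd_natCard (⟨x, hx⟩ : (P : Subgroup (Subgroup.centralizer (L : Set G))))
        rw [hPcard, Subgroup.orderOf_mk] at h1
        rcases (Nat.dvd_prime Nat.prime_two).1 h1 with h | h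
        · exact absurd (orderOf_eq_one_iff.1 h) hx1
        · exact h
      have hoG : orderOf (x : G) = 2 := by rw [Subgroup.orderOf_coe]; exact hox
      have hconj : orderOf ((g : G) * x * (g : G)⁻¹) = 2 := by
        rw [← hoG]
        exact orderOf_injective (MulAut.conj (g : G)).toMonoidHom (MulAut.conj (g : G)).injective _
      have h3 := hax.invol _ _ hconj hoG
      apply Subtype.ext
      simp only [Subgroup.coe_mul]
      calc (g : G) * x = (g : G) * x * (g : G)⁻¹ * g := by group
        _ = x * g := by rw [h3]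
  have hP : Subgroup.normalizer ((P : Subgroup (Subgroup.centralizer (L : Set G))) :
        Set (Subgroup.centralizer (L : Set G))) ≤
      Subgroup.centralizer ((P : Subgroup (Subgroup.centralizer (L : Set G))) :
        Set (Subgroup.centralizer (L : Set G))) := by
    intro g _
    rw [Subgroup.mem_centralizer_iff]
    intro x hx
    exact (hPcent x hx g).symm
  have hcompl := MonoidHom.ker_transferSylow_isComplement' P hP
  have hcard := hcompl.card_mul_card
  rw [hPcard] at hcard
  have hKcard : Nat.card ((MonoidHom.transferSylow P hP).ker.map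
      (Subgroup.centralizer (L : Set G)).subtype) = Nat.card (MonoidHom.transferSylow P hP).ker :=
    Subgroup.card_map_of_injective (Subgroup.centralizer (L : Set G)).subtype_injective
  have hKle : (MonoidHom.transferSylow P hP).ker.map
      (Subgroup.centralizer (L : Set G)).subtype ≤ Subgroup.centralizer (L : Set G) := by
    rintro _ ⟨x, _, rfl⟩; exact x.2
  refine ⟨(MonoidHom.transferSylow P hP).ker.map (Subgroup.centralizer (L : Set G)).subtype,
    hKle, ?_, ?_⟩
  · rw [hKcard, ← hcard, mul_comm]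
  · -- coprimality
    have hn2 : ¬ 2 ∣ Nat.card ((MonoidHom.transferSylow P hP).ker.map
        (Subgroup.centralizer (L : Set G)).subtype) := by
      rw [hKcard]
      intro h
      have h4 : 2 ^ 2 ∣ Nat.card (Subgroup.centralizer (L : Set G)) := by
        rw [← hcard]
        obtain ⟨j, hj⟩ := h
        rw [hj]; exact ⟨j, by ring⟩
      have := P.pow_dvd_card_of_pow_dvd_card h4
      rw [hPcard] at this
      omega
    have hodd : ∀ (p : ℕ) [Fact p.Prime], p ≠ 2 → p ∣ Nat.card L →
        ¬ p ∣ Nat.card ((MonoidHom.transferSylow P hP).ker.map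
          (Subgroup.centralizer (L : Set G)).subtype) := by
      intro p _ hp2 hpL hpM
      obtain ⟨m', hm'⟩ := exists_prime_orderOf_dvd_card' p hpM
      have hm : orderOf (m' : G) = p := by rw [Subgroup.orderOf_coe]; exact hm'
      exact no_odd_prime hax L hZ p hp2 hpL (m' : G) hm (hKle m'.2)
    have : Fact (Nat.Prime 3) := ⟨Nat.prime_three⟩
    have : Fact (Nat.Prime 5) := ⟨Nat.prime_five⟩
    have hn3 := hodd 3 (by norm_num) (by rw [hL120]; norm_num)
    have hn5 := hodd 5 (by norm_num) (by rw [hL120]; norm_num)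
    have h30 : (30 : ℕ) = 2 * (3 * 5) := by norm_num
    rw [h30]
    refine Nat.Coprime.mul_right ?_ (Nat.Coprime.mul_right ?_ ?_)
    · exact (Nat.coprime_comm.1 ((Nat.Prime.coprime_iff_not_dvd Nat.prime_two).2 hn2))
    · exact (Nat.coprime_comm.1 ((Nat.Prime.coprime_iff_not_dvd Nat.prime_three).2 hn3))
    · exact (Nat.coprime_comm.1 ((Nat.Prime.coprime_iff_not_dvd Nat.prime_five).2 hn5))

example : Cfsg.Agent.H39.Fc.StNsC.{u} := nsc

end Cfsg.Agent.H73.Fc

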