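import Cfsg.Agent.H39.FcDefs

/-!
# S4291-PC: the perfect core of a nonsolvable finite group (helper73, for helper39).
-/

set_option autoImplicit false

namespace Cfsg.Agent.H73.Fc

universe u

/-- The derived series of a finite group stabilizes. -/
theorem derivedSeries_stab (G : Type u) [Group G] [Finite G] :
    ∃ n : ℕ, derivedSeries G (n + 1) = derivedSeries G n := by
  have hanti : Antitone (derivedSeries G) := derivedSeries_antitone G
  obtain ⟨n, hn⟩ := WellFoundedLT.antitone_chain_condition hanti
  exact ⟨n, (hn (n + 1) (Nat.le_succ n)).symm⟩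

/-- PC: the perfect core of a nonsolvable finite group. -/
theorem pc : Cfsg.Agent.H39.Fc.StPc.{u} := by
  intro G _ _ hns
  obtain ⟨n, hn⟩ := derivedSeries_stab G
  refine ⟨derivedSeries G n, inferInstance, ?_, ?_⟩
  · intro hbot
    exact hns ((Group.isSolvable_def G).2 ⟨n, hbot⟩)
  · have h1 : ⁅derivedSeries G n, derivedSeries G n⁆ = derivedSeries G n := by
      rw [← derivedSeries_succ, hn]
    apply Subgroup.map_injective (derivedSeries G n).subtype_injective
    rw [Subgroup.map_subtype_commutator, h1]
    rw [← MonoidHom.range_eq_map, Subgroup.range_subtype]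

example : Cfsg.Agent.H39.Fc.StPc.{u} := pc

end Cfsg.Agent.H73.Fc

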