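import Cfsg.Agent.H39.FcDefs

/-!
# S4291-V4: two normal subgroups with four-group quotient coincide when a Sylow 2-subgroup
is generated by two elements (helper73, for helper39).
-/

set_option autoImplicit false

namespace Cfsg.Agent.H73.Fc

universe u

/-- A group of exponent 2 generated by two elements has at most 4 elements. -/
theorem card_le_four_of_sq (Q : Type u) [Group Q] (hsq : ∀ x : Q, x * x = 1) (a b : Q)
    (hgen : Subgroup.closure ({a, b} : Set Q) = ⊤) : Nat.card Q ≤ 4 := by
  classical
  have hcomm : ∀ x y : Q, x * y = y * x := by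
    intro x y
    have h1 := hsq (x * y)
    have hx := hsq x
    have hy := hsq y
    have hxi : x⁻¹ = x := by
      rw [inv_eq_iff_mul_eq_one]; exact hx
    have hyi : y⁻¹ = y := by
      rw [inv_eq_iff_mul_eq_one]; exact hy
    have h2 : x * y = (x * y)⁻¹ := by
      rw [eq_comm, inv_eq_iff_mul_eq_one]; exact h1
    rw [h2, mul_inv_rev, hxi, hyi]
  have hall : ∀ x : Q, x = 1 ∨ x = a ∨ x = b ∨ x = a * b := by
    intro x
    have hx : x ∈ Subgroup.closure ({a, b} : Set Q) := by rw [hgen]; trivial
    induction hx using Subgroup.closure_induction with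
    | mem y hy =>
      rcases hy with rfl | rfl
      · exact Or.inr (Or.inl rfl)
      · exact Or.inr (Or.inr (Or.inl rfl))
    | one => exact Or.inl rfl
    | mul y z _ _ hy hz =>
      have haa := hsq a
      have hbb := hsq b
      have hab := hcomm a b
      rcases hy with rfl | rfl | rfl | rfl <;> rcases hz with rfl | rfl | rfl | rfl
      · left; simp
      · right; left; simp
      · right; right; left; simp
      · right; right; right; simp
      · right; left; simp
      · left; exact haa
      · right; right; right; rfl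
      · right; right; left; rw [← mul_assoc, haa, one_mul]
      · right; right; left; simp
      · right; right; right; exact (hcomm _ _)
      · left; exact hbb
      · right; left; rw [hab, ← mul_assoc, hbb, one_mul]
      · right; right; right; simp
      · right; right; left; rw [hab, mul_assoc, haa, mul_one]
      · right; left; rw [mul_assoc, hbb, mul_one]
      · left; rw [mul_assoc, ← mul_assoc b a b, ← hab, mul_assoc a b b, hbb, mul_one, haa]
    | inv y _ hy =>
      have hyi : y⁻¹ = y := by
        rw [inv_eq_iff_mul_eq_one]; exact hsq y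
      rw [hyi]; exact hy
  have hfin : Finite Q := by
    apply Finite.of_injective (fun x : Q => (⟨x, by
      rcases hall x with h | h | h | h <;> simp [h]⟩ : ({1, a, b, a * b} : Finset Q)))
    intro x y hxy
    simpa using congrArg Subtype.val hxy
  have : Fintype Q := Fintype.ofFinite Q
  rw [Nat.card_eq_fintype_card, ← Finset.card_univ]
  have hsub : (Finset.univ : Finset Q) ⊆ {1, a, b, a * b} := by
    intro x _
    rcases hall x with h | h | h | h <;> simp [h]
  exact (Finset.card_le_card hsub).trans Finset.card_le_four

/-- V4. -/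
theorem v4 : Cfsg.Agent.H39.Fc.StV4.{u} := by
  intro G _ _ a b S hS N₁ N₂ hN₁ hN₂ h1 h2 hsq1 hsq2
  set N : Subgroup G := N₁ ⊓ N₂ with hNdef
  have hNn : N.Normal := inferInstance
  have hsq : ∀ x : G ⧸ N, x * x = 1 := by
    intro x
    induction x using QuotientGroup.induction_on with
    | H g =>
      rw [← QuotientGroup.mk_mul, QuotientGroup.eq_one_iff]
      exact ⟨hsq1 g, hsq2 g⟩
  -- G ⧸ N is a 2-group
  have hpg : IsPGroup 2 (G ⧸ N) := by
    intro x
    refine ⟨1, ?_⟩
    rw [pow_one, pow_two]; exact hsq x
  obtain ⟨k, hk⟩ := IsPGroup.iff_card.1 hpg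
  -- the image of S is everything
  have hsurj : Function.Surjective (QuotientGroup.mk' N) := QuotientGroup.mk'_surjective N
  have hidx : ((S : Subgroup G).map (QuotientGroup.mk' N)).index ∣ (S : Subgroup G).index :=
    Subgroup.index_map_dvd _ hsurj
  have hnd : ¬ 2 ∣ ((S : Subgroup G).map (QuotientGroup.mk' N)).index := by
    intro h
    exact S.not_dvd_index (h.trans hidx)
  have hdvd : ((S : Subgroup G).map (QuotientGroup.mk' N)).index ∣ 2 ^ k := by
    rw [← hk]; exact Subgroup.index_dvd_card _
  have hone : ((S : Subgroup G).map (QuotientGroup.mk' N)).index = 1 := by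
    obtain ⟨j, _, hj⟩ := (Nat.dvd_prime_pow Nat.prime_two).1 hdvd
    rcases Nat.eq_zero_or_pos j with rfl | hjpos
    · simpa using hj
    · exfalso; apply hnd; rw [hj]; exact dvd_pow_self 2 (by omega)
  have htop : (S : Subgroup G).map (QuotientGroup.mk' N) = ⊤ := Subgroup.index_eq_one.1 hone
  have hgen : Subgroup.closure ({QuotientGroup.mk' N a, QuotientGroup.mk' N b} : Set (G ⧸ N))
      = ⊤ := by
    rw [← htop, hS, MonoidHom.map_closure, Set.image_pair]
  have hcard : Nat.card (G ⧸ N) ≤ 4 := card_le_four_of_sq (G ⧸ N) hsq _ _ hgen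
  have hNidx : N.index ≤ 4 := by
    rw [Subgroup.index_eq_card]; exact hcard
  have hNpos : 0 < N.index := Nat.pos_of_ne_zero (Subgroup.index_ne_zero_of_finite)
  have key : ∀ M : Subgroup G, N ≤ M → M.index = 4 → M ≤ N := by
    intro M hNM hM
    have h := Subgroup.relIndex_mul_index hNM
    rw [hM] at h
    have h3 : N.relIndex M = 1 := by
      have hpos : 0 < N.relIndex M := by
        rcases Nat.eq_zero_or_pos (N.relIndex M) with h0 | h0
        · rw [h0] at h; omega
        · exact h0
      nlinarith
    exact Subgroup.relIndex_eq_one.1 h3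
  have hle1 : N₁ ≤ N := key N₁ inf_le_left h1
  have hle2 : N₂ ≤ N := key N₂ inf_le_right h2
  exact le_antisymm (hle1.trans inf_le_right) (hle2.trans inf_le_left)

example : Cfsg.Agent.H39.Fc.StV4.{u} := v4

end Cfsg.Agent.H73.Fc

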