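import Cfsg.Agent.H96.GuDefs

/-!
S5700 team project (helper96), piece GU-EXTA: a two-dimensional field subalgebra of a matrix
algebra is `F[J]` with `J` a root of an irreducible quadratic.
-/

set_option autoImplicit false

universe u

namespace Cfsg.Agent.H73.Gu

open Cfsg.Agent.H96.Gu

/-- **GU-EXTA.** -/
theorem extA : StExtA.{u} := by
  intro n F _ K hK
  have hfr : Module.finrank F K = 2 := hK.finrank_eq
  have : Module.Finite F K := Module.finite_of_finrank_pos (by rw [hfr]; norm_num)
  obtain ⟨j, hj⟩ : ∃ j : K, j ∉ Submodule.span F {(1 : K)} := by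
    by_contra hcon
    push Not at hcon
    have : Module.finrank F K ≤ 1 :=
      finrank_le_one (1 : K) (fun w => Submodule.mem_span_singleton.mp (hcon w))
    omega
  have h1 : (1 : K) ≠ 0 := by
    intro h
    apply hj
    have : j = 0 := by rw [← mul_one j, h, mul_zero]
    rw [this]; exact Submodule.zero_mem _
  have hli : LinearIndependent F ![j, (1 : K)] := by
    rw [LinearIndependent.pair_iff]
    intro s r hsr
    by_cases hs : s = 0
    · subst hs
      rw [zero_smul, zero_add] at hsr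
      exact ⟨rfl, (smul_eq_zero.mp hsr).resolve_right h1⟩
    · exfalso
      apply hj
      rw [Submodule.mem_span_singleton]
      refine ⟨-(s⁻¹ * r), ?_⟩
      have : j = s⁻¹ • (s • j) := by rw [smul_smul, inv_mul_cancel₀ hs, one_smul]
      rw [this, eq_neg_of_add_eq_zero_left hsr, smul_neg, smul_smul, neg_smul]
  have hspan : Submodule.span F (Set.range ![j, (1 : K)]) = ⊤ :=
    hli.span_eq_top_of_card_eq_finrank' (by rw [hfr]; rfl)
  have hrep : ∀ k : K, ∃ a b : F, a • j + b • (1 : K) = k := by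
    intro k
    have hk : k ∈ Submodule.span F (Set.range ![j, (1 : K)]) := by rw [hspan]; trivial
    rw [Matrix.range_cons_cons_empty] at hk
    exact Submodule.mem_span_pair.mp hk
  obtain ⟨s, r, hsr⟩ := hrep (j * j)
  have hJJ : (j : Matrix (Fin n) (Fin n) F) * (j : Matrix (Fin n) (Fin n) F)
      = s • (j : Matrix (Fin n) (Fin n) F) + r • (1 : Matrix (Fin n) (Fin n) F) := by
    have := congrArg (Subtype.val) hsr
    simpa using this.symm
  have hnot : ∀ c : F, (j : Matrix (Fin n) (Fin n) F) ≠ c • (1 : Matrix (Fin n) (Fin n) F) := by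
    intro c hc
    apply hj
    rw [Submodule.mem_span_singleton]
    exact ⟨c, Subtype.ext (by simpa using hc.symm)⟩
  refine ⟨(j : Matrix (Fin n) (Fin n) F), s, -r, ?_, ?_, ?_, hnot⟩
  · intro k
    constructor
    · intro hk
      obtain ⟨a, b, hab⟩ := hrep ⟨k, hk⟩
      refine ⟨a, b, ?_⟩
      have := congrArg (Subtype.val) hab
      simpa using this.symm
    · rintro ⟨a, b, rfl⟩
      exact K.add_mem (K.smul_mem j.2 a) (K.smul_mem K.one_mem b)
  · rw [neg_smul, sub_neg_eq_add]
    exact hJJ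
  · intro a h0
    have hmemK : ∀ c : F, (j : Matrix (Fin n) (Fin n) F) - c • (1 : Matrix (Fin n) (Fin n) F) ∈ K :=
      fun c => K.sub_mem j.2 (K.smul_mem K.one_mem c)
    have hne : ∀ c : F, (j : Matrix (Fin n) (Fin n) F) - c • (1 : Matrix (Fin n) (Fin n) F) ≠ 0 :=
      fun c hc => hnot c (sub_eq_zero.mp hc)
    have hprod : ((j : Matrix (Fin n) (Fin n) F) - a • (1 : Matrix (Fin n) (Fin n) F)) *
        ((j : Matrix (Fin n) (Fin n) F) - (s - a) • (1 : Matrix (Fin n) (Fin n) F)) = 0 := by
      have e : ((j : Matrix (Fin n) (Fin n) F) - a • (1 : Matrix (Fin n) (Fin n) F)) *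
          ((j : Matrix (Fin n) (Fin n) F) - (s - a) • (1 : Matrix (Fin n) (Fin n) F))
          = (j : Matrix (Fin n) (Fin n) F) * (j : Matrix (Fin n) (Fin n) F)
            - (s - a) • (j : Matrix (Fin n) (Fin n) F) - a • (j : Matrix (Fin n) (Fin n) F)
            + (a * (s - a)) • (1 : Matrix (Fin n) (Fin n) F) := by
        simp only [sub_mul, mul_sub, mul_smul_comm, smul_mul_assoc, mul_one, one_mul]
        module
      rw [e, hJJ]
      have e2 : s • (j : Matrix (Fin n) (Fin n) F) + r • (1 : Matrix (Fin n) (Fin n) F)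
            - (s - a) • (j : Matrix (Fin n) (Fin n) F) - a • (j : Matrix (Fin n) (Fin n) F)
            + (a * (s - a)) • (1 : Matrix (Fin n) (Fin n) F)
          = (-(a * a - s * a + -r)) • (1 : Matrix (Fin n) (Fin n) F) := by
        module
      rw [e2, h0, neg_zero, zero_smul]
    obtain ⟨y, hyK, hxy⟩ := hK.inv _ (hmemK a) (hne a)
    have hcomm := hK.comm _ (hmemK a) y hyK
    apply hne (s - a)
    calc (j : Matrix (Fin n) (Fin n) F) - (s - a) • (1 : Matrix (Fin n) (Fin n) F)
        = (((j : Matrix (Fin n) (Fin n) F) - a • (1 : Matrix (Fin n) (Fin n) F)) * y) *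
            ((j : Matrix (Fin n) (Fin n) F) - (s - a) • (1 : Matrix (Fin n) (Fin n) F)) := by
          rw [hxy, one_mul]
      _ = y * (((j : Matrix (Fin n) (Fin n) F) - a • (1 : Matrix (Fin n) (Fin n) F)) *
            ((j : Matrix (Fin n) (Fin n) F) - (s - a) • (1 : Matrix (Fin n) (Fin n) F))) := by
          rw [hcomm, mul_assoc]
      _ = 0 := by rw [hprod, mul_zero]

end Cfsg.Agent.H73.Gu

example : ∀ {n : ℕ} {F : Type u} [Field F] (K : Subalgebra F (Matrix (Fin n) (Fin n) F)),
    Cfsg.Geo.IsFieldSubalgebra 2 K →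
    ∃ (Jm : Matrix (Fin n) (Fin n) F) (t N : F),
      (∀ k : Matrix (Fin n) (Fin n) F, k ∈ K ↔
        ∃ a b : F, k = a • Jm + b • (1 : Matrix (Fin n) (Fin n) F)) ∧
      Jm * Jm = t • Jm - N • (1 : Matrix (Fin n) (Fin n) F) ∧
      (∀ a : F, a * a - t * a + N ≠ 0) ∧
      (∀ a : F, Jm ≠ a • (1 : Matrix (Fin n) (Fin n) F)) :=
  Cfsg.Agent.H73.Gu.extA

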