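import Cfsg.Agent.H96.GuDefs

/-!
S5700 team project (helper96), piece GU-GP: singular vectors with prescribed inner products.
-/

set_option autoImplicit false

universe u

namespace Cfsg.Agent.H73.Gu

open Module Cfsg.Agent.H49 Cfsg.Agent.H95 Cfsg.Agent.H96.Gu

/-- A vector with prescribed inner products against a linearly independent family. -/
theorem exists_polar_eq {ι : Type} [Fintype ι] [DecidableEq ι] {F : Type u} [Field F]
    (Q : QuadraticForm F (ι → F)) (hQ : (QuadraticMap.polarBilin Q).Nondegenerate)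
    {k : ℕ} (v : Fin k → ι → F) (hv : LinearIndependent F v) (c : Fin k → F) :
    ∃ w : ι → F, ∀ i, QuadraticMap.polar (⇑Q) w (v i) = c i := by
  have hker : LinearMap.ker (Fintype.linearCombination F v) = ⊥ := by
    rw [LinearMap.ker_eq_bot']
    intro a ha
    rw [Fintype.linearCombination_apply] at ha
    funext i
    exact (Fintype.linearIndependent_iff.mp hv) a ha i
  obtain ⟨g, hg⟩ := LinearMap.exists_leftInverse_of_injective (Fintype.linearCombination F v) hker
  obtain ⟨φ, hφ⟩ : ∃ φ : Module.Dual F (ι → F), ∀ x, φ x = ∑ i, c i * g x i := by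
    refine ⟨(∑ i, c i • (LinearMap.proj i : (Fin k → F) →ₗ[F] F)) ∘ₗ g, fun x => ?_⟩
    simp
  refine ⟨(LinearMap.BilinForm.toDual (QuadraticMap.polarBilin Q) hQ).symm φ, fun j => ?_⟩
  have h1 : QuadraticMap.polarBilin Q
      ((LinearMap.BilinForm.toDual (QuadraticMap.polarBilin Q) hQ).symm φ) (v j) = φ (v j) :=
    LinearMap.BilinForm.apply_toDual_symm_apply φ (v j)
  have h2 : v j = Fintype.linearCombination F v (Pi.single j 1) := by
    rw [Fintype.linearCombination_apply]
    simp [Pi.single_apply]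
  have h3 : g (v j) = Pi.single j 1 := by
    rw [h2]
    exact DFunLike.congr_fun hg (Pi.single j 1)
  have h4 : QuadraticMap.polar (⇑Q)
      ((LinearMap.BilinForm.toDual (QuadraticMap.polarBilin Q) hQ).symm φ) (v j) = φ (v j) := h1
  rw [h4, hφ, h3]
  simp [Pi.single_apply]

/-- A singular vector with prescribed inner products against a linearly independent family. -/
theorem exists_singular_polar_eq {ι : Type} [Fintype ι] [DecidableEq ι] {F : Type u} [Field F]
    [Finite F] (Q : QuadraticForm F (ι → F)) (hQ : (QuadraticMap.polarBilin Q).Nondegenerate)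
    {k : ℕ} (hk : 2 * (k + 1) + 3 ≤ Fintype.card ι)
    (v : Fin k → ι → F) (hv : LinearIndependent F v) (c : Fin k → F) :
    ∃ w : ι → F, Q w = 0 ∧ ∀ i, QuadraticMap.polar (⇑Q) w (v i) = c i := by
  obtain ⟨w₀, hw₀⟩ := exists_polar_eq Q hQ v hv c
  obtain ⟨b, hb⟩ : ∃ b : Fin (k + 1) → ι → F, b = Fin.cons w₀ v := ⟨_, rfl⟩
  have hfr : finrank F (Submodule.span F (Set.range b)) ≤ k + 1 := by
    have := finrank_range_le_card (R := F) b
    simpa [Set.finrank] using this
  have hdim : finrank F (ι → F) = Fintype.card ι := Module.finrank_fintype_fun_eq_card F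
  obtain ⟨e, e', he, he', hee, heX, he'X⟩ :=
    exists_hyp_pair_orth Q hQ (Submodule.span F (Set.range b)) (by rw [hdim]; omega)
  have hw₀X : w₀ ∈ Submodule.span F (Set.range b) :=
    Submodule.subset_span ⟨0, by rw [hb]; rfl⟩
  have hvX : ∀ i, v i ∈ Submodule.span F (Set.range b) :=
    fun i => Submodule.subset_span ⟨i.succ, by rw [hb]; rfl⟩
  refine ⟨w₀ + e + (-(Q w₀)) • e', ?_, fun i => ?_⟩
  · rw [Q_add' Q (w₀ + e), Q_add' Q w₀ e, QuadraticMap.map_smul, QuadraticMap.polar_smul_right,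
      QuadraticMap.polar_add_left, he, he', heX w₀ hw₀X, he'X w₀ hw₀X, hee]
    simp
  · rw [QuadraticMap.polar_add_left, QuadraticMap.polar_add_left, QuadraticMap.polar_smul_left,
      QuadraticMap.polar_comm _ e (v i), QuadraticMap.polar_comm _ e' (v i), heX _ (hvX i),
      he'X _ (hvX i), hw₀ i]
    simp

/-- **GU-GP.** -/
theorem gp (hInd : StInd.{u}) : StGP.{u} := by
  intro ι _ _ F _ _ Q J t N C u hu
  obtain ⟨hI1, hI2⟩ := hInd Q J t N C u hu
  have hcard := C.dim
  refine ⟨?_, ?_⟩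
  · intro c₁ c₂
    have hv : LinearIndependent F ![u, J u] := by
      rw [LinearIndependent.pair_iff]
      exact hI1
    obtain ⟨w, hw, hwv⟩ := exists_singular_polar_eq Q C.nd (k := 2) (by omega) ![u, J u] hv
      ![c₁, c₂]
    exact ⟨w, hw, hwv 0, hwv 1⟩
  · intro y hy c₁ c₂ c₃ c₄
    have hv : LinearIndependent F ![u, J u, y, J y] := by
      rw [Fintype.linearIndependent_iff]
      intro g hg
      rw [Fin.sum_univ_four] at hg
      have := hI2 y hy (g 0) (g 1) (g 2) (g 3) (by simpa using hg)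
      intro i
      fin_cases i
      · exact this.1
      · exact this.2.1
      · exact this.2.2.1
      · exact this.2.2.2
    obtain ⟨w, hw, hwv⟩ := exists_singular_polar_eq Q C.nd (k := 4) (by omega) ![u, J u, y, J y]
      hv ![c₁, c₂, c₃, c₄]
    exact ⟨w, hw, hwv 0, hwv 1, hwv 2, hwv 3⟩

end Cfsg.Agent.H73.Gu

example (hInd : Cfsg.Agent.H96.Gu.StInd.{u}) :
    ∀ {ι : Type} [Fintype ι] [DecidableEq ι] {F : Type u} [Field F] [Fintype F]
    (Q : QuadraticForm F (ι → F)) (J : (ι → F) →ₗ[F] (ι → F)) (t N : F),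
    Cfsg.Agent.H96.Gu.Ctx Q J t N →
    ∀ u : ι → F, u ≠ 0 →
      (∀ c₁ c₂ : F, ∃ w : ι → F, Q w = 0 ∧ QuadraticMap.polar (⇑Q) w u = c₁ ∧
        QuadraticMap.polar (⇑Q) w (J u) = c₂) ∧
      (∀ y : ι → F, ¬ Cfsg.Agent.H96.Gu.inK J u y → ∀ c₁ c₂ c₃ c₄ : F, ∃ w : ι → F, Q w = 0 ∧
        QuadraticMap.polar (⇑Q) w u = c₁ ∧ QuadraticMap.polar (⇑Q) w (J u) = c₂ ∧
        QuadraticMap.polar (⇑Q) w y = c₃ ∧ QuadraticMap.polar (⇑Q) w (J y) = c₄) :=
  Cfsg.Agent.H73.Gu.gp hInd

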