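import Cfsg.Agent.H96.GuDefs

/-!
S5700 team project (helper96), piece GU-IND: independence of `u, J u` and of `u, J u, y, J y`.
-/

set_option autoImplicit false

universe u

namespace Cfsg.Agent.H73.Gu

open Cfsg.Agent.H96.Gu

/-- `(a + b J) x = 0` implies `(a² + t a b + N b²) x = 0`. -/
theorem norm_smul_eq_zero {ι : Type} [Fintype ι] [DecidableEq ι] {F : Type u} [Field F]
    {Q : QuadraticForm F (ι → F)} {J : (ι → F) →ₗ[F] (ι → F)} {t N : F} (C : Ctx Q J t N)
    (x : ι → F) (a b : F) (h : a • x + b • J x = 0) :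
    (a * a + t * a * b + N * b * b) • x = 0 := by
  have h2 : a • J x + b • (t • J x - N • x) = 0 := by
    have := congrArg J h
    rw [map_add, map_smul, map_smul, C.sq, map_zero] at this
    exact this
  calc (a * a + t * a * b + N * b * b) • x
      = (a + b * t) • (a • x + b • J x) - b • (a • J x + b • (t • J x - N • x)) := by module
    _ = 0 := by rw [h, h2]; simp

theorem norm_ne' {ι : Type} [Fintype ι] [DecidableEq ι] {F : Type u} [Field F]
    {Q : QuadraticForm F (ι → F)} {J : (ι → F) →ₗ[F] (ι → F)} {t N : F} (C : Ctx Q J t N)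
    (a b : F) (h : ¬ (a = 0 ∧ b = 0)) : a * a + t * a * b + N * b * b ≠ 0 := by
  have := C.norm_ne a (-b) (by rintro ⟨h1, h2⟩; exact h ⟨h1, neg_eq_zero.mp h2⟩)
  intro h0
  apply this
  linear_combination h0

/-- **GU-IND.** -/
theorem ind : StInd.{u} := by
  intro ι _ _ F _ _ Q J t N C u hu
  have part1 : ∀ a b : F, a • u + b • J u = 0 → a = 0 ∧ b = 0 := by
    intro a b h
    by_contra hne
    have h0 := norm_smul_eq_zero C u a b h
    rcases smul_eq_zero.mp h0 with h1 | h1
    · exact norm_ne' C a b hne h1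
    · exact hu h1
  refine ⟨part1, ?_⟩
  intro y hy a b c d h
  have h1 : c • y + d • J y = -(a • u + b • J u) := by
    rw [eq_neg_iff_add_eq_zero, ← h]
    abel
  have h2 : c • J y + d • (t • J y - N • y) = -(a • J u + b • (t • J u - N • u)) := by
    have := congrArg J h1
    rw [map_add, map_smul, map_smul, C.sq, map_neg, map_add, map_smul, map_smul, C.sq] at this
    exact this
  have hνy : (c * c + t * c * d + N * d * d) • y
      = (-(c + d * t) * a - d * b * N) • u + (d * a - c * b) • J u := by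
    calc (c * c + t * c * d + N * d * d) • y
        = (c + d * t) • (c • y + d • J y) - d • (c • J y + d • (t • J y - N • y)) := by module
      _ = (c + d * t) • (-(a • u + b • J u)) - d • (-(a • J u + b • (t • J u - N • u))) := by
          rw [h1, h2]
      _ = (-(c + d * t) * a - d * b * N) • u + (d * a - c * b) • J u := by module
  have hcd : c = 0 ∧ d = 0 := by
    by_contra hne
    have hν := norm_ne' C c d hne
    apply hy
    refine ⟨(c * c + t * c * d + N * d * d)⁻¹ * (-(c + d * t) * a - d * b * N),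
      (c * c + t * c * d + N * d * d)⁻¹ * (d * a - c * b), ?_⟩
    have : y = (c * c + t * c * d + N * d * d)⁻¹ • ((c * c + t * c * d + N * d * d) • y) := by
      rw [smul_smul, inv_mul_cancel₀ hν, one_smul]
    rw [this, hνy, smul_add, smul_smul, smul_smul]
  obtain ⟨rfl, rfl⟩ := hcd
  have h3 := part1 a b (by simpa using h)
  exact ⟨h3.1, h3.2, rfl, rfl⟩

end Cfsg.Agent.H73.Gu

example : ∀ {ι : Type} [Fintype ι] [DecidableEq ι] {F : Type u} [Field F] [Fintype F]
    (Q : QuadraticForm F (ι → F)) (J : (ι → F) →ₗ[F] (ι → F)) (t N : F),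
    Cfsg.Agent.H96.Gu.Ctx Q J t N →
    ∀ u : ι → F, u ≠ 0 →
      (∀ a b : F, a • u + b • J u = 0 → a = 0 ∧ b = 0) ∧
      (∀ y : ι → F, ¬ Cfsg.Agent.H96.Gu.inK J u y → ∀ a b c d : F,
        a • u + b • J u + c • y + d • J y = 0 → a = 0 ∧ b = 0 ∧ c = 0 ∧ d = 0) :=
  Cfsg.Agent.H73.Gu.ind

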