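import Mathlib
import Cfsg.Agent.H66.HHFDefs

/-!
# S3786 piece WT (helper73): the weight argument

`B` abelian of exponent `p` in the `p`-group `D`, centralizing the `D`-invariant abelian subgroups
of the normal `p'`-subgroup `Kb ⊇ C_H(Kb)`; `y ∈ D` normalizes `B` and `y₀ = y^(p^m)` centralizes
the `y`-invariant abelian subgroups of `Kb`.  If `[b, y₀]` commutes with `y₀` then `b` commutes
with `y₀`.
-/

set_option autoImplicit false

namespace Cfsg.Agent.H73.HHF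

open Cfsg Subgroup Cfsg.Agent.H66.HHF

universe u

section aux
variable {H : Type u} [Group H]

lemma coe_pow_eq_one' {K : Subgroup H} {x : H} (hx : x ∈ K) {n : ℕ}
    (h : (⟨x, hx⟩ : K) ^ n = 1) : x ^ n = 1 := by
  have := congrArg Subtype.val h
  simpa using this

/-- The closure of a commuting set is commutative (elementwise form). -/
lemma closure_comm_elt (X : Set H) (hcomm : ∀ x ∈ X, ∀ y ∈ X, x * y = y * x) :
    ∀ a ∈ closure X, ∀ b ∈ closure X, a * b = b * a := by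
  intro a ha b hb
  have := (Subgroup.isMulCommutative_closure hcomm).is_comm.comm ⟨a, ha⟩ ⟨b, hb⟩
  exact congrArg Subtype.val this

/-- The closure of a set stable under conjugation by `y` is stable under conjugation by `y`. -/
lemma conj_mem_closure_of (X : Set H) (y : H) (hX : ∀ x ∈ X, y * x * y⁻¹ ∈ X) :
    ∀ a ∈ closure X, y * a * y⁻¹ ∈ closure X := by
  intro a ha
  induction ha using closure_induction with
  | mem x hx => exact subset_closure (hX x hx)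
  | one => simp
  | mul x z _ _ hx hz =>
    have : y * (x * z) * y⁻¹ = (y * x * y⁻¹) * (y * z * y⁻¹) := by group
    rw [this]; exact mul_mem hx hz
  | inv x _ hx =>
    have : y * x⁻¹ * y⁻¹ = (y * x * y⁻¹)⁻¹ := by group
    rw [this]; exact inv_mem hx

/-- The elements of `B` acting trivially on `X/Z`, as a subgroup. -/
def trivOn (B X Z : Subgroup H) (hBX : ∀ β ∈ B, ∀ x ∈ X, β * x * β⁻¹ ∈ X)
    (hBZ : ∀ β ∈ B, ∀ x ∈ Z, β * x * β⁻¹ ∈ Z) : Subgroup H where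
  carrier := {β | β ∈ B ∧ ∀ x ∈ X, β * x * β⁻¹ * x⁻¹ ∈ Z}
  one_mem' := ⟨one_mem B, fun x _ => by simp⟩
  mul_mem' := by
    rintro β γ ⟨hβ, hβt⟩ ⟨hγ, hγt⟩
    refine ⟨mul_mem hβ hγ, fun x hx => ?_⟩
    have h1 : β * γ * x * (β * γ)⁻¹ * x⁻¹
        = (β * (γ * x * γ⁻¹ * x⁻¹) * β⁻¹) * (β * x * β⁻¹ * x⁻¹) := by group
    rw [h1]
    exact mul_mem (hBZ β hβ _ (hγt x hx)) (hβt x hx)
  inv_mem' := by
    rintro β ⟨hβ, hβt⟩
    refine ⟨inv_mem hβ, fun x hx => ?_⟩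
    have hx' : β⁻¹ * x * β ∈ X := by
      have := hBX β⁻¹ (inv_mem hβ) x hx
      simpa using this
    have h1 := hβt _ hx'
    have h2 : β⁻¹ * x * β⁻¹⁻¹ * x⁻¹ = (β * (β⁻¹ * x * β) * β⁻¹ * (β⁻¹ * x * β)⁻¹)⁻¹ := by group
    rw [h2]
    exact inv_mem h1

lemma mem_trivOn {B X Z : Subgroup H} {hBX : ∀ β ∈ B, ∀ x ∈ X, β * x * β⁻¹ ∈ X}
    {hBZ : ∀ β ∈ B, ∀ x ∈ Z, β * x * β⁻¹ ∈ Z} {β : H} :
    β ∈ trivOn B X Z hBX hBZ ↔ β ∈ B ∧ ∀ x ∈ X, β * x * β⁻¹ * x⁻¹ ∈ Z := Iff.rfl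

end aux

theorem wt_holds (hFaith : FaithStatement.{u}) (hCrit : CritQStatement.{u})
    (hIrr : IrrStatement.{u}) (hOrth : OrthStatement.{u}) (hF5 : F5Statement.{u})
    (hCyc : CycStatement.{u}) : WTStatement.{u} := by
  intro H _ _ p _ m Kb D B hKn hKcop hCK hD hBD hBab hBp hB y hyD hyp hyB hy b hb hz
  by_contra hne
  have hp : p.Prime := Fact.out
  generalize hy0 : y ^ p ^ m = y0 at hy hz hne
  generalize hzdef : b * y0 * b⁻¹ * y0⁻¹ = z at hz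
  have hz1 : z ≠ 1 := by
    intro h
    apply hne
    rw [← hzdef] at h
    exact mul_inv_eq_iff_eq_mul.mp (mul_inv_eq_one.mp h)
  have hy0D : y0 ∈ D := by rw [← hy0]; exact pow_mem hyD _
  have hyNB : y ∈ normalizer (B : Set H) := mem_normalizer_fintype hyB
  have hy0NB : y0 ∈ normalizer (B : Set H) := by rw [← hy0]; exact pow_mem hyNB _
  have hzB : z ∈ B := by
    have h1 : y0 * b⁻¹ * y0⁻¹ ∈ B := (mem_normalizer_iff.mp hy0NB b⁻¹).mp (inv_mem hb)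
    have h2 : z = b * (y0 * b⁻¹ * y0⁻¹) := by rw [← hzdef]; group
    rw [h2]
    exact mul_mem hb h1
  have hzp : z ^ p = 1 := hBp z hzB
  have hconj_b : y0 * b * y0⁻¹ = z⁻¹ * b := by rw [← hzdef]; group
  -- `z` does not centralize `Kb`
  have hzK : ∃ k ∈ Kb, z * k ≠ k * z := by
    by_contra hcon
    push Not at hcon
    have hzc : z ∈ centralizer (Kb : Set H) := by
      rw [mem_centralizer_iff]
      intro k hk
      exact (hcon k hk).symm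
    have hzKb : z ∈ Kb := hCK hzc
    have h1 : orderOf z ∣ Nat.card Kb := by
      have := orderOf_dvd_natCard (⟨z, hzKb⟩ : Kb)
      rwa [Subgroup.orderOf_mk] at this
    have h2 : orderOf z ∣ p := orderOf_dvd_of_pow_eq_one hzp
    have h3 : orderOf z ∣ 1 := by
      have := Nat.dvd_gcd h1 h2
      rwa [hKcop] at this
    exact hz1 (orderOf_eq_one_iff.mp (Nat.dvd_one.mp h3))
  obtain ⟨q, hqF, Q, hqp, hQ, hQK, hQD, a, haQ, haz⟩ := hFaith H p Kb D hKn hKcop hD z hzK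
  have hq : q.Prime := hqF.out
  have hpq : Nat.Coprime p q := (Nat.coprime_primes hp hq).mpr (Ne.symm hqp)
  obtain ⟨C, Z, hCQ, hZC, hinv, hZcent, hcommZ, hfaith⟩ := hCrit H q Q hQ
  have hDC : ∀ d ∈ D, ∀ x ∈ C, d * x * d⁻¹ ∈ C := fun d hd => (hinv d (hQD d hd)).1
  have hDZ : ∀ d ∈ D, ∀ x ∈ Z, d * x * d⁻¹ ∈ Z := fun d hd => (hinv d (hQD d hd)).2
  have hZab : ∀ a ∈ Z, ∀ b ∈ Z, a * b = b * a := fun a ha b hb => hZcent a (hZC ha) b hb
  have hCK' : C ≤ Kb := hCQ.trans hQK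
  have hZK : Z ≤ Kb := hZC.trans hCK'
  have hBZ : ∀ β ∈ B, ∀ ζ ∈ Z, β * ζ = ζ * β := hB Z hZK hZab hDZ
  -- `z` does not centralize `C`
  have hzC : ∃ x ∈ C, z * x ≠ x * z := by
    by_contra hcon
    push Not at hcon
    have hcop : (orderOf z).Coprime q :=
      Nat.Coprime.coprime_dvd_left (orderOf_dvd_of_pow_eq_one hzp) hpq
    exact haz (hfaith z (hQD z (hBD hzB)) hcop hcon a haQ)
  have hzCZ : ∃ x ∈ C, z * x * z⁻¹ * x⁻¹ ∉ Z := by
    by_contra hcon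
    push Not at hcon
    obtain ⟨x, hxC, hx⟩ := hzC
    apply hx
    have hζZ : z * x * z⁻¹ * x⁻¹ ∈ Z := hcon x hxC
    generalize hζ : z * x * z⁻¹ * x⁻¹ = ζ at hζZ
    have hzζ : Commute z ζ := hBZ z hzB ζ hζZ
    have hpow : ∀ k : ℕ, z ^ k * x * (z ^ k)⁻¹ = ζ ^ k * x := by
      intro k
      induction k with
      | zero => simp
      | succ k ih =>
        have hc : z * ζ ^ k = ζ ^ k * z := (hzζ.pow_right k).eq
        calc z ^ (k + 1) * x * (z ^ (k + 1))⁻¹ = z * (z ^ k * x * (z ^ k)⁻¹) * z⁻¹ := by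
              rw [pow_succ']; group
          _ = z * (ζ ^ k * x) * z⁻¹ := by rw [ih]
          _ = (z * ζ ^ k) * z⁻¹ * (z * x * z⁻¹ * x⁻¹) * x := by group
          _ = ζ ^ k * ζ * x := by rw [hc, mul_inv_cancel_right, hζ]
          _ = ζ ^ (k + 1) * x := by rw [pow_succ]
    have h1 := hpow p
    rw [hzp] at h1
    have hζp : ζ ^ p = 1 := by
      have h2 : ζ ^ p * x = x := by simpa using h1.symm
      exact mul_eq_right.mp h2
    obtain ⟨k, hk⟩ := hQ ⟨ζ, hCQ (hZC hζZ)⟩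
    have hk' : ζ ^ q ^ k = 1 := coe_pow_eq_one' _ hk
    have h3 : orderOf ζ ∣ 1 := by
      have := Nat.dvd_gcd (orderOf_dvd_of_pow_eq_one hζp) (orderOf_dvd_of_pow_eq_one hk')
      rwa [Nat.Coprime.pow_right k hpq] at this
    have hζ1 : ζ = 1 := orderOf_eq_one_iff.mp (Nat.dvd_one.mp h3)
    rw [← hζ] at hζ1
    exact mul_inv_eq_iff_eq_mul.mp (mul_inv_eq_one.mp hζ1)
  have hCcop : (Nat.card C).Coprime p :=
    Nat.Coprime.coprime_dvd_left (Subgroup.card_dvd_of_le hCK') hKcop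
  obtain ⟨X, hZX, hXC, hBX, ⟨c, hcX, hcZ⟩, hzfpf, hdich⟩ :=
    hIrr H p B C Z hBab hZC hCcop hZcent hcommZ (fun β hβ => hDC β (hBD hβ))
      (fun β hβ => hDZ β (hBD hβ)) z hzB hzp hzCZ
  have hXcop : (Nat.card X).Coprime p :=
    Nat.Coprime.coprime_dvd_left (Subgroup.card_dvd_of_le hXC) hCcop
  have hBZn : ∀ β ∈ B, ∀ x ∈ Z, β * x * β⁻¹ ∈ Z := fun β hβ => hDZ β (hBD hβ)
  obtain ⟨j, x₁, hx₁X, hx₁Z, hx₁⟩ :=
    hF5 H p X Z hZX hXcop (fun x hx => hZcent x (hXC hx))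
      (fun x hx y hy => hcommZ x (hXC hx) y (hXC hy)) b z (hBab b hb z hzB) (hBp b hb) hzp
      (hBX b hb) (hBZn b hb) (hBX z hzB) (hBZn z hzB) ⟨c, hcX, hcZ⟩ hzfpf
  generalize hb'def : b * z ^ j = b' at hx₁
  have hb'B : b' ∈ B := by rw [← hb'def]; exact mul_mem hb (pow_mem hzB j)
  have hb'triv : ∀ x ∈ X, b' * x * b'⁻¹ * x⁻¹ ∈ Z :=
    (hdich b' hb'B).resolve_right (fun hfpf => hx₁Z (hfpf x₁ hx₁X hx₁))
  have hconj_b' : y0 * b' * y0⁻¹ = z⁻¹ * b' := by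
    have hc : y0 * z ^ j = z ^ j * y0 := ((show Commute z y0 from hz).pow_left j).eq.symm
    rw [← hb'def]
    calc y0 * (b * z ^ j) * y0⁻¹ = (y0 * b * y0⁻¹) * ((y0 * z ^ j) * y0⁻¹) := by group
      _ = (z⁻¹ * b) * z ^ j := by rw [hconj_b, hc, mul_inv_cancel_right]
      _ = z⁻¹ * (b * z ^ j) := by group
  -- the subgroup of `B` acting trivially on `X/Z`
  set TB := trivOn B X Z hBX hBZn with hTB
  have hb'TB : b' ∈ TB := mem_trivOn.mpr ⟨hb'B, hb'triv⟩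
  have hzTB : z ∉ TB := fun h => hcZ (hzfpf c hcX ((mem_trivOn.mp h).2 c hcX))
  -- Step 1: conjugates of `X` by `y ^ j'` commute with `X`
  have step1 : ∀ j' : ℕ, ¬ p ^ (m + 1) ∣ j' → ∀ x ∈ X, ∀ x' ∈ X,
      (y ^ j' * x * (y ^ j')⁻¹) * x' = x' * (y ^ j' * x * (y ^ j')⁻¹) := by
    intro j' hj'
    by_contra hcon
    push Not at hcon
    have hyj : y ^ j' ∈ D := pow_mem hyD j'
    set X1 : Subgroup H := X.map (MulAut.conj (y ^ j')).toMonoidHom with hX1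
    have hmemX1 : ∀ w, w ∈ X1 ↔ ∃ x ∈ X, y ^ j' * x * (y ^ j')⁻¹ = w := by
      intro w
      rw [hX1, Subgroup.mem_map]
      constructor <;> rintro ⟨x, hx, rfl⟩ <;> exact ⟨x, hx, rfl⟩
    have hZX1 : Z ≤ X1 := by
      intro ζ hζ
      rw [hmemX1]
      have h1 : (y ^ j')⁻¹ * ζ * (y ^ j')⁻¹⁻¹ ∈ Z := hDZ _ (inv_mem hyj) ζ hζ
      exact ⟨_, hZX h1, by group⟩
    have hX1C : X1 ≤ C := by
      intro w hw
      rw [hmemX1] at hw
      obtain ⟨x, hx, rfl⟩ := hw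
      exact hDC _ hyj x (hXC hx)
    have hstar : ∀ β ∈ B, (∀ w ∈ X1, β * w * β⁻¹ * w⁻¹ ∈ Z) →
        ∀ x ∈ X, β * x * β⁻¹ * x⁻¹ ∈ Z := by
      intro β hβ htriv1
      rcases hdich β hβ with h | hfpf
      · exact h
      · exfalso
        have h := hOrth H C Z X1 X hZX1 hX1C hZX hXC hZcent hcommZ β
          (fun ζ hζ => hBZ β hβ ζ hζ) (hBX β hβ) htriv1 hfpf
        obtain ⟨x, hx, x', hx', hne'⟩ := hcon
        exact hne' (h _ ((hmemX1 _).mpr ⟨x, hx, rfl⟩) x' hx')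
    have hstep : ∀ β ∈ TB, y ^ j' * β * (y ^ j')⁻¹ ∈ TB := by
      intro β hβ
      obtain ⟨hβB, hβt⟩ := mem_trivOn.mp hβ
      have hβ1B : y ^ j' * β * (y ^ j')⁻¹ ∈ B :=
        (mem_normalizer_iff.mp (pow_mem hyNB j') β).mp hβB
      refine mem_trivOn.mpr ⟨hβ1B, hstar _ hβ1B ?_⟩
      intro w hw
      rw [hmemX1] at hw
      obtain ⟨x, hx, rfl⟩ := hw
      have h1 : y ^ j' * β * (y ^ j')⁻¹ * (y ^ j' * x * (y ^ j')⁻¹) * (y ^ j' * β * (y ^ j')⁻¹)⁻¹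
          * (y ^ j' * x * (y ^ j')⁻¹)⁻¹ = y ^ j' * (β * x * β⁻¹ * x⁻¹) * (y ^ j')⁻¹ := by group
      rw [h1]
      exact hDZ _ hyj _ (hβt x hx)
    have hiter : ∀ t : ℕ, ∀ β ∈ TB, y ^ (j' * t) * β * (y ^ (j' * t))⁻¹ ∈ TB := by
      intro t
      induction t with
      | zero => intro β hβ; simpa using hβ
      | succ t ih =>
        intro β hβ
        have h1 := hstep _ (ih β hβ)
        have h2 : y ^ (j' * (t + 1)) * β * (y ^ (j' * (t + 1)))⁻¹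
            = y ^ j' * (y ^ (j' * t) * β * (y ^ (j' * t))⁻¹) * (y ^ j')⁻¹ := by
          have he : j' * (t + 1) = j' + j' * t := by ring
          rw [he, pow_add]
          group
        rw [h2]
        exact h1
    obtain ⟨t, ht⟩ := hCyc H p m y hyp j' hj'
    rw [hy0] at ht
    have h1 := hiter t b' hb'TB
    rw [ht, hconj_b'] at h1
    have h2 : z⁻¹ ∈ TB := by
      have : z⁻¹ = (z⁻¹ * b') * b'⁻¹ := by group
      rw [this]
      exact mul_mem h1 (inv_mem hb'TB)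
    exact hzTB (by simpa using inv_mem h2)
  -- Step 2: the conjugates of `c` generate an abelian `y`-invariant subgroup
  have hcC : c ∈ C := hXC hcX
  have hgC : ∀ k : ℕ, y ^ k * c * (y ^ k)⁻¹ ∈ C := fun k => hDC _ (pow_mem hyD k) c hcC
  have hg0 : ∀ d : ℕ, c * (y ^ d * c * (y ^ d)⁻¹) = (y ^ d * c * (y ^ d)⁻¹) * c := by
    intro d
    by_cases hd : p ^ (m + 1) ∣ d
    · obtain ⟨e, rfl⟩ := hd
      rw [pow_mul, hyp, one_pow]
      simp
    · exact (step1 d hd c hcX c hcX).symm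
  have hgle : ∀ k d : ℕ, (y ^ k * c * (y ^ k)⁻¹) * (y ^ (k + d) * c * (y ^ (k + d))⁻¹)
      = (y ^ (k + d) * c * (y ^ (k + d))⁻¹) * (y ^ k * c * (y ^ k)⁻¹) := by
    intro k d
    have h1 : (y ^ k * c * (y ^ k)⁻¹) * (y ^ (k + d) * c * (y ^ (k + d))⁻¹)
        = y ^ k * (c * (y ^ d * c * (y ^ d)⁻¹)) * (y ^ k)⁻¹ := by
      rw [pow_add]; group
    have h2 : (y ^ (k + d) * c * (y ^ (k + d))⁻¹) * (y ^ k * c * (y ^ k)⁻¹)
        = y ^ k * ((y ^ d * c * (y ^ d)⁻¹) * c) * (y ^ k)⁻¹ := by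
      rw [pow_add]; group
    rw [h1, h2, hg0 d]
  have hgcomm : ∀ k l : ℕ, (y ^ k * c * (y ^ k)⁻¹) * (y ^ l * c * (y ^ l)⁻¹)
      = (y ^ l * c * (y ^ l)⁻¹) * (y ^ k * c * (y ^ k)⁻¹) := by
    intro k l
    rcases le_total k l with h | h
    · obtain ⟨d, rfl⟩ := Nat.exists_eq_add_of_le h
      exact hgle k d
    · obtain ⟨d, rfl⟩ := Nat.exists_eq_add_of_le h
      exact (hgle l d).symm
  set gen : Set H := {w | ∃ k : ℕ, w = y ^ k * c * (y ^ k)⁻¹} ∪ (Z : Set H) with hgen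
  have hgencomm : ∀ u ∈ gen, ∀ v ∈ gen, u * v = v * u := by
    rintro u (⟨k, rfl⟩ | hu) v (⟨l, rfl⟩ | hv)
    · exact hgcomm k l
    · exact hZcent _ (hgC k) v hv
    · exact (hZcent _ (hgC l) u hu).symm
    · exact hZab u hu v hv
  have hAab := closure_comm_elt gen hgencomm
  have hAK : closure gen ≤ Kb := by
    rw [closure_le]
    rintro u (⟨k, rfl⟩ | hu)
    · exact hCK' (hgC k)
    · exact hZK hu
  have hAy : ∀ a ∈ closure gen, y * a * y⁻¹ ∈ closure gen := by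
    apply conj_mem_closure_of
    rintro u (⟨k, rfl⟩ | hu)
    · left
      refine ⟨k + 1, ?_⟩
      rw [pow_succ']; group
    · right
      exact hDZ y hyD u hu
  have hy0c : y0 * c = c * y0 :=
    hy (closure gen) hAK hAab hAy c (subset_closure (Or.inl ⟨0, by simp⟩))
  -- Step 3
  have hζ₁ : b' * c * b'⁻¹ * c⁻¹ ∈ Z := hb'triv c hcX
  have h1 : y0 * (b' * c * b'⁻¹ * c⁻¹) * y0⁻¹ ∈ Z := hDZ y0 hy0D _ hζ₁
  have hy0c' : y0 * c * y0⁻¹ = c := by rw [hy0c, mul_inv_cancel_right]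
  have h2 : y0 * (b' * c * b'⁻¹ * c⁻¹) * y0⁻¹
      = (y0 * b' * y0⁻¹) * (y0 * c * y0⁻¹) * (y0 * b' * y0⁻¹)⁻¹ * (y0 * c * y0⁻¹)⁻¹ := by group
  rw [h2, hconj_b', hy0c'] at h1
  have hzζ : z * (b' * c * b'⁻¹ * c⁻¹) = (b' * c * b'⁻¹ * c⁻¹) * z := hBZ z hzB _ hζ₁
  have h3 : z⁻¹ * b' * c * (z⁻¹ * b')⁻¹ * c⁻¹
      = z⁻¹ * ((b' * c * b'⁻¹ * c⁻¹) * z) * (z⁻¹ * c * z * c⁻¹) := by group
  rw [h3, ← hzζ] at h1
  have h4 : z⁻¹ * c * z * c⁻¹ ∈ Z := by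
    have h5 : z⁻¹ * c * z * c⁻¹ = (b' * c * b'⁻¹ * c⁻¹)⁻¹ *
        (z⁻¹ * (z * (b' * c * b'⁻¹ * c⁻¹)) * (z⁻¹ * c * z * c⁻¹)) := by group
    rw [h5]
    exact mul_mem (inv_mem hζ₁) h1
  have h6 : z * c * z⁻¹ * c⁻¹ ∈ Z := by
    have h7 : z * c * z⁻¹ * c⁻¹ = (z * (z⁻¹ * c * z * c⁻¹) * z⁻¹)⁻¹ := by group
    rw [h7]
    exact inv_mem (hBZn z hzB _ h4)
  exact hcZ (hzfpf c hcX h6)

example (hFaith : FaithStatement.{u}) (hCrit : CritQStatement.{u})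
    (hIrr : IrrStatement.{u}) (hOrth : OrthStatement.{u}) (hF5 : F5Statement.{u})
    (hCyc : CycStatement.{u}) : WTStatement.{u} := wt_holds hFaith hCrit hIrr hOrth hF5 hCyc

end Cfsg.Agent.H73.HHF

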