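import Cfsg.Agent.H20.HtDefs

set_option autoImplicit false

namespace Cfsg.Agent.H73.Ht

open Cfsg.Agent.H20.Ht

universe u v

/-- A submodule with `q` elements is spanned by any of its nonzero vectors. -/
theorem line_span {q : ℕ} [Fact q.Prime] {V : Type v} [AddCommGroup V] [Module (ZMod q) V]
    [Finite V] (W : Submodule (ZMod q) V) (hW : Nat.card W = q) {b : V} (hb : b ∈ W)
    (hb0 : b ≠ 0) : ∀ w ∈ W, ∃ c : ZMod q, w = c • b := by
  let φ : ZMod q → W := fun c => ⟨c • b, W.smul_mem c hb⟩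
  have hinj : Function.Injective φ := by
    intro c d hcd
    have h1 : c • b = d • b := congrArg Subtype.val hcd
    have h2 : (c - d) • b = 0 := by rw [sub_smul, h1, sub_self]
    exact sub_eq_zero.mp ((smul_eq_zero.mp h2).resolve_right hb0)
  have hbij : Function.Bijective φ := by
    rw [Nat.bijective_iff_injective_and_card]
    exact ⟨hinj, by rw [hW, Nat.card_zmod]⟩
  intro w hw
  obtain ⟨c, hc⟩ := hbij.2 ⟨w, hw⟩
  exact ⟨c, (congrArg Subtype.val hc).symm⟩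

/-- S3371-COORD. -/
theorem coord : Cfsg.Agent.H20.Ht.StmtCoord.{u, v} := by
  intro q _ V _ _ _ G _ _ ρ hq2 Wp Wm hS hAll hPM hcp hcm
  obtain ⟨hC, hWp, hWm, hpres, a0, ha0p, ha0m⟩ := hS
  obtain ⟨bp, hbp, hbp0⟩ := (Submodule.ne_bot_iff Wp).mp hWp
  obtain ⟨bm, hbm, hbm0⟩ := (Submodule.ne_bot_iff Wm).mp hWm
  have hlp := line_span Wp hcp hbp hbp0
  have hlm := line_span Wm hcm hbm hbm0
  have hdisj : ∀ x ∈ Wp, x ∈ Wm → x = 0 := fun x hx hx' =>
    (Submodule.disjoint_def.mp hC.disjoint) x hx hx'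
  have hcancel : ∀ (c d : ZMod q) (b : V), b ≠ 0 → c • b = d • b → c = d := by
    intro c d b hb h
    have h2 : (c - d) • b = 0 := by rw [sub_smul, h, sub_self]
    exact sub_eq_zero.mp ((smul_eq_zero.mp h2).resolve_right hb)
  -- the coordinate map
  let L : (Fin 2 → ZMod q) →ₗ[ZMod q] V :=
    (LinearMap.proj (R := ZMod q) (φ := fun _ : Fin 2 => ZMod q) 0).smulRight bp +
      (LinearMap.proj (R := ZMod q) (φ := fun _ : Fin 2 => ZMod q) 1).smulRight bm
  have hL : ∀ c, L c = c 0 • bp + c 1 • bm := fun c => rfl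
  have hLinj : Function.Injective L := by
    rw [injective_iff_map_eq_zero]
    intro c hc
    rw [hL] at hc
    have h1 : c 0 • bp = -(c 1 • bm) := eq_neg_of_add_eq_zero_left hc
    have h2 : c 0 • bp = 0 :=
      hdisj _ (Wp.smul_mem _ hbp) (h1 ▸ Wm.neg_mem (Wm.smul_mem _ hbm))
    have h3 : c 1 • bm = 0 := by rw [h2, zero_add] at hc; exact hc
    have h4 : c 0 = 0 := (smul_eq_zero.mp h2).resolve_right hbp0
    have h5 : c 1 = 0 := (smul_eq_zero.mp h3).resolve_right hbm0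
    funext i
    fin_cases i
    · exact h4
    · exact h5
  have hLsurj : Function.Surjective L := by
    intro w
    have hw : w ∈ Wp ⊔ Wm := by rw [hC.sup_eq_top]; trivial
    obtain ⟨x, hx, y, hy, rfl⟩ := Submodule.mem_sup.mp hw
    obtain ⟨c0, rfl⟩ := hlp x hx
    obtain ⟨c1, rfl⟩ := hlm y hy
    exact ⟨![c0, c1], by rw [hL]; simp⟩
  let E : (Fin 2 → ZMod q) ≃ₗ[ZMod q] V := LinearEquiv.ofBijective L ⟨hLinj, hLsurj⟩
  have hE : ∀ c, E c = c 0 • bp + c 1 • bm := fun c => rfl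
  -- the swapping elements
  have hsw : ∀ γ : ZMod q, γ ≠ 0 → ∃ g : G, ρ g bp = γ • bm ∧ ρ g bm = γ⁻¹ • bp := by
    intro γ hγ
    obtain ⟨g, h1, h2⟩ := hAll bp hbp hbp0 (γ • bm) (Wm.smul_mem _ hbm) (smul_ne_zero hγ hbm0)
    refine ⟨g, h1, ?_⟩
    rw [map_smul] at h2
    rw [← h2, smul_smul, inv_mul_cancel₀ hγ, one_smul]
  have hdiag : ∀ g : G, ∀ α β : ZMod q, ρ g bp = α • bp → ρ g bm = β • bm →
      α ≠ 0 ∧ (α * β = 1 ∨ α * β = -1) := by
    intro g α β h1 h2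
    have hα : α ≠ 0 := by
      rintro rfl
      rw [zero_smul] at h1
      exact hbp0 ((LinearEquiv.map_eq_zero_iff (ρ g)).mp h1)
    refine ⟨hα, ?_⟩
    obtain ⟨g1, h11, h12⟩ := hsw 1 one_ne_zero
    obtain ⟨gα, hα1, hα2⟩ := hsw α hα
    have e1 : ρ (gα * (g1 * g)) bp = bp := by
      rw [map_mul, map_mul, LinearEquiv.mul_apply, LinearEquiv.mul_apply, h1, map_smul, h11,
        map_smul, map_smul, hα2, smul_smul, smul_smul, mul_one, mul_inv_cancel₀ hα, one_smul]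
    have e2 : ρ (gα * (g1 * g)) bm = (α * β) • bm := by
      rw [map_mul, map_mul, LinearEquiv.mul_apply, LinearEquiv.mul_apply, h2, map_smul, h12,
        map_smul, map_smul, hα1, smul_smul, smul_smul, inv_one, mul_one, mul_comm]
    rcases hPM bp hbp hbp0 _ e1 with h | h
    · left
      have h3 := h bm hbm
      rw [e2] at h3
      exact hcancel _ _ bm hbm0 (by rw [h3, one_smul])
    · right
      have h3 := h bm hbm
      rw [e2] at h3
      exact hcancel _ _ bm hbm0 (by rw [h3, neg_smul, one_smul])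
  have hanti : ∀ g : G, ∀ α β : ZMod q, ρ g bp = α • bm → ρ g bm = β • bp →
      α ≠ 0 ∧ (α * β = 1 ∨ α * β = -1) := by
    intro g α β h1 h2
    obtain ⟨g1, h11, h12⟩ := hsw 1 one_ne_zero
    refine hdiag (g1 * g) α β ?_ ?_
    · rw [map_mul, LinearEquiv.mul_apply, h1, map_smul, h12, inv_one, one_smul]
    · rw [map_mul, LinearEquiv.mul_apply, h2, map_smul, h11, one_smul]
  have hexd : ∀ a s : ZMod q, a ≠ 0 → (s = 1 ∨ s = -1) →
      ∃ g : G, ρ g bp = a • bp ∧ ρ g bm = (s * a⁻¹) • bm := by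
    intro a s ha hs
    obtain ⟨g1, h11, h12⟩ := hsw 1 one_ne_zero
    obtain ⟨ga, ha1, ha2⟩ := hsw a ha
    rcases hs with rfl | rfl
    · refine ⟨g1 * ga, ?_, ?_⟩
      · rw [map_mul, LinearEquiv.mul_apply, ha1, map_smul, h12, inv_one, one_smul]
      · rw [map_mul, LinearEquiv.mul_apply, ha2, map_smul, h11, one_smul, one_mul]
    · refine ⟨a0 * (g1 * ga), ?_, ?_⟩
      · rw [map_mul, map_mul, LinearEquiv.mul_apply, LinearEquiv.mul_apply, ha1, map_smul, h12,
          map_smul, map_smul, ha0p bp hbp, inv_one, one_smul]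
      · rw [map_mul, map_mul, LinearEquiv.mul_apply, LinearEquiv.mul_apply, ha2, map_smul, h11,
          map_smul, map_smul, ha0m bm hbm, one_smul, smul_neg, neg_mul, one_mul, neg_smul]
  have hexa : ∀ a s : ZMod q, a ≠ 0 → (s = 1 ∨ s = -1) →
      ∃ g : G, ρ g bp = a • bm ∧ ρ g bm = (s * a⁻¹) • bp := by
    intro a s ha hs
    obtain ⟨ga, ha1, ha2⟩ := hsw a ha
    rcases hs with rfl | rfl
    · exact ⟨ga, ha1, by rw [ha2, one_mul]⟩
    · refine ⟨ga * a0, ?_, ?_⟩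
      · rw [map_mul, LinearEquiv.mul_apply, ha0p bp hbp, ha1]
      · rw [map_mul, LinearEquiv.mul_apply, ha0m bm hbm, map_neg, ha2, neg_mul, one_mul, neg_smul]
  have hcd : ∀ g : G, ∀ α β : ZMod q, ρ g bp = α • bp → ρ g bm = β • bm →
      ∀ c, E.symm (ρ g (E c)) = ![α * c 0, β * c 1] := by
    intro g α β h1 h2 c
    rw [LinearEquiv.symm_apply_eq, hE, hE, map_add, map_smul, map_smul, h1, h2]
    simp [smul_smul, mul_comm]
  have hca : ∀ g : G, ∀ α β : ZMod q, ρ g bp = α • bm → ρ g bm = β • bp →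
      ∀ c, E.symm (ρ g (E c)) = ![β * c 1, α * c 0] := by
    intro g α β h1 h2 c
    rw [LinearEquiv.symm_apply_eq, hE, hE, map_add, map_smul, map_smul, h1, h2]
    simp [smul_smul, mul_comm, add_comm]
  refine ⟨E.symm, fun f => ⟨?_, ?_⟩⟩
  · rintro ⟨g, rfl⟩
    have key : ∀ c, (E.symm.symm.trans ((ρ g).trans E.symm)) c = E.symm (ρ g (E c)) :=
      fun c => rfl
    rcases hpres g with ⟨hp, hm⟩ | ⟨hp, hm⟩
    · obtain ⟨α, hα⟩ := hlp _ (hp bp hbp)
      obtain ⟨β, hβ⟩ := hlm _ (hm bm hbm)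
      obtain ⟨hα0, hs⟩ := hdiag g α β hα hβ
      refine ⟨α, α * β, hα0, hs, Or.inl fun c => ?_⟩
      rw [key, hcd g α β hα hβ]
      have hb : α * β * α⁻¹ = β := by
        rw [mul_comm α β, mul_assoc, mul_inv_cancel₀ hα0, mul_one]
      rw [hb]
    · obtain ⟨α, hα⟩ := hlm _ (hp bp hbp)
      obtain ⟨β, hβ⟩ := hlp _ (hm bm hbm)
      obtain ⟨hα0, hs⟩ := hanti g α β hα hβ
      refine ⟨α, α * β, hα0, hs, Or.inr fun c => ?_⟩
      rw [key, hca g α β hα hβ]
      have hb : α * β * α⁻¹ = β := by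
        rw [mul_comm α β, mul_assoc, mul_inv_cancel₀ hα0, mul_one]
      rw [hb]
  · rintro ⟨a, s, ha, hs, hf | hf⟩
    · obtain ⟨g, h1, h2⟩ := hexd a s ha hs
      refine ⟨g, LinearEquiv.ext fun c => ?_⟩
      rw [hf c]
      exact (hcd g a (s * a⁻¹) h1 h2 c).symm
    · obtain ⟨g, h1, h2⟩ := hexa a s ha hs
      refine ⟨g, LinearEquiv.ext fun c => ?_⟩
      rw [hf c]
      exact (hca g a (s * a⁻¹) h1 h2 c).symm

example : Cfsg.Agent.H20.Ht.StmtCoord.{u, v} := coord.{u, v}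

end Cfsg.Agent.H73.Ht
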