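import Cfsg.Agent.H20.HtDefs

set_option autoImplicit false

namespace Cfsg.Agent.H73.Ht

open Cfsg.Agent.H20.Ht

universe u v

/-- In a `ZMod q`-module with `q ≠ 2`, `-v = v` forces `v = 0`. -/
theorem eq_zero_of_neg_eq {q : ℕ} [Fact q.Prime] {V : Type v} [AddCommGroup V]
    [Module (ZMod q) V] (hq2 : q ≠ 2) {w : V} (h : -w = w) : w = 0 := by
  have h2 : (2 : ZMod q) • w = 0 := by
    rw [two_smul]
    nth_rewrite 1 [← h]
    exact neg_add_cancel w
  have h2ne : (2 : ZMod q) ≠ 0 := by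
    intro h0
    have h0' : ((2 : ℕ) : ZMod q) = 0 := by exact_mod_cast h0
    rw [ZMod.natCast_eq_zero_iff] at h0'
    exact hq2 ((Nat.prime_dvd_prime_iff_eq (Fact.out : q.Prime) Nat.prime_two).mp h0')
  rcases smul_eq_zero.mp h2 with h | h
  · exact absurd h h2ne
  · exact h

/-- S3371-SW2. -/
theorem swap2 : Cfsg.Agent.H20.Ht.StmtSwap2.{u, v} := by
  intro q _ V _ _ _ G _ _ ρ hq2 hEq Wp Wm hS
  obtain ⟨hC, hWp, hWm, hpres, a, hap, ham⟩ := hS
  intro vp hvp hvp0 vm hvm hvm0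
  by_contra hno
  push Not at hno
  have hdisj : ∀ x ∈ Wp, x ∈ Wm → x = 0 := by
    intro x hx hx'
    exact (Submodule.disjoint_def.mp hC.disjoint) x hx hx'
  have hsum0 : vp + vm ≠ 0 := by
    intro h
    have h' : vp = -vm := eq_neg_of_add_eq_zero_left h
    exact hvp0 (hdisj vp hvp (h' ▸ Wm.neg_mem hvm))
  have huniq : ∀ x ∈ Wp, ∀ y ∈ Wm, x + y = vp + vm → x = vp ∧ y = vm := by
    intro x hx y hy h
    have h1 : x - vp = vm - y := by
      have h0 : x - vp - (vm - y) = 0 := by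
        have h00 : x - vp - (vm - y) = (x + y) - (vp + vm) := by abel
        rw [h00, h, sub_self]
      exact sub_eq_zero.mp h0
    have h2 : x - vp = 0 := hdisj _ (Wp.sub_mem hx hvp) (h1 ▸ Wm.sub_mem hvm hy)
    have h3 : vm - y = 0 := by rw [← h1, h2]
    exact ⟨sub_eq_zero.mp h2, (sub_eq_zero.mp h3).symm⟩
  have hle : ∀ g, g ∈ stab ρ (vp + vm) → g ∈ stab ρ vp ∧ g ∈ stab ρ vm := by
    intro g hg
    rw [mem_stab, map_add] at hg
    rcases hpres g with ⟨h1, h2⟩ | ⟨h1, h2⟩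
    · exact huniq _ (h1 vp hvp) _ (h2 vm hvm) hg
    · exfalso
      have h3 := huniq _ (h2 vm hvm) _ (h1 vp hvp) (by rw [add_comm]; exact hg)
      exact hno g h3.2 h3.1
  have hle1 : stab ρ (vp + vm) ≤ stab ρ vp := fun g hg => (hle g hg).1
  have hle2 : stab ρ (vp + vm) ≤ stab ρ vm := fun g hg => (hle g hg).2
  have e1 : stab ρ (vp + vm) = stab ρ vp :=
    Subgroup.eq_of_le_of_card_ge hle1 (le_of_eq (hEq _ _ hsum0 hvp0).symm)
  have e2 : stab ρ (vp + vm) = stab ρ vm :=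
    Subgroup.eq_of_le_of_card_ge hle2 (le_of_eq (hEq _ _ hsum0 hvm0).symm)
  have ha1 : a ∈ stab ρ vp := hap vp hvp
  have ha2 : a ∈ stab ρ vm := by rw [← e2, e1]; exact ha1
  rw [mem_stab, ham vm hvm] at ha2
  exact hvm0 (eq_zero_of_neg_eq hq2 ha2)

example : Cfsg.Agent.H20.Ht.StmtSwap2.{u, v} := swap2.{u, v}

end Cfsg.Agent.H73.Ht
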