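import Cfsg.Agent.H59.JzKillDefs
import Cfsg.Agent.S2950
import Cfsg.Agent.Helper55.UqBase
import Cfsg.Agent.H63.SnIfV
import Cfsg.Agent.H63.SnIfZ
import Cfsg.Agent.H32.SrVNG
import Cfsg.Agent.H1.JtMod

/-!
# K-FOUR (JZ-KILL sub-project, S2951 / S2952)

Interface piece: in the situation (R), `V = Ω₁Z(O₂(L))`, a four-group of `N_G(V) = L` whose three
involutions have the same fixed points on `V` meets `C_G(V)`.  From helper1's module lemma
`Cfsg.Agent.H1.Jt.common_fix` (`L / C_L(V)` solvable with trivial 2-core).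
-/

set_option autoImplicit false
open Cfsg

universe u

namespace Cfsg.Agent.H73.JzK

open Cfsg.Agent.H59.JzK Cfsg.Agent.H64.Jz

/-- K-FOUR, given K-NV (`N_G(V) = L`). -/
theorem kFour (hNV : StKNV.{u}) : StKFour.{u} := by
  intro G _ _ S M K L T' K' L' hR b₁ hb₁ b₂ hb₂ h1 h2 hc hF
  have hNVeq : Subgroup.normalizer (Vof L : Set G) = L := hNV S M K L T' K' L' hR
  obtain ⟨hB, -, -, -⟩ := hR
  obtain ⟨⟨hL, hNsol, hZN⟩, hO, hM, hMJ, hSmax, -, hK, hLmax, hKL⟩ := hB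
  obtain ⟨L₀, hL₀max, hKL₀, huniq, -, hSyl₀⟩ :=
    Cfsg.Agent.S2950.result hL hNsol hZN hO S M hM hMJ (S : Subgroup G) hSmax K hK
  have hLL₀ : L = L₀ := huniq L hLmax hKL
  have hSyl : IsSylowTwoIn (S : Subgroup G) L := hLL₀ ▸ hSyl₀
  have hSL : (S : Subgroup G) ≤ L := hSyl.1
  obtain ⟨T₁, hJT₁, hJeq, -, hov, -, -⟩ := Cfsg.Agent.Helper55.Uq.overgroup_facts hL hNsol hZN
    S M hMJ (S : Subgroup G) hSmax K hK.1.1 hK.2.1 L hLmax.1 hKL
  have hLS : L ∈ jOvergroups (S : Subgroup G) :=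
    ⟨hSyl, by rw [hJeq]; exact hov.2.1, hov.2.2⟩
  obtain ⟨hVn', hVel, hQV⟩ := Cfsg.Agent.H63.Sn.ifV L
  have hCT := Cfsg.Agent.H63.Sn.ifZ hZN (S : Subgroup G) L hLS
  obtain ⟨hLV, hV2, hVQ, hQL, hQ2⟩ := Cfsg.Agent.H32.Sr.vng L
  have hVL : Vof L ≤ L := hVQ.trans hQL
  have hVc : ∀ v ∈ Vof L, ∀ w ∈ Vof L, v * w = w * v := by
    intro v hv w hw
    have := hVel.1.is_comm.comm
      (⟨⟨v, hVL hv⟩, Subgroup.mem_subgroupOf.mpr hv⟩ : ↥((Vof L).subgroupOf L))
      ⟨⟨w, hVL hw⟩, Subgroup.mem_subgroupOf.mpr hw⟩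
    exact congrArg (fun x : ↥((Vof L).subgroupOf L) => ((x : ↥L) : G)) this
  have hsolv : Group.IsSolvable ↥L := hNsol L hLmax.1
  have hNoTwo : Cfsg.Agent.H1.Jt.NoTwoCoreMod L (Vof L) := by
    apply Cfsg.Agent.H1.Jt.noTwoCoreMod_of L (Vof L) S hSL hVL hLV
    · rintro c ⟨hcL, hcC⟩
      have hc1 : (⟨c, hcL⟩ : ↥L) ∈
          Subgroup.centralizer (((Vof L).subgroupOf L : Subgroup ↥L) : Set ↥L) :=
        (Cfsg.Agent.H1.Jt.mem_centralizer_subgroupOf L (Vof L) hVL ⟨c, hcL⟩).mpr hcC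
      have hc2 := hCT hc1
      rw [Subgroup.mem_normalizer_iff] at hc2
      rw [Subgroup.mem_normalizer_iff]
      intro s
      constructor
      · intro hs
        have := (hc2 ⟨s, hSL hs⟩).mp (Subgroup.mem_subgroupOf.mpr hs)
        exact Subgroup.mem_subgroupOf.mp this
      · intro hs
        have hsL : s ∈ L := by
          have hse : s = c⁻¹ * (c * s * c⁻¹) * c := by group
          rw [hse]
          exact L.mul_mem (L.mul_mem (L.inv_mem hcL) (hSL hs)) hcL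
        have := (hc2 ⟨s, hsL⟩).mpr (Subgroup.mem_subgroupOf.mpr hs)
        exact Subgroup.mem_subgroupOf.mp this
    · intro N hNL hN2 hLN n hn
      have hnorm : (N.subgroupOf L).Normal :=
        Cfsg.Agent.H1.Jt.subgroupOf_normal_of_le_normalizer L N hLN
      have hp : IsPGroup 2 ↥(N.subgroupOf L) := hN2.comap_subtype
      have hle : N.subgroupOf L ≤ pCore 2 ↥L := le_sSup ⟨hnorm, hp⟩
      have := hQV (hle (Subgroup.mem_subgroupOf.mpr hn : (⟨n, hNL hn⟩ : ↥L) ∈ N.subgroupOf L))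
      exact (Cfsg.Agent.H1.Jt.mem_centralizer_subgroupOf L (Vof L) hVL ⟨n, hNL hn⟩).mp this
  by_contra hcon
  have hn1 : b₁ ∉ Subgroup.centralizer (Vof L : Set G) := fun h => hcon (Or.inl h)
  have hn2 : b₂ ∉ Subgroup.centralizer (Vof L : Set G) := fun h => hcon (Or.inr (Or.inl h))
  have hn3 : b₁ * b₂ ∉ Subgroup.centralizer (Vof L : Set G) :=
    fun h => hcon (Or.inr (Or.inr h))
  have e1 : b₁ * (b₁ * b₂) = b₂ := by rw [← mul_assoc, h1, one_mul]
  have e2 : b₂ * (b₁ * b₂) = b₁ := by rw [← mul_assoc, ← hc, mul_assoc, h2, mul_one]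
  have e3 : b₁ * b₂ * b₁ = b₂ := by rw [mul_assoc, ← hc, ← mul_assoc, h1, one_mul]
  have e4 : b₁ * b₂ * b₂ = b₁ := by rw [mul_assoc, h2, mul_one]
  have e5 : b₁ * b₂ * (b₁ * b₂) = 1 := by rw [mul_assoc, e2, h1]
  let A : Subgroup G :=
    { carrier := {x | x = 1 ∨ x = b₁ ∨ x = b₂ ∨ x = b₁ * b₂}
      mul_mem' := by
        rintro x y (rfl | rfl | rfl | rfl) (rfl | rfl | rfl | rfl)
        · exact Or.inl (mul_one 1)
        · exact Or.inr (Or.inl (one_mul _))
        · exact Or.inr (Or.inr (Or.inl (one_mul _)))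
        · exact Or.inr (Or.inr (Or.inr (one_mul _)))
        · exact Or.inr (Or.inl (mul_one _))
        · exact Or.inl h1
        · exact Or.inr (Or.inr (Or.inr rfl))
        · exact Or.inr (Or.inr (Or.inl e1))
        · exact Or.inr (Or.inr (Or.inl (mul_one _)))
        · exact Or.inr (Or.inr (Or.inr hc.symm))
        · exact Or.inl h2
        · exact Or.inr (Or.inl e2)
        · exact Or.inr (Or.inr (Or.inr (mul_one _)))
        · exact Or.inr (Or.inr (Or.inl e3))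
        · exact Or.inr (Or.inl e4)
        · exact Or.inl e5
      one_mem' := Or.inl rfl
      inv_mem' := by
        rintro x (rfl | rfl | rfl | rfl)
        · exact Or.inl inv_one
        · exact Or.inr (Or.inl (inv_eq_of_mul_eq_one_right h1))
        · exact Or.inr (Or.inr (Or.inl (inv_eq_of_mul_eq_one_right h2)))
        · exact Or.inr (Or.inr (Or.inr (inv_eq_of_mul_eq_one_right e5))) }
  have hAmem : ∀ a, a ∈ A ↔ (a = 1 ∨ a = b₁ ∨ a = b₂ ∨ a = b₁ * b₂) := fun a => Iff.rfl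
  have hb₁L : b₁ ∈ L := hNVeq ▸ hb₁
  have hb₂L : b₂ ∈ L := hNVeq ▸ hb₂
  have hAL : A ≤ L := by
    intro a ha
    rcases (hAmem a).mp ha with rfl | rfl | rfl | rfl
    · exact L.one_mem
    · exact hb₁L
    · exact hb₂L
    · exact L.mul_mem hb₁L hb₂L
  have hA2 : ∀ a ∈ A, a * a = 1 := by
    intro a ha
    rcases (hAmem a).mp ha with rfl | rfl | rfl | rfl
    · exact mul_one 1
    · exact h1
    · exact h2
    · exact e5
  have hAc : ∀ a ∈ A, ∀ b ∈ A, a * b = b * a := by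
    intro a ha b hb
    have e : a * b * (a * b) = 1 := hA2 _ (A.mul_mem ha hb)
    have haa := hA2 a ha
    have hbb := hA2 b hb
    symm
    calc b * a = (a * b * (a * b)) * (b * a) := by rw [e, one_mul]
      _ = a * b * (a * (b * b) * a) := by group
      _ = a * b := by rw [hbb, mul_one, haa, mul_one]
  have hAV : A ⊓ Subgroup.centralizer (Vof L : Set G) = ⊥ := by
    rw [eq_bot_iff]
    rintro a ⟨ha, haC⟩
    rcases (hAmem a).mp ha with rfl | rfl | rfl | rfl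
    · exact Subgroup.mem_bot.mpr rfl
    · exact absurd haC hn1
    · exact absurd haC hn2
    · exact absurd haC hn3
  have hFF : ∀ a ∈ A, a ≠ 1 → ∀ b ∈ A, b ≠ 1 → ∀ v ∈ Vof L,
      (a * v = v * a ↔ b * v = v * b) := by
    intro a ha ha1 b hb hb1 v hv
    obtain ⟨p12, p13⟩ := hF v hv
    rcases (hAmem a).mp ha with rfl | rfl | rfl | rfl
    · exact absurd rfl ha1
    · rcases (hAmem b).mp hb with rfl | rfl | rfl | rfl
      · exact absurd rfl hb1
      · exact Iff.rfl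
      · exact p12
      · exact p13
    · rcases (hAmem b).mp hb with rfl | rfl | rfl | rfl
      · exact absurd rfl hb1
      · exact p12.symm
      · exact Iff.rfl
      · exact p12.symm.trans p13
    · rcases (hAmem b).mp hb with rfl | rfl | rfl | rfl
      · exact absurd rfl hb1
      · exact p13.symm
      · exact p13.symm.trans p12
      · exact Iff.rfl
  have hb₁1 : b₁ ≠ 1 := fun h => hn1 (h ▸ Subgroup.one_mem _)
  have hb₂1 : b₂ ≠ 1 := fun h => hn2 (h ▸ Subgroup.one_mem _)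
  have heq := Cfsg.Agent.H1.Jt.common_fix L (Vof L) A hVL hLV hsolv hV2 hVc hNoTwo hAL hA2 hAc
    hAV hFF b₁ ((hAmem b₁).mpr (Or.inr (Or.inl rfl))) b₂
    ((hAmem b₂).mpr (Or.inr (Or.inr (Or.inl rfl)))) hb₁1 hb₂1
  apply hn3
  rw [← heq, h1]
  exact Subgroup.one_mem _

end Cfsg.Agent.H73.JzK

example : Cfsg.Agent.H59.JzK.StKNV.{u} → Cfsg.Agent.H59.JzK.StKFour.{u} :=
  Cfsg.Agent.H73.JzK.kFour

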