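import Mathlib
import Cfsg.Agent.H64.JzDefs
import Cfsg.Agent.H64.JzFinal
import Cfsg.Agent.H52.JzKill
import Cfsg.Agent.H4.JkA
import Cfsg.Agent.H51.Amalgam
import Cfsg.Agent.H51.Local
import Cfsg.Agent.Helper55.UqBase
import Cfsg.Agent.H97.JyPFacts

/-!
# JX-PSIDE (S2953 / JY-KILL2, helper52's sub-project): the `P`-side facts of a configuration

For `Base S M T K L` and `D := O₂(K ⊔ T)`: `D` has index 2 in `T` (elementwise), every element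
of `T ∖ D` inverts `K` modulo `D`, and `K` has an element of order 3 outside `M`.
Glue on helper97's abstract `Cfsg.Agent.H97.Jy.pfacts` (S2952 gives `T ≤ N_G(K)`).
-/

set_option autoImplicit false
open Cfsg

namespace Cfsg.Agent.H73.JxP

open Cfsg.Agent.H64.Jz
open Cfsg.Agent.Helper55 Cfsg.Agent.Helper55.ThJ Cfsg.Agent.Helper55.J48

universe u

/-- helper52's `StPSide` (post 11203), stated inline. -/
def StPSide : Prop := ∀ {G : Type u} [Group G] [Finite G] (S : Sylow 2 G) (M T K L : Subgroup G),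
  Cfsg.Agent.H64.Jz.Base S M T K L →
  (∀ a ∈ T, ∀ b ∈ T, a ∉ pCoreOf 2 (K ⊔ T) → b ∉ pCoreOf 2 (K ⊔ T) →
    a * b ∈ pCoreOf 2 (K ⊔ T)) ∧
  (∀ x ∈ T, x ∉ pCoreOf 2 (K ⊔ T) → ∀ g ∈ K, x * g * x⁻¹ * g ∈ pCoreOf 2 (K ⊔ T)) ∧
  ∃ k ∈ K, k ^ 3 = 1 ∧ k ∉ M

theorem map_conj_eq {G : Type u} [Group G] {H : Subgroup G} {t : G}
    (ht : t ∈ Subgroup.normalizer (H : Set G)) : H.map (MulAut.conj t).toMonoidHom = H := by
  ext y
  constructor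
  · rintro ⟨x, hx, rfl⟩
    exact (Subgroup.mem_normalizer_iff.mp ht x).mp hx
  · intro hy
    refine ⟨t⁻¹ * y * t, ?_, ?_⟩
    · have h := (Subgroup.mem_normalizer_iff.mp (inv_mem ht) y).mp hy
      simpa using h
    · show t * (t⁻¹ * y * t) * t⁻¹ = y
      group

theorem mem_normalizer_of_map_conj_eq {G : Type u} [Group G] {O : Subgroup G} {t : G}
    (h : O.map (MulAut.conj t).toMonoidHom = O) : t ∈ Subgroup.normalizer (O : Set G) := by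
  rw [Subgroup.mem_normalizer_iff]
  intro x
  constructor
  · intro hx
    rw [← h]
    exact ⟨x, hx, rfl⟩
  · intro hx
    have hx' : t * x * t⁻¹ ∈ O.map (MulAut.conj t).toMonoidHom := by rw [h]; exact hx
    obtain ⟨o, ho, he⟩ := hx'
    have he' : t * o * t⁻¹ = t * x * t⁻¹ := he
    have : o = x := by simpa using he'
    rwa [← this]

/-- the `P`-side facts with `D = O₂(K ⊔ T)`, full list -/
theorem pside_full {G : Type u} [Group G] [Finite G] (S : Sylow 2 G) (M T K L : Subgroup G)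
    (hB : Base S M T K L) :
    T ≤ Subgroup.normalizer (K : Set G) ∧ pCoreOf 2 K ≤ pCoreOf 2 (K ⊔ T) ∧
    pCoreOf 2 (K ⊔ T) ≤ T ∧
    (∀ a ∈ T, ∀ b ∈ T, a ∉ pCoreOf 2 (K ⊔ T) → b ∉ pCoreOf 2 (K ⊔ T) →
      a * b ∈ pCoreOf 2 (K ⊔ T)) ∧
    (∀ x ∈ T, x ∉ pCoreOf 2 (K ⊔ T) → ∀ g ∈ K, x * g * x⁻¹ * g ∈ pCoreOf 2 K) ∧
    (∀ g ∈ K, g * g ∈ pCoreOf 2 K → g ∈ pCoreOf 2 K) ∧ (∀ g ∈ K, g ^ 3 ∈ pCoreOf 2 K) ∧
    ∃ k ∈ K, k ∉ pCoreOf 2 K ∧ k ^ 3 = 1 ∧ k ∉ M ∧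
      (∀ g ∈ K, ∃ o ∈ pCoreOf 2 K, ∃ i : ℕ, g = o * k ^ i) := by
  have hTS : T ≤ (S : Subgroup G) := hB.2.2.2.2.2.1
  have hT2 : IsPGroup 2 ↥T := S.isPGroup'.to_le hTS
  have hTK : T ≤ Subgroup.normalizer (K : Set G) :=
    Cfsg.Agent.H52.JzKill.norm S M T K L hB (Cfsg.Agent.H64.Jz.stMain S M T K L hB)
  have hKJ : IsJComponent T K := hB.2.2.2.2.2.2.1.1.1
  obtain ⟨hgen, -, hO3, -, -, -⟩ := hKJ
  have hKM : ¬ K ≤ M := hB.2.2.2.2.2.2.1.2.1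
  have hTM : T ≤ M := hB.2.2.2.2.1.1.2.2.1
  obtain ⟨hov, hOKL, -⟩ := Cfsg.Agent.H4.Jk.ka S M T K L hB
  have hsyl : IsSylowTwoIn T L := hov.1
  have hOT : pCoreOf 2 K ≤ T := hOKL.trans (pCoreOf_le_of_sylowIn hsyl)
  have hOK : pCoreOf 2 K ≤ K := Cfsg.Agent.H51.pCoreOf_le 2 K
  have hOnK : K ≤ Subgroup.normalizer (pCoreOf 2 K : Set G) := le_normalizer_pCoreOf K
  have hOnT : T ≤ Subgroup.normalizer (pCoreOf 2 K : Set G) := fun t ht => by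
    have h1 := map_conj_eq (hTK ht)
    have h2 := Cfsg.Agent.H51.pCoreOf_map 2 K (MulAut.conj t)
    rw [h1] at h2
    exact mem_normalizer_of_map_conj_eq h2.symm
  obtain ⟨D, k, hDT, hOD, hKD, hTD, hD2, hinv, hsq, hcube, hkK, hkO, hk3, hKO, hdich⟩ :=
    Cfsg.Agent.H97.Jy.pfacts K T (pCoreOf 2 K) hT2 hTK hOK hOT hO3 hOnK hOnT hgen
  have hDle : D ≤ pCoreOf 2 (K ⊔ T) :=
    Cfsg.Agent.H51.le_pCoreOf (p := 2) (hDT.trans le_sup_right) (sup_le hKD hTD)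
      (hT2.to_le hDT)
  have hQD : pCoreOf 2 (K ⊔ T) ≤ D := by
    rcases hdich (pCoreOf 2 (K ⊔ T)) (Cfsg.Agent.H51.pCoreOf_le 2 _)
      (le_normalizer_pCoreOf _) with h | h
    · exact h
    · exfalso
      have hK2 : IsPGroup 2 ↥K := (Cfsg.Agent.Helper55.Uq.pCoreOf_isPGroup (K ⊔ T)).to_le h
      have hodd : Odd (orderOf k) := by
        have hd : orderOf k ∣ 3 := orderOf_dvd_of_pow_eq_one hk3
        exact Odd.of_dvd_nat (by decide) hd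
      have h1 := Cfsg.Agent.H97.Jy.eq_one_of_odd_of_two hK2 hkK hodd
      exact hkO (h1 ▸ (pCoreOf 2 K).one_mem)
  have hDeq : pCoreOf 2 (K ⊔ T) = D := le_antisymm hQD hDle
  rw [hDeq]
  refine ⟨hTK, hOD, hDT, hD2, hinv, hsq, hcube, k, hkK, hkO, hk3, ?_, hKO⟩
  intro hkM
  apply hKM
  intro g hg
  obtain ⟨o, ho, i, rfl⟩ := hKO g hg
  exact M.mul_mem (hTM (hOT ho)) (M.pow_mem hkM i)

/-- JX-PSIDE: helper52's `StPSide`. -/
theorem pSide : StPSide.{u} := by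
  intro G _ _ S M T K L hB
  obtain ⟨-, hOD, -, hD2, hinv, -, -, k, hkK, -, hk3, hkM, -⟩ := pside_full S M T K L hB
  exact ⟨hD2, fun x hx hxD g hg => hOD (hinv x hx hxD g hg), k, hkK, hk3, hkM⟩

end Cfsg.Agent.H73.JxP

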