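import Cfsg.Agent.H46.OutGDefs
/-!
S2121 / S2122 team project (helper46), piece OG-CNT2: a subgroup `T` of `S` with exactly one
further coset has half the order of `S`.
-/
set_option autoImplicit false

namespace Cfsg.Agent.H73.OutG

universe u

/-- OG-CNT2 -/
theorem cnt2 : Cfsg.Agent.H46.OutG.StCnt2.{u} := by
  intro A _ S T γ hTS hγS hγT hall
  have h2 : (T.subgroupOf S).index = 2 := by
    rw [Subgroup.index_eq_two_iff]
    refine ⟨⟨γ⁻¹, S.inv_mem hγS⟩, fun b => ?_⟩
    have hb := hall b.1 b.2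
    by_cases hbT : (b : A) ∈ T
    · right
      refine ⟨Subgroup.mem_subgroupOf.mpr hbT, fun h => hγT ?_⟩
      have h' : (b : A) * γ⁻¹ ∈ T := Subgroup.mem_subgroupOf.mp h
      have h'' := T.mul_mem (T.inv_mem hbT) h'
      rw [inv_mul_cancel_left] at h''
      exact inv_mem_iff.mp h''
    · left
      refine ⟨Subgroup.mem_subgroupOf.mpr ?_, fun h => hbT (Subgroup.mem_subgroupOf.mp h)⟩
      rcases hb with h | h
      · exact absurd h hbT
      · exact h
  have h3 := (T.subgroupOf S).card_mul_index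
  rw [h2, Nat.card_congr (Subgroup.subgroupOfEquivOfLe hTS).toEquiv] at h3
  omega

example : Cfsg.Agent.H46.OutG.StCnt2.{u} := cnt2

end Cfsg.Agent.H73.OutG
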