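import Cfsg.Agent.H46.OutGDefs
/-!
S2121 / S2122 team project (helper46), piece OG-FLIP: if `θ` and `γ` both map the root subgroup
of every `±α_i` onto that of `±α_{sig i}`, for an involution `sig`, then `θ * γ⁻¹` maps each of
these root subgroups onto itself.
-/
set_option autoImplicit false

namespace Cfsg.Agent.H73.OutG

open Cfsg.Lie Cfsg.Agent.H23 Cfsg.Agent.H23.Stb Cfsg.Agent.H46.OutE Cfsg.Agent.H46.OutG

universe u

/-- two automorphisms mapping `X_a` onto `X_b`: the quotient maps `X_b` onto itself -/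
theorem rootTo_mul_inv_of_rootTo {D : ChevalleyDatum} {F : Type u} [Field F] {z : ℕ → ℕ → ℤ}
    (hS : Sem D F z) (θ γ : MulAut ↥(D.group F)) (a b : ℕ)
    (hθ : RootTo hS θ a b) (hγ : RootTo hS γ a b) : RootTo hS (θ * γ⁻¹) b b := by
  constructor
  · intro t
    obtain ⟨s, hs⟩ := hγ.2 t
    obtain ⟨t', ht'⟩ := hθ.1 s
    refine ⟨t', ?_⟩
    rw [MulAut.mul_apply, ← hs, MulAut.inv_apply_self, ht']
  · intro t'
    obtain ⟨s, hs⟩ := hθ.2 t'
    obtain ⟨t, ht⟩ := hγ.1 s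
    refine ⟨t, ?_⟩
    rw [MulAut.mul_apply, ← ht, MulAut.inv_apply_self, hs]

/-- OG-FLIP -/
theorem flip : StFlip.{u} := by
  intro D F _ z hS θ γ sig hsig hinv hθ hγ i hi
  have hsi := hsig i hi
  have h1 := hθ (sig i) hsi
  have h2 := hγ (sig i) hsi
  rw [hinv i hi] at h1 h2
  exact ⟨rootTo_mul_inv_of_rootTo hS θ γ _ _ h1.1 h2.1,
    rootTo_mul_inv_of_rootTo hS θ γ _ _ h1.2 h2.2⟩

example : StFlip.{u} := flip

end Cfsg.Agent.H73.OutG
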