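import Cfsg.Agent.H46.OutGDefs
import Cfsg.Agent.H98.StbMatch
/-!
S2121 / S2122 team project (helper46), piece OG-NOTFIX: an automorphism mapping the root
subgroup of `α_i` onto that of `α_j`, `j ≠ i`, does not map it onto itself.
-/
set_option autoImplicit false

namespace Cfsg.Agent.H73.OutG

open Cfsg.Lie Cfsg.Agent.H23 Cfsg.Agent.H23.Stb Cfsg.Agent.H46.OutE Cfsg.Agent.H46.OutG

universe u

/-- OG-NOTFIX -/
theorem notFix : StNotFix.{u} := by
  intro D F _ z η rT w0 hC θ i j hi hj hij hc2 h1 h2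
  obtain ⟨t, ht⟩ := h2.2 1
  obtain ⟨a, ha⟩ := h1.1 t
  have h3 : xG hC.hP.sem (D.simple i) 1 = xG hC.hP.sem (D.simple j) a := by rw [← ht, ha]
  have h4 : xU hC.hP.sem (D.simple i) 1 = xU hC.hP.sem (D.simple j) a := congrArg Subtype.val h3
  have h5 := hc2 i hi j hj hij 1 a
  rw [← h4] at h5
  exact Cfsg.Agent.H98.Stb.not_comm_simple hC.hP hC.hV i hi h5

example : StNotFix.{u} := notFix

end Cfsg.Agent.H73.OutG
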