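import Mathlib
import Cfsg.Agent.H78.OdDefs

/-!
# S2608 (m = 4 half), piece OD-ABS (for helper78)

The structure of `A ⧸ I` from a decomposition `A = I · Dg · Φ(S₃) · Ψ(C)`:
`A ⧸ I ≃* S₄ × C_f`.
-/

set_option autoImplicit false

universe u

namespace Cfsg.Agent.H73.Od

open Cfsg.Agent.H78.Od

/-- piece OD-ABS -/
theorem abs (h : StS4.{u}) : StAbs.{u} := by
  intro A _ _ I _ C _ f Dg Φ Ψ hcyc hcard hf1 h1 hmul hinv hcomm hsq hfour hnorm hfaith hcent hΨΦ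
    hind hdec
  obtain ⟨a, ha, b, hb, haI, hbI, habI, hcls⟩ := hfour
  subst hcard
  -- the quotient map
  obtain ⟨π, hπdef⟩ : ∃ π : A →* A ⧸ I, π = QuotientGroup.mk' I := ⟨_, rfl⟩
  have hπ : ∀ x : A, π x = 1 ↔ x ∈ I := by
    intro x
    rw [hπdef]
    exact QuotientGroup.eq_one_iff x
  have hπsurj : Function.Surjective π := by
    rw [hπdef]
    exact QuotientGroup.mk'_surjective I
  have hπeq : ∀ x y : A, x * y⁻¹ ∈ I → π x = π y := by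
    intro x y hxy
    have h2 := (hπ _).mpr hxy
    rw [map_mul, map_inv, mul_inv_eq_one] at h2
    exact h2
  -- the subgroups
  obtain ⟨V, hVmem⟩ : ∃ V : Subgroup (A ⧸ I), ∀ x, x ∈ V ↔ ∃ d ∈ Dg, π d = x := by
    refine ⟨{ carrier := {x | ∃ d ∈ Dg, π d = x}, mul_mem' := ?_, one_mem' := ?_,
              inv_mem' := ?_ }, fun x => Iff.rfl⟩
    · rintro x y ⟨d, hd, rfl⟩ ⟨d', hd', rfl⟩
      exact ⟨d * d', hmul d hd d' hd', map_mul π d d'⟩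
    · exact ⟨1, h1, map_one π⟩
    · rintro x ⟨d, hd, rfl⟩
      exact ⟨d⁻¹, hinv d hd, map_inv π d⟩
  obtain ⟨S, hSmem⟩ : ∃ S : Subgroup (A ⧸ I), ∀ x, x ∈ S ↔ ∃ ρ, π (Φ ρ) = x :=
    ⟨(π.comp Φ).range, fun x => Iff.rfl⟩
  -- the four classes
  have habI' : a * b ∉ I := by
    intro hab
    apply habI
    have e1 : a * b⁻¹ = (a * b) * (b * b)⁻¹ := by group
    rw [e1]
    exact I.mul_mem hab (I.inv_mem (hsq b hb))
  have ha1 : π a ≠ 1 := fun h0 => haI ((hπ a).mp h0)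
  have hb1 : π b ≠ 1 := fun h0 => hbI ((hπ b).mp h0)
  have hab1 : π (a * b) ≠ 1 := fun h0 => habI' ((hπ _).mp h0)
  have hanb : π a ≠ π b := by
    intro h0
    apply habI
    apply (hπ _).mp
    rw [map_mul, map_inv, h0, mul_inv_cancel]
  have haab : π a ≠ π (a * b) := by
    intro h0
    apply hb1
    rw [map_mul] at h0
    exact mul_left_cancel (h0.symm.trans (mul_one _).symm)
  have hbab : π b ≠ π (a * b) := by
    intro h0
    apply ha1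
    rw [map_mul] at h0
    exact mul_right_cancel (h0.symm.trans (one_mul _).symm)
  have hVset : (V : Set (A ⧸ I)) = {1, π a, π b, π (a * b)} := by
    ext x
    simp only [SetLike.mem_coe, Set.mem_insert_iff, Set.mem_singleton_iff]
    rw [hVmem]
    constructor
    · rintro ⟨d, hd, rfl⟩
      rcases hcls d hd with h0 | h0 | h0 | h0
      · exact Or.inl ((hπ d).mpr h0)
      · exact Or.inr (Or.inl (hπeq d a h0))
      · exact Or.inr (Or.inr (Or.inl (hπeq d b h0)))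
      · exact Or.inr (Or.inr (Or.inr (hπeq d (a * b) h0)))
    · rintro (rfl | rfl | rfl | rfl)
      · exact ⟨1, h1, map_one π⟩
      · exact ⟨a, ha, rfl⟩
      · exact ⟨b, hb, rfl⟩
      · exact ⟨a * b, hmul a ha b hb, rfl⟩
  have hV4 : Nat.card ↥V = 4 := by
    rw [show Nat.card ↥V = (V : Set (A ⧸ I)).ncard from Nat.card_coe_set_eq (V : Set (A ⧸ I)),
      hVset]
    rw [Set.ncard_insert_of_notMem, Set.ncard_insert_of_notMem, Set.ncard_insert_of_notMem,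
      Set.ncard_singleton]
    · simp only [Set.mem_singleton_iff]
      exact hbab
    · simp only [Set.mem_insert_iff, Set.mem_singleton_iff, not_or]
      exact ⟨hanb, haab⟩
    · simp only [Set.mem_insert_iff, Set.mem_singleton_iff, not_or]
      exact ⟨fun h0 => ha1 h0.symm, fun h0 => hb1 h0.symm, fun h0 => hab1 h0.symm⟩
  -- `S ≅ S₃`
  have hΦinj : Function.Injective (π.comp Φ) := by
    rw [injective_iff_map_eq_one]
    intro ρ hρ
    have h2 : Φ ρ ∈ I := (hπ _).mp hρ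
    have h3 : (1 : A) * Φ ρ * Ψ 1 ∈ I := by
      rw [map_one, one_mul, mul_one]
      exact h2
    exact (hind 1 h1 ρ 1 h3).1
  have hS6 : Nat.card ↥S = 6 := by
    have e1 : Nat.card ↥S = Nat.card (Equiv.Perm (Fin 3)) := by
      apply Nat.card_congr
      refine (Equiv.ofBijective (fun ρ => (⟨π (Φ ρ), (hSmem _).mpr ⟨ρ, rfl⟩⟩ : ↥S)) ⟨?_, ?_⟩).symm
      · intro ρ ρ' h0
        exact hΦinj (congrArg Subtype.val h0)
      · rintro ⟨x, hx⟩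
        obtain ⟨ρ, rfl⟩ := (hSmem x).mp hx
        exact ⟨ρ, rfl⟩
    rw [e1, Nat.card_eq_fintype_card, Fintype.card_perm, Fintype.card_fin]
    rfl
  have hnormVS : ∀ s ∈ S, ∀ v ∈ V, s * v * s⁻¹ ∈ V := by
    intro s hs v hv
    obtain ⟨ρ, rfl⟩ := (hSmem s).mp hs
    obtain ⟨d, hd, rfl⟩ := (hVmem v).mp hv
    exact (hVmem _).mpr ⟨Φ ρ * d * (Φ ρ)⁻¹, hnorm ρ d hd, by rw [map_mul, map_mul, map_inv]⟩
  have hVS : V ⊓ S = ⊥ := by
    rw [Subgroup.eq_bot_iff_forall]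
    intro x hx
    obtain ⟨hxV, hxS⟩ := Subgroup.mem_inf.mp hx
    obtain ⟨d, hd, rfl⟩ := (hVmem x).mp hxV
    obtain ⟨ρ, hρ⟩ := (hSmem _).mp hxS
    have h2 : d⁻¹ * Φ ρ * Ψ 1 ∈ I := by
      apply (hπ _).mp
      rw [map_one, mul_one, map_mul, map_inv, hρ, inv_mul_cancel]
    have h3 := (hind d⁻¹ (hinv d hd) ρ 1 h2).1
    rw [← hρ, h3, map_one, map_one]
  have hfaithful : ∀ s ∈ S, (∀ v ∈ V, s * v = v * s) → s = 1 := by
    intro s hs hc
    obtain ⟨ρ, rfl⟩ := (hSmem s).mp hs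
    by_cases hρ1 : ρ = 1
    · rw [hρ1, map_one, map_one]
    · exfalso
      obtain ⟨d, hd, hdI⟩ := hfaith ρ hρ1
      apply hdI
      apply (hπ _).mp
      have h2 := hc (π d) ((hVmem _).mpr ⟨d, hd, rfl⟩)
      rw [map_mul, map_mul, map_mul, map_inv, map_inv, h2]
      group
  obtain ⟨e⟩ := h (A ⧸ I) V S hV4 hS6 hnormVS hVS hfaithful
  -- elements of `V ⊔ S`
  have hT : ∀ x ∈ V ⊔ S, ∃ d ∈ Dg, ∃ ρ, x = π (d * Φ ρ) := by
    obtain ⟨T, hTmem⟩ : ∃ T : Subgroup (A ⧸ I), ∀ x, x ∈ T ↔ ∃ d ∈ Dg, ∃ ρ, x = π (d * Φ ρ) := by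
      refine ⟨{ carrier := {x | ∃ d ∈ Dg, ∃ ρ, x = π (d * Φ ρ)}, mul_mem' := ?_, one_mem' := ?_,
                inv_mem' := ?_ }, fun x => Iff.rfl⟩
      · rintro x y ⟨d, hd, ρ, rfl⟩ ⟨d', hd', ρ', rfl⟩
        refine ⟨d * (Φ ρ * d' * (Φ ρ)⁻¹), hmul d hd _ (hnorm ρ d' hd'), ρ * ρ', ?_⟩
        rw [← map_mul]
        congr 1
        rw [map_mul]
        group
      · exact ⟨1, h1, 1, by rw [map_one, mul_one, map_one]⟩
      · rintro x ⟨d, hd, ρ, rfl⟩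
        refine ⟨Φ ρ⁻¹ * d⁻¹ * (Φ ρ⁻¹)⁻¹, hnorm ρ⁻¹ d⁻¹ (hinv d hd), ρ⁻¹, ?_⟩
        rw [← map_inv]
        congr 1
        rw [map_inv]
        group
    have hVT : V ≤ T := by
      intro x hx
      obtain ⟨d, hd, rfl⟩ := (hVmem x).mp hx
      exact (hTmem _).mpr ⟨d, hd, 1, by rw [map_one, mul_one]⟩
    have hST : S ≤ T := by
      intro x hx
      obtain ⟨ρ, rfl⟩ := (hSmem x).mp hx
      exact (hTmem _).mpr ⟨1, h1, ρ, by rw [one_mul]⟩
    intro x hx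
    exact (hTmem x).mp (sup_le hVT hST hx)
  -- the image of `Ψ` is central
  have hCcomm : ∀ σ σ' : C, σ * σ' = σ' * σ := fun σ σ' =>
    (@IsCyclic.commGroup C _ hcyc).mul_comm σ σ'
  have hcentral : ∀ (q : A ⧸ I) (σ : C), q * π (Ψ σ) = π (Ψ σ) * q := by
    intro q σ
    obtain ⟨θ, rfl⟩ := hπsurj q
    obtain ⟨i, hi, d, hd, ρ, σ', rfl⟩ := hdec θ
    have e1 : π (Ψ σ) * π d = π d * π (Ψ σ) := by
      have h2 := (hπ _).mpr (hcent σ d hd)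
      rw [map_mul, map_mul, map_mul, map_inv, map_inv] at h2
      calc π (Ψ σ) * π d = (π (Ψ σ) * π d * (π (Ψ σ))⁻¹ * (π d)⁻¹) * (π d * π (Ψ σ)) := by group
        _ = π d * π (Ψ σ) := by rw [h2, one_mul]
    have e2 : π (Ψ σ) * π (Φ ρ) = π (Φ ρ) * π (Ψ σ) := by
      rw [← map_mul, ← map_mul, hΨΦ σ ρ]
    have e3 : π (Ψ σ) * π (Ψ σ') = π (Ψ σ') * π (Ψ σ) := by
      rw [← map_mul, ← map_mul, ← map_mul, ← map_mul, hCcomm σ σ']
    have e4 : π i = 1 := (hπ i).mpr hi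
    rw [map_mul, map_mul, map_mul, e4, one_mul]
    calc π d * π (Φ ρ) * π (Ψ σ') * π (Ψ σ)
        = π d * π (Φ ρ) * (π (Ψ σ) * π (Ψ σ')) := by rw [e3]; group
      _ = π d * (π (Φ ρ) * π (Ψ σ)) * π (Ψ σ') := by group
      _ = π d * (π (Ψ σ) * π (Φ ρ)) * π (Ψ σ') := by rw [e2]
      _ = (π d * π (Ψ σ)) * π (Φ ρ) * π (Ψ σ') := by group
      _ = (π (Ψ σ) * π d) * π (Φ ρ) * π (Ψ σ') := by rw [e1]
      _ = π (Ψ σ) * (π d * π (Φ ρ) * π (Ψ σ')) := by group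
  -- the product map
  obtain ⟨μ, hμ⟩ : ∃ μ : ↥(V ⊔ S) × C →* A ⧸ I, ∀ x σ, μ (x, σ) = (x : A ⧸ I) * π (Ψ σ) :=
    ⟨MonoidHom.noncommCoprod (V ⊔ S).subtype (π.comp Ψ) (fun m n => hcentral _ n),
      fun x σ => rfl⟩
  have hμinj : Function.Injective μ := by
    rw [injective_iff_map_eq_one]
    rintro ⟨x, σ⟩ hx
    rw [hμ] at hx
    obtain ⟨d, hd, ρ, hxd⟩ := hT x.1 x.2
    have h2 : d * Φ ρ * Ψ σ ∈ I := by
      apply (hπ _).mp
      rw [map_mul, ← hxd]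
      exact hx
    obtain ⟨_, hσ1⟩ := hind d hd ρ σ h2
    rw [hσ1, map_one, map_one, mul_one] at hx
    have hx1 : x = 1 := Subtype.ext hx
    rw [hx1, hσ1]
    rfl
  have hμsurj : Function.Surjective μ := by
    intro q
    obtain ⟨θ, rfl⟩ := hπsurj q
    obtain ⟨i, hi, d, hd, ρ, σ, rfl⟩ := hdec θ
    have hmem : π d * π (Φ ρ) ∈ V ⊔ S :=
      Subgroup.mul_mem _ (Subgroup.mem_sup_left ((hVmem _).mpr ⟨d, hd, rfl⟩))
        (Subgroup.mem_sup_right ((hSmem _).mpr ⟨ρ, rfl⟩))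
    refine ⟨(⟨π d * π (Φ ρ), hmem⟩, σ), ?_⟩
    rw [hμ, map_mul, map_mul, map_mul, (hπ i).mpr hi, one_mul]
  exact ⟨(MulEquiv.ofBijective μ ⟨hμinj, hμsurj⟩).symm.trans
    (MulEquiv.prodCongr e (zmodCyclicMulEquiv hcyc).symm)⟩

example (h : Cfsg.Agent.H78.Od.StS4.{u}) : Cfsg.Agent.H78.Od.StAbs.{u} := abs h

end Cfsg.Agent.H73.Od

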