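import Cfsg.Agent.H73.OrdTools

/-!
# S4274-D (helper73, for helper26): no simple group of order `15960 = 2³·3·5·7·19`.
-/

set_option autoImplicit false

namespace Cfsg.Agent.H73.Ord175560

open Subgroup Cfsg.Agent.H21 Cfsg.Agent.H73.OrdTools

theorem cand15960_19 : ∀ n ∈ Nat.divisors 840, ∀ d ∈ Nat.divisors 18, n % 19 = 1 → 19 ≤ n →
    d ≠ 1 → 19 * d * n ∣ 15960 →
    (n = 20 ∧ (d = 2 ∨ d = 3 ∨ d = 6)) ∨ (n = 210 ∧ d = 2) := by decide +kernel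

theorem cand15960_7 : ∀ n ∈ Nat.divisors 2280, ∀ d ∈ Nat.divisors 6, n % 7 = 1 → 19 ≤ n →
    d ≠ 1 → 7 * d * n ∣ 15960 →
    (n = 57 ∧ d = 2) ∨ (n = 190 ∧ (d = 2 ∨ d = 3 ∨ d = 6)) := by decide +kernel

theorem cand15960_5 : ∀ n ∈ Nat.divisors 3192, ∀ d ∈ Nat.divisors 4, n % 5 = 1 → 19 ≤ n →
    d ≠ 1 → 5 * d * n ∣ 15960 →
    (n = 21 ∧ (d = 2 ∨ d = 4)) ∨ (n = 76 ∧ d = 2) ∨ (n = 266 ∧ (d = 2 ∨ d = 4)) ∨
      (n = 1596 ∧ d = 2) := by decide +kernel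

theorem cand15960_3 : ∀ n ∈ Nat.divisors 5320, ∀ d ∈ Nat.divisors 2, n % 3 = 1 → 19 ≤ n →
    d ≠ 1 → 3 * d * n ∣ 15960 →
    d = 2 ∧ (n = 19 ∨ n = 28 ∨ n = 70 ∨ n = 76 ∨ n = 133 ∨ n = 190 ∨ n = 532 ∨ n = 1330) := by
  decide +kernel

theorem no_simple_15960 {G : Type*} [Group G] [Finite G] [IsSimpleGroup G]
    (h : Nat.card G = 15960) : False := by
  classical
  have hnp : ¬ (Nat.card G).Prime := by rw [h]; norm_num
  have hG : ¬ IsMulCommutative G := not_comm_of_not_prime hnp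
  have : Fact (Nat.Prime 19) := ⟨by norm_num⟩
  have : Fact (Nat.Prime 7) := ⟨by norm_num⟩
  have : Fact (Nat.Prime 5) := ⟨by norm_num⟩
  have : Fact (Nat.Prime 3) := ⟨by norm_num⟩
  have : Fact (Nat.Prime 2) := ⟨by norm_num⟩
  have h19p : Nat.Prime 19 := by norm_num
  obtain ⟨P19⟩ : Nonempty (Sylow 19 G) := inferInstance
  obtain ⟨P7⟩ : Nonempty (Sylow 7 G) := inferInstance
  obtain ⟨P5⟩ : Nonempty (Sylow 5 G) := inferInstance
  obtain ⟨P3⟩ : Nonempty (Sylow 3 G) := inferInstance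
  obtain ⟨hc19, n19, d19, cN19, cC19, hn19, hcN19, hcC19, hnm19, hdm19, hmod19, hle19, hd19,
    hdiv19, hN19, hC19⟩ := pack hG 15960 h 19 840 19 (by norm_num) (by norm_num) h19p
      (by norm_num) P19
  obtain ⟨hc7, n7, d7, cN7, cC7, hn7, hcN7, hcC7, hnm7, hdm7, hmod7, hle7, hd7,
    hdiv7, hN7, hC7⟩ := pack hG 15960 h 7 2280 19 (by norm_num) (by norm_num) h19p
      (by norm_num) P7
  obtain ⟨hc5, n5, d5, cN5, cC5, hn5, hcN5, hcC5, hnm5, hdm5, hmod5, hle5, hd5,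
    hdiv5, hN5, hC5⟩ := pack hG 15960 h 5 3192 19 (by norm_num) (by norm_num) h19p
      (by norm_num) P5
  obtain ⟨hc3, n3, d3, cN3, cC3, hn3, hcN3, hcC3, hnm3, hdm3, hmod3, hle3, hd3,
    hdiv3, hN3, hC3⟩ := pack hG 15960 h 3 5320 19 (by norm_num) (by norm_num) h19p
      (by norm_num) P3
  have k19 := cand15960_19 n19 hnm19 d19 hdm19 hmod19 hle19 hd19 hdiv19
  have k7 := cand15960_7 n7 hnm7 d7 hdm7 hmod7 hle7 hd7 hdiv7
  have k5 := cand15960_5 n5 hnm5 d5 hdm5 hmod5 hle5 hd5 hdiv5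
  have k3 := cand15960_3 n3 hnm3 d3 hdm3 hmod3 hle3 hd3 hdiv3
  clear hnm19 hdm19 hmod19 hle19 hd19 hdiv19 hnm7 hdm7 hmod7 hle7 hd7 hdiv7
  clear hnm5 hdm5 hmod5 hle5 hd5 hdiv5 hnm3 hdm3 hmod3 hle3 hd3 hdiv3
  -- F3 instances, in numerical form
  have f3_19_7 : 7 ∣ cC19 → 19 ∣ cN7 := by
    intro hh; rw [hcN7]; exact f3 19 7 P19 hc19 P7 hc7 (by rw [← hcC19]; exact hh)
  have f3_5_19 : 19 ∣ cC5 → 5 ∣ cN19 := by
    intro hh; rw [hcN19]; exact f3 5 19 P5 hc5 P19 hc19 (by rw [← hcC5]; exact hh)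
  have f3_7_5 : 5 ∣ cC7 → 7 ∣ cN5 := by
    intro hh; rw [hcN5]; exact f3 7 5 P7 hc7 P5 hc5 (by rw [← hcC7]; exact hh)
  have f3_3_5 : 5 ∣ cC3 → 3 ∣ cN5 := by
    intro hh; rw [hcN5]; exact f3 3 5 P3 hc3 P5 hc5 (by rw [← hcC3]; exact hh)
  have f3_3_19 : 19 ∣ cC3 → 3 ∣ cN19 := by
    intro hh; rw [hcN19]; exact f3 3 19 P3 hc3 P19 hc19 (by rw [← hcC3]; exact hh)
  -- F4 instances
  have f4_5_7 : cC5 = 105 → cN5 ∣ cN7 := by
    intro hh
    rw [hcN5, hcN7]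
    refine (f4 5 7 (by norm_num) P5 hc5 P7 hc7 (by rw [← hcC5, hh]; norm_num) ?_).1
    rw [← hcC5, hh]
    intro d hd hm
    exact (by decide : ∀ d ∈ Nat.divisors 3, d % 7 = 1 → d = 1) d
      (Nat.mem_divisors.2 ⟨hd, by norm_num⟩) hm
  have f4_5_3 : (cC5 = 30 ∨ cC5 = 15) → cN5 ∣ cN3 ∧ cN3 / cN5 % 5 = 1 := by
    intro hh
    rw [hcN5, hcN3]
    refine f4 5 3 (by norm_num) P5 hc5 P3 hc3 (by rw [← hcC5]; rcases hh with hh | hh <;> rw [hh] <;> norm_num) ?_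
    rw [← hcC5]
    intro d hd hm
    rcases hh with hh | hh
    · rw [hh] at hd
      exact (by decide : ∀ d ∈ Nat.divisors 2, d % 3 = 1 → d = 1) d
        (Nat.mem_divisors.2 ⟨hd, by norm_num⟩) hm
    · rw [hh] at hd
      exact (by decide : ∀ d ∈ Nat.divisors 1, d % 3 = 1 → d = 1) d
        (Nat.mem_divisors.2 ⟨hd, by norm_num⟩) hm
  -- (1) n₁₉ = 210
  have s19 : n19 = 210 ∧ cN19 = 76 ∧ cC19 = 38 := by
    rcases k19 with ⟨rfl, hd⟩ | ⟨rfl, rfl⟩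
    · exfalso
      have h7 : 7 ∣ cC19 := by rcases hd with rfl | rfl | rfl <;> omega
      have h19 := f3_19_7 h7
      rcases k7 with ⟨rfl, rfl⟩ | ⟨rfl, hd'⟩ <;> omega
    · refine ⟨rfl, ?_, ?_⟩ <;> omega
  obtain ⟨rfl, rfl, rfl⟩ := s19
  -- (2) n₅ = 1596
  have s5 : n5 = 1596 ∧ cN5 = 10 ∧ cC5 = 5 := by
    rcases k5 with ⟨rfl, hd⟩ | ⟨rfl, rfl⟩ | ⟨rfl, hd⟩ | ⟨rfl, rfl⟩
    · exfalso
      have h19 : 19 ∣ cC5 := by rcases hd with rfl | rfl <;> omega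
      have := f3_5_19 h19
      omega
    · exfalso
      have hc : cC5 = 105 := by omega
      have hdv := f4_5_7 hc
      have hcN5 : cN5 = 210 := by omega
      rw [hcN5] at hdv
      rcases k7 with ⟨rfl, rfl⟩ | ⟨rfl, hd'⟩ <;> omega
    · exfalso
      have hc : cC5 = 30 ∨ cC5 = 15 := by rcases hd with rfl | rfl <;> omega
      obtain ⟨hdv, hmd⟩ := f4_5_3 hc
      have hcN5 : cN5 = 60 := by omega
      rw [hcN5] at hdv hmd
      obtain ⟨-, hn⟩ := k3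
      rcases hn with rfl | rfl | rfl | rfl | rfl | rfl | rfl | rfl <;> omega
    · refine ⟨rfl, ?_, ?_⟩ <;> omega
  obtain ⟨rfl, rfl, rfl⟩ := s5
  -- (3) n₇ = 190
  have s7 : n7 = 190 ∧ cN7 = 84 := by
    rcases k7 with ⟨rfl, rfl⟩ | ⟨rfl, hd'⟩
    · exfalso
      have h5 : 5 ∣ cC7 := by omega
      have := f3_7_5 h5
      omega
    · refine ⟨rfl, ?_⟩; omega
  obtain ⟨rfl, rfl⟩ := s7
  -- counting
  have c19 : Nat.card {g : G // orderOf g = 19} = 210 * (19 - 1) := by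
    rw [hn19]; exact card_orderOf_eq_prime 19 P19 hc19
  have c38 : 210 * (19 - 1) * (2 - 1) ≤ Nat.card {g : G // orderOf g = 38} := by
    rw [hn19]
    exact card_orderOf_mul_ge 19 2 (by norm_num) P19 hc19 (by rw [← hcC19]; norm_num)
  have c5 : Nat.card {g : G // orderOf g = 5} = 1596 * (5 - 1) := by
    rw [hn5]; exact card_orderOf_eq_prime 5 P5 hc5
  have c7 : Nat.card {g : G // orderOf g = 7} = 190 * (7 - 1) := by
    rw [hn7]; exact card_orderOf_eq_prime 7 P7 hc7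
  have c3 : Nat.card {g : G // orderOf g = 3} = n3 * (3 - 1) := by
    rw [hn3]; exact card_orderOf_eq_prime 3 P3 hc3
  have c21 : 7 ∣ cC3 → n3 * (3 - 1) * (7 - 1) ≤ Nat.card {g : G // orderOf g = 21} := by
    intro hh
    rw [hn3]
    exact card_orderOf_mul_ge 3 7 (by norm_num) P3 hc3 (by rw [← hcC3]; exact hh)
  have hsum := list_sum_card_orderOf_le (G := G) [19, 38, 5, 7, 3, 21] (by decide)
  simp only [List.map_cons, List.map_nil, List.sum_cons, List.sum_nil] at hsum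
  rw [h, c19, c5, c7, c3] at hsum
  -- (4) n₃
  obtain ⟨rfl, hn⟩ := k3
  have h5n : ¬ 5 ∣ cC3 := by
    intro hh
    have := f3_3_5 hh
    omega
  have h19n : ¬ 19 ∣ cC3 := by
    intro hh
    have := f3_3_19 hh
    omega
  rcases hn with rfl | rfl | rfl | rfl | rfl | rfl | rfl | rfl
  · omega
  · omega
  · omega
  · omega
  · omega
  · have := c21 (by omega)
    omega
  · omega
  · omega

example {G : Type*} [Group G] [Finite G] [IsSimpleGroup G] (h : Nat.card G = 15960) : False :=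
  no_simple_15960 h

end Cfsg.Agent.H73.Ord175560

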