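import Cfsg.Agent.H73.OrdTools

/-!
# S4274-H (helper73, for helper26): no simple group of order `87780 = 2²·3·5·7·11·19`.
-/

set_option autoImplicit false

namespace Cfsg.Agent.H73.Ord175560

open Subgroup Cfsg.Agent.H21 Cfsg.Agent.H73.OrdTools

set_option synthInstance.maxSize 2048 in
theorem cand87780_19 : ∀ n ∈ Nat.divisors 4620, ∀ d ∈ Nat.divisors 18, n % 19 = 1 → 19 ≤ n →
    d ≠ 1 → 19 * d * n ∣ 87780 →
    (n = 20 ∧ d = 3) ∨ (n = 77 ∧ (d = 2 ∨ d = 3 ∨ d = 6)) ∨ (n = 210 ∧ d = 2) ∨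
      (n = 1540 ∧ d = 3) := by decide +kernel

set_option synthInstance.maxSize 2048 in
theorem cand87780_11 : ∀ n ∈ Nat.divisors 7980, ∀ d ∈ Nat.divisors 10, n % 11 = 1 → 19 ≤ n →
    d ≠ 1 → 11 * d * n ∣ 87780 →
    (n = 133 ∧ (d = 2 ∨ d = 5 ∨ d = 10)) ∨ (n = 210 ∧ d = 2) ∨ (n = 1596 ∧ d = 5) := by
  decide +kernel

set_option synthInstance.maxSize 2048 in
theorem cand87780_7 : ∀ n ∈ Nat.divisors 12540, ∀ d ∈ Nat.divisors 6, n % 7 = 1 → 19 ≤ n →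
    d ≠ 1 → 7 * d * n ∣ 87780 →
    (n = 22 ∧ (d = 2 ∨ d = 3 ∨ d = 6)) ∨ (n = 57 ∧ d = 2) ∨
      (n = 190 ∧ (d = 2 ∨ d = 3 ∨ d = 6)) ∨ (n = 330 ∧ d = 2) ∨ (n = 1254 ∧ d = 2) ∨
      (n = 4180 ∧ d = 3) := by decide +kernel

set_option synthInstance.maxSize 2048 in
theorem cand87780_5 : ∀ n ∈ Nat.divisors 17556, ∀ d ∈ Nat.divisors 4, n % 5 = 1 → 19 ≤ n →
    d ≠ 1 → 5 * d * n ∣ 87780 →
    (n = 21 ∧ (d = 2 ∨ d = 4)) ∨ (n = 66 ∧ d = 2) ∨ (n = 231 ∧ (d = 2 ∨ d = 4)) ∨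
      (n = 266 ∧ d = 2) ∨ (n = 2926 ∧ d = 2) := by decide +kernel

set_option maxHeartbeats 1600000 in
theorem no_simple_87780 {G : Type*} [Group G] [Finite G] [IsSimpleGroup G]
    (h : Nat.card G = 87780) : False := by
  classical
  have hnp : ¬ (Nat.card G).Prime := by rw [h]; norm_num
  have hG : ¬ IsMulCommutative G := not_comm_of_not_prime hnp
  have : Fact (Nat.Prime 19) := ⟨by norm_num⟩
  have : Fact (Nat.Prime 11) := ⟨by norm_num⟩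
  have : Fact (Nat.Prime 7) := ⟨by norm_num⟩
  have : Fact (Nat.Prime 5) := ⟨by norm_num⟩
  have : Fact (Nat.Prime 3) := ⟨by norm_num⟩
  have h19p : Nat.Prime 19 := by norm_num
  obtain ⟨P19⟩ : Nonempty (Sylow 19 G) := inferInstance
  obtain ⟨P11⟩ : Nonempty (Sylow 11 G) := inferInstance
  obtain ⟨P7⟩ : Nonempty (Sylow 7 G) := inferInstance
  obtain ⟨P5⟩ : Nonempty (Sylow 5 G) := inferInstance
  obtain ⟨hc19, n19, d19, cN19, cC19, hn19, hcN19, hcC19, hnm19, hdm19, hmod19, hle19, hd19,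
    hdiv19, hN19, hC19⟩ := pack hG 87780 h 19 4620 19 (by norm_num) (by norm_num) h19p
      (by norm_num) P19
  obtain ⟨hc11, n11, d11, cN11, cC11, hn11, hcN11, hcC11, hnm11, hdm11, hmod11, hle11, hd11,
    hdiv11, hN11, hC11⟩ := pack hG 87780 h 11 7980 19 (by norm_num) (by norm_num) h19p
      (by norm_num) P11
  obtain ⟨hc7, n7, d7, cN7, cC7, hn7, hcN7, hcC7, hnm7, hdm7, hmod7, hle7, hd7,
    hdiv7, hN7, hC7⟩ := pack hG 87780 h 7 12540 19 (by norm_num) (by norm_num) h19p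
      (by norm_num) P7
  obtain ⟨hc5, n5, d5, cN5, cC5, hn5, hcN5, hcC5, hnm5, hdm5, hmod5, hle5, hd5,
    hdiv5, hN5, hC5⟩ := pack hG 87780 h 5 17556 19 (by norm_num) (by norm_num) h19p
      (by norm_num) P5
  have k19 := cand87780_19 n19 hnm19 d19 hdm19 hmod19 hle19 hd19 hdiv19
  have k11 := cand87780_11 n11 hnm11 d11 hdm11 hmod11 hle11 hd11 hdiv11
  have k7 := cand87780_7 n7 hnm7 d7 hdm7 hmod7 hle7 hd7 hdiv7
  have k5 := cand87780_5 n5 hnm5 d5 hdm5 hmod5 hle5 hd5 hdiv5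
  clear hnm19 hdm19 hmod19 hle19 hd19 hdiv19 hnm7 hdm7 hmod7 hle7 hd7 hdiv7
  clear hnm5 hdm5 hmod5 hle5 hd5 hdiv5 hnm11 hdm11 hmod11 hle11 hd11 hdiv11
  -- tables
  have t19 : (n19 = 20 ∧ cN19 = 4389 ∧ cC19 = 1463) ∨
      (n19 = 77 ∧ cN19 = 1140 ∧ (cC19 = 570 ∨ cC19 = 380 ∨ cC19 = 190)) ∨
      (n19 = 210 ∧ cN19 = 418 ∧ cC19 = 209) ∨ (n19 = 1540 ∧ cN19 = 57 ∧ cC19 = 19) := by
    rcases k19 with ⟨rfl, rfl⟩ | ⟨rfl, hd⟩ | ⟨rfl, rfl⟩ | ⟨rfl, rfl⟩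
    · exact Or.inl ⟨rfl, by omega, by omega⟩
    · refine Or.inr (Or.inl ⟨rfl, by omega, ?_⟩)
      rcases hd with rfl | rfl | rfl <;> omega
    · exact Or.inr (Or.inr (Or.inl ⟨rfl, by omega, by omega⟩))
    · exact Or.inr (Or.inr (Or.inr ⟨rfl, by omega, by omega⟩))
  have t11 : cN11 = 660 ∨ cN11 = 418 ∨ cN11 = 55 := by
    rcases k11 with ⟨rfl, -⟩ | ⟨rfl, -⟩ | ⟨rfl, -⟩ <;> omega
  have t5 : (n5 = 21 ∧ cN5 = 4180 ∧ (cC5 = 2090 ∨ cC5 = 1045)) ∨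
      (n5 = 66 ∧ cN5 = 1330 ∧ cC5 = 665) ∨
      (n5 = 231 ∧ cN5 = 380 ∧ (cC5 = 190 ∨ cC5 = 95)) ∨
      (n5 = 266 ∧ cN5 = 330 ∧ cC5 = 165) ∨ (n5 = 2926 ∧ cN5 = 30 ∧ cC5 = 15) := by
    rcases k5 with ⟨rfl, hd⟩ | ⟨rfl, rfl⟩ | ⟨rfl, hd⟩ | ⟨rfl, rfl⟩ | ⟨rfl, rfl⟩
    · refine Or.inl ⟨rfl, by omega, ?_⟩
      rcases hd with rfl | rfl <;> omega
    · exact Or.inr (Or.inl ⟨rfl, by omega, by omega⟩)
    · refine Or.inr (Or.inr (Or.inl ⟨rfl, by omega, ?_⟩))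
      rcases hd with rfl | rfl <;> omega
    · exact Or.inr (Or.inr (Or.inr (Or.inl ⟨rfl, by omega, by omega⟩)))
    · exact Or.inr (Or.inr (Or.inr (Or.inr ⟨rfl, by omega, by omega⟩)))
  have t7 : (n7 = 22 ∧ cN7 = 3990 ∧ (cC7 = 1995 ∨ cC7 = 1330 ∨ cC7 = 665)) ∨
      (n7 = 57 ∧ cN7 = 1540 ∧ cC7 = 770) ∨
      (n7 = 190 ∧ cN7 = 462 ∧ (cC7 = 231 ∨ cC7 = 154 ∨ cC7 = 77)) ∨
      (n7 = 330 ∧ cN7 = 266 ∧ cC7 = 133) ∨ (n7 = 1254 ∧ cN7 = 70 ∧ cC7 = 35) ∨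
      (n7 = 4180 ∧ cN7 = 21 ∧ cC7 = 7) := by
    rcases k7 with ⟨rfl, hd⟩ | ⟨rfl, rfl⟩ | ⟨rfl, hd⟩ | ⟨rfl, rfl⟩ | ⟨rfl, rfl⟩ | ⟨rfl, rfl⟩
    · refine Or.inl ⟨rfl, by omega, ?_⟩
      rcases hd with rfl | rfl | rfl <;> omega
    · exact Or.inr (Or.inl ⟨rfl, by omega, by omega⟩)
    · refine Or.inr (Or.inr (Or.inl ⟨rfl, by omega, ?_⟩))
      rcases hd with rfl | rfl | rfl <;> omega
    · exact Or.inr (Or.inr (Or.inr (Or.inl ⟨rfl, by omega, by omega⟩)))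
    · exact Or.inr (Or.inr (Or.inr (Or.inr (Or.inl ⟨rfl, by omega, by omega⟩))))
    · exact Or.inr (Or.inr (Or.inr (Or.inr (Or.inr ⟨rfl, by omega, by omega⟩))))
  clear k19 k11 k7 k5 hN19 hC19 hN11 hC11 hN7 hC7 hN5 hC5
  -- F3 instances, in numerical form
  have f3_7_19 : ∀ c : ℕ, c = cC7 → 19 ∣ c → 7 ∣ cN19 := by
    intro c hc hh; subst hc; rw [hcN19]; exact f3 7 19 P7 hc7 P19 hc19 (by rw [← hcC7]; exact hh)
  have f3_7_11 : ∀ c : ℕ, c = cC7 → 11 ∣ c → 7 ∣ cN11 := by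
    intro c hc hh; subst hc; rw [hcN11]; exact f3 7 11 P7 hc7 P11 hc11 (by rw [← hcC7]; exact hh)
  have f3_7_5 : ∀ c : ℕ, c = cC7 → 5 ∣ c → 7 ∣ cN5 := by
    intro c hc hh; subst hc; rw [hcN5]; exact f3 7 5 P7 hc7 P5 hc5 (by rw [← hcC7]; exact hh)
  have f3_5_7 : ∀ c : ℕ, c = cC5 → 7 ∣ c → 5 ∣ cN7 := by
    intro c hc hh; subst hc; rw [hcN7]; exact f3 5 7 P5 hc5 P7 hc7 (by rw [← hcC5]; exact hh)
  have f3_19_7 : ∀ c : ℕ, c = cC19 → 7 ∣ c → 19 ∣ cN7 := by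
    intro c hc hh; subst hc; rw [hcN7]; exact f3 19 7 P19 hc19 P7 hc7 (by rw [← hcC19]; exact hh)
  have f3_19_5 : ∀ c : ℕ, c = cC19 → 5 ∣ c → 19 ∣ cN5 := by
    intro c hc hh; subst hc; rw [hcN5]; exact f3 19 5 P19 hc19 P5 hc5 (by rw [← hcC19]; exact hh)
  -- F4 instances
  have f4_19_7 : ∀ c : ℕ, c = cC19 → c = 1463 → cN19 ∣ cN7 := by
    intro c hc hh; subst hc
    rw [hcN19, hcN7]
    refine (f4 19 7 (by norm_num) P19 hc19 P7 hc7 (by rw [← hcC19, hh]; norm_num) ?_).1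
    rw [← hcC19, hh]
    intro d hd hm
    exact (by decide : ∀ d ∈ Nat.divisors 11, d % 7 = 1 → d = 1) d
      (Nat.mem_divisors.2 ⟨hd, by norm_num⟩) hm
  have f4_5_7 : ∀ c : ℕ, c = cC5 → c = 665 → cN5 ∣ cN7 := by
    intro c hc hh; subst hc
    rw [hcN5, hcN7]
    refine (f4 5 7 (by norm_num) P5 hc5 P7 hc7 (by rw [← hcC5, hh]; norm_num) ?_).1
    rw [← hcC5, hh]
    intro d hd hm
    exact (by decide : ∀ d ∈ Nat.divisors 19, d % 7 = 1 → d = 1) d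
      (Nat.mem_divisors.2 ⟨hd, by norm_num⟩) hm
  have f4_5_11 : ∀ c : ℕ, c = cC5 → (c = 2090 ∨ c = 1045 ∨ c = 165) →
      cN5 ∣ cN11 ∧ cN11 / cN5 % 5 = 1 := by
    intro c hc hh; subst hc
    rw [hcN5, hcN11]
    refine f4 5 11 (by norm_num) P5 hc5 P11 hc11
      (by rw [← hcC5]; rcases hh with hh | hh | hh <;> rw [hh] <;> norm_num) ?_
    rw [← hcC5]
    intro d hd hm
    rcases hh with hh | hh | hh
    · rw [hh] at hd
      exact (by decide : ∀ d ∈ Nat.divisors 38, d % 11 = 1 → d = 1) d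
        (Nat.mem_divisors.2 ⟨hd, by norm_num⟩) hm
    · rw [hh] at hd
      exact (by decide : ∀ d ∈ Nat.divisors 19, d % 11 = 1 → d = 1) d
        (Nat.mem_divisors.2 ⟨hd, by norm_num⟩) hm
    · rw [hh] at hd
      exact (by decide : ∀ d ∈ Nat.divisors 3, d % 11 = 1 → d = 1) d
        (Nat.mem_divisors.2 ⟨hd, by norm_num⟩) hm
  have f4_5_19 : ∀ c : ℕ, c = cC5 → (c = 190 ∨ c = 95) → cN5 ∣ cN19 ∧ cN19 / cN5 % 5 = 1 := by
    intro c hc hh; subst hc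
    rw [hcN5, hcN19]
    refine f4 5 19 (by norm_num) P5 hc5 P19 hc19
      (by rw [← hcC5]; rcases hh with hh | hh <;> rw [hh] <;> norm_num) ?_
    rw [← hcC5]
    intro d hd hm
    rcases hh with hh | hh
    · rw [hh] at hd
      exact (by decide : ∀ d ∈ Nat.divisors 2, d % 19 = 1 → d = 1) d
        (Nat.mem_divisors.2 ⟨hd, by norm_num⟩) hm
    · rw [hh] at hd
      exact (by decide : ∀ d ∈ Nat.divisors 1, d % 19 = 1 → d = 1) d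
        (Nat.mem_divisors.2 ⟨hd, by norm_num⟩) hm
  -- (1) n₇ = 4180
  have hpos7 : 0 < cN7 := by
    clear t19 t11 t5
    rcases t7 with ⟨-, h1, -⟩ | ⟨-, h1, -⟩ | ⟨-, h1, -⟩ | ⟨-, h1, -⟩ | ⟨-, h1, -⟩ | ⟨-, h1, -⟩ <;>
      omega
  have hle7 : cN7 ≤ 3990 := by
    clear t19 t11 t5
    rcases t7 with ⟨-, h1, -⟩ | ⟨-, h1, -⟩ | ⟨-, h1, -⟩ | ⟨-, h1, -⟩ | ⟨-, h1, -⟩ | ⟨-, h1, -⟩ <;>
      omega
  have a1 : ¬ 19 ∣ cC7 := by
    intro hh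
    have h7 := f3_7_19 _ rfl hh
    have hc : cC19 = 1463 ∧ cN19 = 4389 := by
      clear t11 t5 t7
      rcases t19 with ⟨-, h1, h2⟩ | ⟨-, h1, h2⟩ | ⟨-, h1, h2⟩ | ⟨-, h1, h2⟩ <;> omega
    have hdv := f4_19_7 _ rfl hc.1
    rw [hc.2] at hdv
    clear t19 t11 t5 t7
    omega
  have a2 : ¬ 11 ∣ cC7 := by
    intro hh
    have h7 := f3_7_11 _ rfl hh
    clear t19 t5 t7
    omega
  have a3 : ∀ c : ℕ, c = cC7 → 5 ∣ c → 1330 ≤ cN7 := by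
    intro c hc hh; subst hc
    have h7 := f3_7_5 _ rfl hh
    have hc : cC5 = 665 ∧ cN5 = 1330 := by
      clear t19 t11 t7
      rcases t5 with ⟨-, h1, h2⟩ | ⟨-, h1, h2⟩ | ⟨-, h1, h2⟩ | ⟨-, h1, h2⟩ | ⟨-, h1, h2⟩ <;> omega
    have hdv := f4_5_7 _ rfl hc.1
    rw [hc.2] at hdv
    clear t19 t11 t5 t7
    omega
  have s7 : n7 = 4180 ∧ cN7 = 21 ∧ cC7 = 7 := by
    clear t19 t11 t5
    rcases t7 with ⟨-, h1, h2⟩ | ⟨-, h1, h2⟩ | ⟨-, h1, h2⟩ | ⟨-, h1, h2⟩ | ⟨-, h1, h2⟩ |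
      ⟨h0, h1, h2⟩
    · exfalso; apply a1; omega
    · exfalso; apply a2; omega
    · exfalso; apply a2; omega
    · exfalso; apply a1; omega
    · exfalso
      have := a3 _ rfl (by omega)
      omega
    · exact ⟨h0, h1, h2⟩
  clear t7 a1 a2 a3 hpos7 hle7
  obtain ⟨rfl, rfl, rfl⟩ := s7
  -- (2) n₅ = 2926
  have s5 : n5 = 2926 ∧ cN5 = 30 ∧ cC5 = 15 := by
    rcases t5 with ⟨-, h1, h2⟩ | ⟨-, h1, h2⟩ | ⟨-, h1, h2⟩ | ⟨-, h1, h2⟩ | ⟨h0, h1, h2⟩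
    · exfalso
      obtain ⟨hdv, -⟩ := f4_5_11 _ rfl (by clear t19 t11; omega)
      rw [h1] at hdv
      clear t19
      omega
    · exfalso
      have := f3_5_7 _ rfl (by clear t19 t11; omega)
      clear t19 t11
      omega
    · exfalso
      obtain ⟨hdv, hmd⟩ := f4_5_19 _ rfl (by clear t19 t11; omega)
      rw [h1] at hdv hmd
      clear t11
      rcases t19 with ⟨-, h3, -⟩ | ⟨-, h3, -⟩ | ⟨-, h3, -⟩ | ⟨-, h3, -⟩ <;> omega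
    · exfalso
      obtain ⟨hdv, hmd⟩ := f4_5_11 _ rfl (by clear t19 t11; omega)
      rw [h1] at hdv hmd
      clear t19
      omega
    · exact ⟨h0, h1, h2⟩
  clear t5 t11
  obtain ⟨rfl, rfl, rfl⟩ := s5
  -- counting
  have c7 : Nat.card {g : G // orderOf g = 7} = 4180 * (7 - 1) := by
    rw [hn7]; exact card_orderOf_eq_prime 7 P7 hc7
  have c5 : Nat.card {g : G // orderOf g = 5} = 2926 * (5 - 1) := by
    rw [hn5]; exact card_orderOf_eq_prime 5 P5 hc5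
  have c15 : 2926 * (5 - 1) * (3 - 1) ≤ Nat.card {g : G // orderOf g = 15} := by
    rw [hn5]
    exact card_orderOf_mul_ge 5 3 (by norm_num) P5 hc5 (by rw [← hcC5]; norm_num)
  have c19 : Nat.card {g : G // orderOf g = 19} = n19 * (19 - 1) := by
    rw [hn19]; exact card_orderOf_eq_prime 19 P19 hc19
  have c209 : ∀ c : ℕ, c = cC19 → 11 ∣ c →
      n19 * (19 - 1) * (11 - 1) ≤ Nat.card {g : G // orderOf g = 209} := by
    intro c hc hh; subst hc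
    rw [hn19]
    exact card_orderOf_mul_ge 19 11 (by norm_num) P19 hc19 (by rw [← hcC19]; exact hh)
  have hsum := list_sum_card_orderOf_le (G := G) [7, 5, 15, 19, 209] (by decide)
  simp only [List.map_cons, List.map_nil, List.sum_cons, List.sum_nil] at hsum
  rw [h, c7, c5, c19] at hsum
  -- (3) n₁₉
  rcases t19 with ⟨h0, h1, h2⟩ | ⟨h0, h1, h2⟩ | ⟨h0, h1, h2⟩ | ⟨h0, h1, h2⟩
  · have := f3_19_7 _ rfl (by omega)
    omega
  · have := f3_19_5 _ rfl (by omega)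
    omega
  · have := c209 _ rfl (by omega)
    omega
  · omega

example {G : Type*} [Group G] [Finite G] [IsSimpleGroup G] (h : Nat.card G = 87780) : False :=
  no_simple_87780 h

end Cfsg.Agent.H73.Ord175560

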