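import Mathlib
import Cfsg.Agent.H26.P2Defs
/-!
S4705 team project (helper26), piece P2-QCENT: `G / Z(G)` has trivial centre.
-/
set_option autoImplicit false

namespace Cfsg.Agent.H73.P2

open Cfsg Cfsg.Agent.H26.P2

universe u

/-- a central element killed by `p` is trivial when the centre is a `p'`-group -/
theorem central_eq_one_of_pow {G : Type u} [Group G] {p : ℕ} (hp : p.Prime)
    (hzreg : ∀ z ∈ Subgroup.center G, ¬ p ∣ orderOf z) {z : G} (hz : z ∈ Subgroup.center G)
    (hzp : z ^ p = 1) : z = 1 := by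
  have h1 : orderOf z ∣ p := orderOf_dvd_of_pow_eq_one hzp
  rcases (Nat.dvd_prime hp).mp h1 with h | h
  · exact orderOf_eq_one_iff.mp h
  · exfalso
    exact hzreg z hz (by rw [h])

/-- elements of a Sylow subgroup of order `p` are killed by `p` -/
theorem pow_eq_one_of_mem_sylow {G : Type u} [Group G] {p : ℕ} [Fact p.Prime] (P : Sylow p G)
    (hP : Nat.card (P : Subgroup G) = p) {x : G} (hx : x ∈ (P : Subgroup G)) : x ^ p = 1 := by
  have h1 : (⟨x, hx⟩ : (P : Subgroup G)) ^ Nat.card (P : Subgroup G) = 1 := pow_card_eq_one'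
  rw [hP] at h1
  exact congrArg Subtype.val h1

/-- `p² ∤ |G|` when a Sylow `p`-subgroup has order `p` -/
theorem sq_not_dvd_card {G : Type u} [Group G] [Finite G] {p : ℕ} [Fact p.Prime] (P : Sylow p G)
    (hP : Nat.card (P : Subgroup G) = p) : ¬ p ^ 2 ∣ Nat.card G := by
  have hp : p.Prime := Fact.out
  intro h
  have h1 : Nat.card (P : Subgroup G) = p ^ (Nat.card G).factorization p :=
    Sylow.card_eq_multiplicity P
  have h2 : 2 ≤ (Nat.card G).factorization p :=
    (hp.pow_dvd_iff_le_factorization Nat.card_pos.ne').mp h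
  rw [hP] at h1
  have h3 : p ^ 2 ≤ p ^ (Nat.card G).factorization p := Nat.pow_le_pow_right hp.pos h2
  rw [← h1] at h3
  have h4 : p < p ^ 2 := by
    have := hp.one_lt
    nlinarith
  omega

/-- `g ^ p` is a `p'`-element when `p² ∤ |G|` -/
theorem not_dvd_orderOf_pow {G : Type u} [Group G] [Finite G] {p : ℕ} (hp : p.Prime)
    (hp2 : ¬ p ^ 2 ∣ Nat.card G) (g : G) : ¬ p ∣ orderOf (g ^ p) := by
  intro h
  rw [orderOf_pow' g hp.ne_zero] at h
  by_cases hpg : p ∣ orderOf g
  · rw [Nat.gcd_eq_right hpg] at h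
    apply hp2
    have h1 : p * p ∣ orderOf g := by
      obtain ⟨k, hk⟩ := hpg
      rw [hk, Nat.mul_div_cancel_left k hp.pos] at h
      rw [hk]
      exact Nat.mul_dvd_mul_left p h
    rw [sq]
    exact h1.trans (orderOf_dvd_natCard g)
  · have hc : Nat.gcd (orderOf g) p = 1 :=
      Nat.Coprime.symm ((Nat.Prime.coprime_iff_not_dvd hp).mpr hpg)
    rw [hc, Nat.div_one] at h
    exact hpg h

/-- P2-QCENT -/
theorem qCent : StQCent.{u} := by
  intro G _ _ p _ P χ μ s hyp g hg
  have hp : p.Prime := Fact.out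
  have hp2 := sq_not_dvd_card P hyp.cardP
  -- `g` centralizes `P`
  have hA : ∀ x ∈ (P : Subgroup G), x * g = g * x := by
    intro x hx
    obtain ⟨z, hz⟩ : ∃ z : G, z = g * x * g⁻¹ * x⁻¹ := ⟨_, rfl⟩
    have hzZ : z ∈ Subgroup.center G := by rw [hz]; exact hg x
    have hxp : x ^ p = 1 := pow_eq_one_of_mem_sylow P hyp.cardP hx
    have e : g * x * g⁻¹ = z * x := by rw [hz, inv_mul_cancel_right]
    have hzp : z ^ p = 1 := by
      have h1 : (g * x * g⁻¹) ^ p = 1 := by rw [conj_pow, hxp, mul_one, mul_inv_cancel]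
      rw [e, (show Commute z x from (Subgroup.mem_center_iff.mp hzZ x).symm).mul_pow, hxp,
        mul_one] at h1
      exact h1
    have hz1 := central_eq_one_of_pow hp hyp.zreg hzZ hzp
    rw [hz1, one_mul] at e
    exact (mul_inv_eq_iff_eq_mul.mp e).symm
  have hgC : g ∈ Subgroup.centralizer ((P : Subgroup G) : Set G) := by
    rw [Subgroup.mem_centralizer_iff]
    exact hA
  have hgp : g ^ p ∈ Subgroup.center G :=
    hyp.cen _ (Subgroup.pow_mem _ hgC p) (not_dvd_orderOf_pow hp hp2 g)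
  rw [Subgroup.mem_center_iff]
  intro h
  obtain ⟨c, hc⟩ : ∃ c : G, c = g * h * g⁻¹ * h⁻¹ := ⟨_, rfl⟩
  have hcZ : c ∈ Subgroup.center G := by rw [hc]; exact hg h
  have hcc : ∀ y : G, y * c = c * y := Subgroup.mem_center_iff.mp hcZ
  have e : g * h * g⁻¹ = c * h := by rw [hc, inv_mul_cancel_right]
  have hpow : ∀ n : ℕ, g ^ n * h * (g ^ n)⁻¹ = c ^ n * h := by
    intro n
    induction n with
    | zero => simp
    | succ n ih =>
      have e1 : g ^ (n + 1) * h * (g ^ (n + 1))⁻¹ = g * (g ^ n * h * (g ^ n)⁻¹) * g⁻¹ := by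
        rw [pow_succ', mul_inv_rev]
        simp only [mul_assoc]
      have hcn : g * c ^ n = c ^ n * g :=
        Subgroup.mem_center_iff.mp (Subgroup.pow_mem _ hcZ n) g
      rw [e1, ih, ← mul_assoc, hcn, mul_assoc, mul_assoc, ← mul_assoc g h, e, ← mul_assoc,
        ← pow_succ]
  have h1 := hpow p
  have h2 : g ^ p * h * (g ^ p)⁻¹ = h := by
    rw [← Subgroup.mem_center_iff.mp hgp h, mul_inv_cancel_right]
  rw [h2] at h1
  have hcp : c ^ p = 1 := by
    have h3 : c ^ p * h = 1 * h := by rw [one_mul]; exact h1.symm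
    exact mul_right_cancel h3
  have hc1 := central_eq_one_of_pow hp hyp.zreg hcZ hcp
  rw [hc1, one_mul] at e
  exact (mul_inv_eq_iff_eq_mul.mp e).symm

example : StQCent.{u} := qCent

end Cfsg.Agent.H73.P2
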