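import Mathlib
import Cfsg.Agent.H26.P2Defs
/-!
S4705 team project (helper26), piece P2-QEVEN: `G / Z(G)` has even order.
-/
set_option autoImplicit false

namespace Cfsg.Agent.H73.P2

open Cfsg Cfsg.Agent.H26.P2

universe u

/-- P2-QEVEN -/
theorem qEven : StQEven.{u} := by
  intro G _ _ p _ P χ μ s hyp
  have h1 : Nat.card G = Nat.card (G ⧸ Subgroup.center G) * Nat.card (Subgroup.center G) :=
    Subgroup.card_eq_card_quotient_mul_card_subgroup _
  have h2 : Nat.card (Subgroup.normalizer ((P : Subgroup G) : Set G)) ∣ Nat.card G :=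
    Subgroup.card_subgroup_dvd_card _
  have h3 : Nat.card (Subgroup.center G) ∣
      Nat.card (Subgroup.centralizer ((P : Subgroup G) : Set G)) :=
    Subgroup.card_dvd_of_le (Subgroup.center_le_centralizer _)
  rw [hyp.nor] at h2
  obtain ⟨k, hk⟩ := h2
  obtain ⟨j, hj⟩ := h3
  have hZ : 0 < Nat.card (Subgroup.center G) := Nat.card_pos
  have h4 : Nat.card (G ⧸ Subgroup.center G) * Nat.card (Subgroup.center G) =
      (2 * (j * k)) * Nat.card (Subgroup.center G) := by
    rw [← h1, hk, hj]
    ring
  have h5 := Nat.eq_of_mul_eq_mul_right hZ h4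
  rw [h5]
  exact even_two_mul _

example : StQEven.{u} := qEven

end Cfsg.Agent.H73.P2
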