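import Mathlib
import Cfsg.Agent.H26.P2Defs
import Cfsg.Agent.H73.P2QCent
/-!
S4705 team project (helper26), piece P2-QNN: the Sylow `2`-subgroups of `G / Z(G)` are not
normal.
-/
set_option autoImplicit false

namespace Cfsg.Agent.H73.P2

open Cfsg Cfsg.Agent.H26.P2

universe u

/-- P2-QNN -/
theorem qNN : StQNN.{u} := by
  intro G _ _ p _ P χ μ s hyp hall
  have hp : p.Prime := Fact.out
  obtain ⟨N, hN⟩ : ∃ N : Subgroup G, N = Subgroup.normalizer ((P : Subgroup G) : Set G) :=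
    ⟨_, rfl⟩
  obtain ⟨C, hC⟩ : ∃ C : Subgroup G, C = Subgroup.centralizer ((P : Subgroup G) : Set G) :=
    ⟨_, rfl⟩
  have hCN : C ≤ N := by
    rw [hC, hN]
    exact Subgroup.centralizer_le_normalizer _
  have hcard : Nat.card N = 2 * Nat.card C := by
    rw [hN, hC]
    exact hyp.nor
  have hCpos : 0 < Nat.card C := Nat.card_pos
  have hidx : (C.subgroupOf N).index = 2 := by
    have h1 := (C.subgroupOf N).card_mul_index
    rw [Nat.card_congr (Subgroup.subgroupOfEquivOfLe hCN).toEquiv, hcard] at h1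
    have h2 : Nat.card C * (C.subgroupOf N).index = Nat.card C * 2 := by
      rw [h1, mul_comm]
    exact Nat.eq_of_mul_eq_mul_left hCpos h2
  obtain ⟨n, hnN, hnC⟩ : ∃ n ∈ N, n ∉ C := by
    by_contra hcon
    push Not at hcon
    have hNC : N = C := le_antisymm hcon hCN
    rw [hNC] at hcard
    omega
  have hnn : n * n ∈ C := by
    have h1 := Subgroup.mul_self_mem_of_index_two hidx (⟨n, hnN⟩ : N)
    exact Subgroup.mem_subgroupOf.mp h1
  obtain ⟨a, m, hm, ham⟩ := Nat.exists_eq_two_pow_mul_odd (orderOf_pos n).ne'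
  obtain ⟨k, hk⟩ := hm
  obtain ⟨t, ht⟩ : ∃ t : G, t = n ^ m := ⟨_, rfl⟩
  have htN : t ∈ N := by
    rw [ht]
    exact N.pow_mem hnN m
  have htC : t ∉ C := by
    intro h
    apply hnC
    have e : n = ((n * n) ^ k)⁻¹ * t := by
      rw [ht, hk, ← pow_two, ← pow_mul, pow_succ, inv_mul_cancel_left]
    rw [e]
    exact C.mul_mem (C.inv_mem (C.pow_mem hnn k)) h
  have ht2 : t ^ 2 ^ a = 1 := by
    rw [ht, ← pow_mul, mul_comm, ← ham, pow_orderOf_eq_one]
  -- the quotient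
  obtain ⟨π, hπ⟩ : ∃ π : G →* G ⧸ Subgroup.center G,
      π = QuotientGroup.mk' (Subgroup.center G) := ⟨_, rfl⟩
  have hker : ∀ g : G, π g = 1 → g ∈ Subgroup.center G := by
    intro g hg
    rw [hπ] at hg
    exact (QuotientGroup.eq_one_iff g).mp hg
  have hπt : π t ^ 2 ^ a = 1 := by rw [← map_pow, ht2, map_one]
  have hpg : IsPGroup 2 (Subgroup.zpowers (π t)) := by
    obtain ⟨b, -, hb⟩ := (Nat.dvd_prime_pow Nat.prime_two).mp (orderOf_dvd_of_pow_eq_one hπt)
    exact IsPGroup.of_card (n := b) (by rw [Nat.card_zpowers, hb])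
  obtain ⟨T, hT⟩ := hpg.exists_le_sylow
  have hTn := hall T
  have hπtT : π t ∈ (T : Subgroup (G ⧸ Subgroup.center G)) := hT (Subgroup.mem_zpowers _)
  apply htC
  rw [hC, Subgroup.mem_centralizer_iff]
  intro x hx
  obtain ⟨c, hc⟩ : ∃ c : G, c = t * x * t⁻¹ * x⁻¹ := ⟨_, rfl⟩
  have htx : t * x * t⁻¹ ∈ (P : Subgroup G) := by
    rw [hN] at htN
    exact (Subgroup.mem_normalizer_iff.mp htN x).mp hx
  have hcP : c ∈ (P : Subgroup G) := by
    rw [hc]
    exact (P : Subgroup G).mul_mem htx ((P : Subgroup G).inv_mem hx)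
  have hcp : c ^ p = 1 := pow_eq_one_of_mem_sylow P hyp.cardP hcP
  have hπc : π c ∈ (T : Subgroup (G ⧸ Subgroup.center G)) := by
    have e : π c = π t * (π x * (π t)⁻¹ * (π x)⁻¹) := by
      rw [hc, map_mul, map_mul, map_mul, map_inv, map_inv]
      simp only [mul_assoc]
    rw [e]
    exact (T : Subgroup (G ⧸ Subgroup.center G)).mul_mem hπtT
      (hTn.conj_mem _ ((T : Subgroup (G ⧸ Subgroup.center G)).inv_mem hπtT) _)
  obtain ⟨k2, hk2⟩ := T.isPGroup' ⟨π c, hπc⟩
  have hk2' : π c ^ 2 ^ k2 = 1 := congrArg Subtype.val hk2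
  have hπcp : π c ^ p = 1 := by rw [← map_pow, hcp, map_one]
  have hcop : Nat.Coprime (2 ^ k2) p :=
    Nat.Coprime.pow_left k2 ((Nat.coprime_primes Nat.prime_two hp).mpr (by
      have := hyp.hp5
      omega))
  have hπc1 : π c = 1 := by
    have h1 := pow_gcd_eq_one.mpr ⟨hk2', hπcp⟩
    rw [Nat.Coprime.gcd_eq_one hcop, pow_one] at h1
    exact h1
  have hcZ := hker c hπc1
  have hc1 := central_eq_one_of_pow hp hyp.zreg hcZ hcp
  rw [hc1] at hc
  have h3 : t * x * t⁻¹ = x := by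
    have h4 := hc.symm
    rwa [mul_inv_eq_one] at h4
  exact (mul_inv_eq_iff_eq_mul.mp h3).symm

example : StQNN.{u} := qNN

end Cfsg.Agent.H73.P2
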