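import Mathlib
import Cfsg.Agent.H26.P2Defs
/-!
S4705 team project (helper26), piece P2-SLINV: `SL₂(F)`, `char F = 2`, has `q² - 1`
involutions.
-/
set_option autoImplicit false

namespace Cfsg.Agent.H73.P2

open Cfsg Cfsg.Agent.H26.P2

/-- in characteristic 2, an element of `SL₂(F)` squares to `1` iff its diagonal entries agree -/
theorem sl2_sq_eq_one_iff {F : Type} [Field F] (h2 : (2 : F) = 0)
    (g : Matrix.SpecialLinearGroup (Fin 2) F) : g ^ 2 = 1 ↔ g.1 0 0 = g.1 1 1 := by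
  have hdet : g.1 0 0 * g.1 1 1 - g.1 0 1 * g.1 1 0 = 1 := by
    have h := g.2
    rwa [Matrix.det_fin_two] at h
  have hiff : g ^ 2 = 1 ↔ g.1 * g.1 = 1 := by
    rw [sq]
    constructor
    · intro h
      exact congrArg Subtype.val h
    · intro h
      exact Subtype.ext h
  rw [hiff]
  constructor
  · intro h
    have h00 : (g.1 * g.1) 0 0 = (1 : Matrix (Fin 2) (Fin 2) F) 0 0 := by rw [h]
    have h11 : (g.1 * g.1) 1 1 = (1 : Matrix (Fin 2) (Fin 2) F) 1 1 := by rw [h]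
    rw [Matrix.mul_apply, Fin.sum_univ_two, Matrix.one_apply_eq] at h00 h11
    have h3 : (g.1 0 0 - g.1 1 1) ^ 2 = 0 := by
      linear_combination h00 - h11 + (g.1 1 1 * g.1 1 1 - g.1 0 0 * g.1 1 1) * h2
    exact sub_eq_zero.mp ((pow_eq_zero_iff two_ne_zero).mp h3)
  · intro h
    rw [← Matrix.ext_iff, Fin.forall_fin_two]
    refine ⟨?_, ?_⟩ <;> rw [Fin.forall_fin_two]
    · refine ⟨?_, ?_⟩
      · rw [Matrix.mul_apply, Fin.sum_univ_two, Matrix.one_apply_eq]
        linear_combination hdet + g.1 0 0 * h + (g.1 0 1 * g.1 1 0) * h2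
      · rw [Matrix.mul_apply, Fin.sum_univ_two, Matrix.one_apply_ne (by decide)]
        linear_combination (g.1 0 0 * g.1 0 1) * h2 - g.1 0 1 * h
    · refine ⟨?_, ?_⟩
      · rw [Matrix.mul_apply, Fin.sum_univ_two, Matrix.one_apply_ne (by decide)]
        linear_combination (g.1 0 0 * g.1 1 0) * h2 - g.1 1 0 * h
      · rw [Matrix.mul_apply, Fin.sum_univ_two, Matrix.one_apply_eq]
        linear_combination hdet - g.1 1 1 * h + (g.1 0 1 * g.1 1 0) * h2

/-- P2-SLINV -/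
theorem slInv : StSLInv := by
  intro F _ _ hchar
  classical
  have h2 : (2 : F) = 0 := by
    have h := CharP.cast_eq_zero F 2
    exact_mod_cast h
  have hinj : Function.Injective (fun x : F => x * x) := by
    intro x y hxy
    have hxy' : x * x = y * y := hxy
    have h3 : (x - y) ^ 2 = 0 := by linear_combination hxy' + (y * y - x * y) * h2
    exact sub_eq_zero.mp ((pow_eq_zero_iff two_ne_zero).mp h3)
  have hsurj : Function.Surjective (fun x : F => x * x) :=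
    Finite.injective_iff_surjective.mp hinj
  -- data of an involution
  have hdata : ∀ g : Matrix.SpecialLinearGroup (Fin 2) F, orderOf g = 2 →
      g.1 0 0 = g.1 1 1 ∧ g.1 0 0 * g.1 0 0 = 1 + g.1 0 1 * g.1 1 0 ∧ g ≠ 1 := by
    intro g hg
    obtain ⟨hsq, hne⟩ := orderOf_eq_prime_iff.mp hg
    have h := (sl2_sq_eq_one_iff h2 g).mp hsq
    have hdet : g.1 0 0 * g.1 1 1 - g.1 0 1 * g.1 1 0 = 1 := by
      have h' := g.2
      rwa [Matrix.det_fin_two] at h'
    refine ⟨h, ?_, hne⟩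
    linear_combination hdet + g.1 0 0 * h
  have hR : Nat.card {bc : F × F // bc ≠ (0, 0)} = Fintype.card F ^ 2 - 1 := by
    rw [Nat.card_eq_fintype_card, Fintype.card_subtype_compl (fun bc : F × F => bc = (0, 0)),
      Fintype.card_subtype_eq, Fintype.card_prod, sq]
  rw [← hR]
  have hnz : ∀ g : {g : Matrix.SpecialLinearGroup (Fin 2) F // orderOf g = 2},
      (g.1.1 0 1, g.1.1 1 0) ≠ ((0 : F), (0 : F)) := by
    intro g hbc
    obtain ⟨h, ha, hne⟩ := hdata g.1 g.2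
    have hb : g.1.1 0 1 = 0 := congrArg Prod.fst hbc
    have hc : g.1.1 1 0 = 0 := congrArg Prod.snd hbc
    rw [hb, zero_mul, add_zero] at ha
    have ha1 : g.1.1 0 0 = 1 := hinj (by
      show g.1.1 0 0 * g.1.1 0 0 = 1 * 1
      rw [ha, one_mul])
    apply hne
    apply Subtype.ext
    rw [← Matrix.ext_iff, Fin.forall_fin_two]
    refine ⟨?_, ?_⟩ <;> rw [Fin.forall_fin_two]
    · exact ⟨by rw [ha1]; rfl, by rw [hb]; rfl⟩
    · exact ⟨by rw [hc]; rfl, by rw [← h, ha1]; rfl⟩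
  apply Nat.card_congr
  refine Equiv.ofBijective (fun g => ⟨(g.1.1 0 1, g.1.1 1 0), hnz g⟩) ⟨?_, ?_⟩
  · intro g g' hgg
    have hbc : (g.1.1 0 1, g.1.1 1 0) = (g'.1.1 0 1, g'.1.1 1 0) := congrArg Subtype.val hgg
    have hb : g.1.1 0 1 = g'.1.1 0 1 := congrArg Prod.fst hbc
    have hc : g.1.1 1 0 = g'.1.1 1 0 := congrArg Prod.snd hbc
    obtain ⟨h, ha, -⟩ := hdata g.1 g.2
    obtain ⟨h', ha', -⟩ := hdata g'.1 g'.2
    have haa : g.1.1 0 0 = g'.1.1 0 0 := hinj (by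
      show g.1.1 0 0 * g.1.1 0 0 = g'.1.1 0 0 * g'.1.1 0 0
      rw [ha, ha', hb, hc])
    apply Subtype.ext
    apply Subtype.ext
    rw [← Matrix.ext_iff, Fin.forall_fin_two]
    refine ⟨?_, ?_⟩ <;> rw [Fin.forall_fin_two]
    · exact ⟨haa, hb⟩
    · exact ⟨hc, by rw [← h, ← h', haa]⟩
  · rintro ⟨⟨b, c⟩, hbc⟩
    obtain ⟨a, ha⟩ := hsurj (1 + b * c)
    have ha' : a * a = 1 + b * c := ha
    have hdet : (!![a, b; c, a] : Matrix (Fin 2) (Fin 2) F).det = 1 := by
      rw [Matrix.det_fin_two_of]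
      linear_combination ha'
    obtain ⟨g, hg⟩ : ∃ g : Matrix.SpecialLinearGroup (Fin 2) F, g = ⟨!![a, b; c, a], hdet⟩ :=
      ⟨_, rfl⟩
    have hg00 : g.1 0 0 = a := by rw [hg]; rfl
    have hg01 : g.1 0 1 = b := by rw [hg]; rfl
    have hg10 : g.1 1 0 = c := by rw [hg]; rfl
    have hg11 : g.1 1 1 = a := by rw [hg]; rfl
    have hsq : g ^ 2 = 1 := (sl2_sq_eq_one_iff h2 g).mpr (by rw [hg00, hg11])
    have hne : g ≠ 1 := by
      intro h1
      apply hbc
      have e1 : g.1 0 1 = (1 : Matrix (Fin 2) (Fin 2) F) 0 1 := by rw [h1]; rfl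
      have e2 : g.1 1 0 = (1 : Matrix (Fin 2) (Fin 2) F) 1 0 := by rw [h1]; rfl
      rw [hg01, Matrix.one_apply_ne (by decide)] at e1
      rw [hg10, Matrix.one_apply_ne (by decide)] at e2
      rw [e1, e2]
    have hord : orderOf g = 2 := orderOf_eq_prime_iff.mpr ⟨hsq, hne⟩
    refine ⟨⟨g, hord⟩, ?_⟩
    apply Subtype.ext
    show (g.1 0 1, g.1 1 0) = (b, c)
    rw [hg01, hg10]

example : StSLInv := slInv

end Cfsg.Agent.H73.P2
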