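import Mathlib
import Cfsg.Agent.H73.Syl

set_option autoImplicit false

namespace Cfsg.Agent.H73.R2

section basic
variable {S : Type*} [Group S]

/-- conjugation `g a g⁻¹` -/
def cj (g a : S) : S := g * a * g⁻¹

lemma cj_mul (g a b : S) : cj g (a * b) = cj g a * cj g b := by simp [cj]
lemma cj_inv (g a : S) : cj g a⁻¹ = (cj g a)⁻¹ := by simp [cj, mul_assoc]
lemma cj_cj (g h a : S) : cj g (cj h a) = cj (g * h) a := by simp [cj, mul_assoc]
lemma cj_one (a : S) : cj 1 a = a := by simp [cj]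
lemma cj_one' (g : S) : cj g 1 = 1 := by simp [cj]
lemma cj_pow (g a : S) (n : ℕ) : cj g (a ^ n) = (cj g a) ^ n := by unfold cj; rw [conj_pow]
lemma cj_inj (g : S) {a b : S} (h : cj g a = cj g b) : a = b := by
  unfold cj at h; simpa using h
lemma cj_eq_iff (g a : S) : cj g a = a ↔ g * a = a * g := by
  unfold cj; rw [mul_inv_eq_iff_eq_mul]
lemma cj_comm {g h : S} (e : g * h = h * g) (a : S) : cj g (cj h a) = cj h (cj g a) := by
  rw [cj_cj, cj_cj, e]
lemma cj_cube {g : S} (e : g ^ 3 = 1) (a : S) : cj g (cj g (cj g a)) = a := by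
  rw [cj_cj, cj_cj, ← pow_two, ← pow_succ, e, cj_one]
lemma cj_sq {g : S} (e : g ^ 2 = 1) (a : S) : cj g (cj g a) = a := by
  rw [cj_cj, ← pow_two, e, cj_one]
lemma cj_ne_one (g : S) {a : S} (h : a ≠ 1) : cj g a ≠ 1 := by
  intro h'
  exact h (cj_inj g (h'.trans (cj_one' g).symm))

/-- three distinct elements -/
lemma three_le_card [Finite S] (A : Subgroup S) {a b : S} (ha : a ∈ A) (hb : b ∈ A)
    (ha1 : a ≠ 1) (hb1 : b ≠ 1) (hab : a ≠ b) : 3 ≤ Nat.card A := by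
  classical
  have hsub : (({1, a, b} : Finset S) : Set S) ⊆ (A : Set S) := by
    intro y hy
    simp only [Finset.coe_insert, Finset.coe_singleton, Set.mem_insert_iff,
      Set.mem_singleton_iff] at hy
    rcases hy with rfl | rfl | rfl
    · exact A.one_mem
    · exact ha
    · exact hb
  have h1 := Set.ncard_le_ncard hsub (Set.toFinite _)
  have h2 : ({1, a, b} : Finset S).card = 3 := by
    rw [Finset.card_insert_of_notMem, Finset.card_pair hab]
    simp only [Finset.mem_insert, Finset.mem_singleton, not_or]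
    exact ⟨Ne.symm ha1, Ne.symm hb1⟩
  rw [Set.ncard_coe_finset, h2] at h1
  have h3 : (A : Set S).ncard = Nat.card A := (Nat.card_coe_set_eq _).symm
  rw [h3] at h1
  exact h1

/-- the elements of a four-group -/
lemma v4_cases (Z : Subgroup S) (hZ4 : Nat.card Z = 4) {z z' : S} (hz : z ∈ Z) (hz' : z' ∈ Z)
    (hzsq : z ^ 2 = 1) (h1 : z ≠ 1) (h2 : z' ≠ 1) (h3 : z ≠ z') :
    ∀ y ∈ Z, y = 1 ∨ y = z ∨ y = z' ∨ y = z * z' := by
  classical
  have hfin : Finite Z := Nat.finite_of_card_ne_zero (by rw [hZ4]; norm_num)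
  have hT : (({1, z, z', z * z'} : Finset S) : Set S) ⊆ (Z : Set S) := by
    intro y hy
    simp only [Finset.coe_insert, Finset.coe_singleton, Set.mem_insert_iff,
      Set.mem_singleton_iff] at hy
    rcases hy with rfl | rfl | rfl | rfl
    · exact Z.one_mem
    · exact hz
    · exact hz'
    · exact Z.mul_mem hz hz'
  have hzz' : z * z' ≠ 1 := by
    intro h
    have h4 : z * z = 1 := by rw [← pow_two]; exact hzsq
    exact h3 (mul_left_cancel (h.trans h4.symm)).symm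
  have hcardT : ({1, z, z', z * z'} : Finset S).card = 4 := by
    rw [Finset.card_insert_of_notMem, Finset.card_insert_of_notMem, Finset.card_pair]
    · intro h
      exact h1 (by simpa using h)
    · simp only [Finset.mem_insert, Finset.mem_singleton, not_or]
      exact ⟨h3, fun h => h2 (by simpa using h)⟩
    · simp only [Finset.mem_insert, Finset.mem_singleton, not_or]
      exact ⟨Ne.symm h1, Ne.symm h2, Ne.symm hzz'⟩
  have hle : (Z : Set S).ncard ≤ (({1, z, z', z * z'} : Finset S) : Set S).ncard := by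
    rw [Set.ncard_coe_finset, hcardT, ← hZ4]
    exact (Nat.card_coe_set_eq _).symm.le
  have heq := Set.eq_of_subset_of_ncard_le hT hle (Set.toFinite _)
  intro y hy
  have : y ∈ (({1, z, z', z * z'} : Finset S) : Set S) := by rw [heq]; exact hy
  simpa using this

/-- a fixed-point-free automorphism of a four-group permutes the involutions cyclically -/
lemma v4_fpf (Z : Subgroup S) (hZ4 : Nat.card Z = 4) (hZ2 : ∀ z ∈ Z, z ^ 2 = 1)
    (hZc : ∀ a ∈ Z, ∀ b ∈ Z, a * b = b * a)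
    (d : S) (hdZ : ∀ z ∈ Z, cj d z ∈ Z) (hfix : ∀ z ∈ Z, cj d z = z → z = 1)
    {z : S} (hz : z ∈ Z) (hz1 : z ≠ 1) :
    cj d z ≠ 1 ∧ cj d z ≠ z ∧ cj d (cj d z) = z * cj d z ∧ cj d (z * cj d z) = z ∧
    ∀ y ∈ Z, y = 1 ∨ y = z ∨ y = cj d z ∨ y = z * cj d z := by
  have h2 : cj d z ≠ 1 := cj_ne_one d hz1
  have h3 : cj d z ≠ z := fun h => hz1 (hfix z hz h)
  have hz' := hdZ z hz
  have hcases := v4_cases Z hZ4 hz hz' (hZ2 z hz) hz1 h2 (Ne.symm h3)
  have hzz : z * z = 1 := by rw [← pow_two]; exact hZ2 z hz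
  have hz'z' : cj d z * cj d z = 1 := by rw [← pow_two]; exact hZ2 _ hz'
  have h4 : cj d (cj d z) = z * cj d z := by
    rcases hcases _ (hdZ _ hz') with h | h | h | h
    · exact absurd h (cj_ne_one d h2)
    · exfalso
      have h5 : cj d (z * cj d z) = z * cj d z := by
        rw [cj_mul, h]; exact hZc _ hz' _ hz
      have h6 := hfix _ (Z.mul_mem hz hz') h5
      exact h3 (mul_left_cancel (h6.trans hzz.symm))
    · exact absurd (hfix _ hz' h) h2
    · exact h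
  refine ⟨h2, h3, h4, ?_, hcases⟩
  rw [cj_mul, h4, hZc _ hz' _ (Z.mul_mem hz hz'), mul_assoc, hz'z', mul_one]

/-- an automorphism of a four-group with a fixed involution has square one -/
lemma v4_fix (Z : Subgroup S) (hZ4 : Nat.card Z = 4) (hZ2 : ∀ z ∈ Z, z ^ 2 = 1)
    (x : S) (hxZ : ∀ z ∈ Z, cj x z ∈ Z) {z₁ : S} (hz₁ : z₁ ∈ Z) (hz₁1 : z₁ ≠ 1)
    (hfix : cj x z₁ = z₁) : ∀ z ∈ Z, cj x (cj x z) = z := by
  intro z hz
  by_cases h1 : z = 1
  · rw [h1, cj_one', cj_one']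
  by_cases h2 : z = z₁
  · rw [h2, hfix, hfix]
  have hcases := v4_cases Z hZ4 hz₁ hz (hZ2 z₁ hz₁) hz₁1 h1 (Ne.symm h2)
  have hzz : z₁ * z₁ = 1 := by rw [← pow_two]; exact hZ2 z₁ hz₁
  rcases hcases _ (hxZ z hz) with h | h | h | h
  · exact absurd h (cj_ne_one x h1)
  · exact absurd (cj_inj x (h.trans hfix.symm)) h2
  · rw [h, h]
  · rw [h, cj_mul, hfix, h, ← mul_assoc, hzz, one_mul]

/-- an involution normalizing an elementary abelian 2-group fixes a nontrivial element -/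
lemma exists_fixed (V : Subgroup S) (hV2 : ∀ v ∈ V, v ^ 2 = 1)
    (hVc : ∀ a ∈ V, ∀ b ∈ V, a * b = b * a) (w : S) (hw2 : w ^ 2 = 1)
    (hwV : ∀ v ∈ V, cj w v ∈ V) {v : S} (hv : v ∈ V) (hv1 : v ≠ 1) :
    ∃ a ∈ V, a ≠ 1 ∧ cj w a = a ∧ (cj w v = v → a = v) ∧ (cj w v ≠ v → a = v * cj w v) := by
  by_cases h : cj w v = v
  · exact ⟨v, hv, hv1, h, fun _ => rfl, fun h' => absurd h h'⟩
  · refine ⟨v * cj w v, V.mul_mem hv (hwV v hv), ?_, ?_, fun h' => absurd h' h, fun _ => rfl⟩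
    · intro h1
      have hvv : v * v = 1 := by rw [← pow_two]; exact hV2 v hv
      exact h (mul_left_cancel (h1.trans hvv.symm))
    · rw [cj_mul, cj_sq hw2]
      exact hVc _ (hwV v hv) _ hv

/-- two commuting involutions normalizing an elementary abelian 2-group have a common nontrivial
fixed point -/
lemma exists_fixed₂ (V : Subgroup S) (hV2 : ∀ v ∈ V, v ^ 2 = 1)
    (hVc : ∀ a ∈ V, ∀ b ∈ V, a * b = b * a) (w₁ w₂ : S) (hw₁ : w₁ ^ 2 = 1) (hw₂ : w₂ ^ 2 = 1)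
    (hcomm : w₁ * w₂ = w₂ * w₁)
    (hw₁V : ∀ v ∈ V, cj w₁ v ∈ V) (hw₂V : ∀ v ∈ V, cj w₂ v ∈ V) {v : S} (hv : v ∈ V)
    (hv1 : v ≠ 1) :
    ∃ a ∈ V, a ≠ 1 ∧ cj w₁ a = a ∧ cj w₂ a = a := by
  obtain ⟨a₁, ha₁, ha₁1, hfix₁, -, -⟩ := exists_fixed V hV2 hVc w₁ hw₁ hw₁V hv hv1
  obtain ⟨a, ha, ha1, hfix₂, hc1, hc2⟩ := exists_fixed V hV2 hVc w₂ hw₂ hw₂V ha₁ ha₁1
  refine ⟨a, ha, ha1, ?_, hfix₂⟩
  by_cases h : cj w₂ a₁ = a₁
  · rw [hc1 h]; exact hfix₁
  · rw [hc2 h, cj_mul, hfix₁, cj_comm hcomm, hfix₁]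

end basic

section e8
variable {S : Type*} [Group S] [Finite S]

/-- no elementary abelian subgroup of order 8 -/
def NoE8 (S : Type*) [Group S] : Prop :=
  ∀ E : Subgroup S, (∀ a ∈ E, ∀ b ∈ E, a * b = b * a) → (∀ a ∈ E, a ^ 2 = 1) → Nat.card E ≠ 8

lemma card_le_four (hno : NoE8 S) (B : Subgroup S) (hBc : ∀ a ∈ B, ∀ b ∈ B, a * b = b * a)
    (hB2 : ∀ a ∈ B, a ^ 2 = 1) : Nat.card B = 1 ∨ Nat.card B = 2 ∨ Nat.card B = 4 := by
  have hp : IsPGroup 2 B := fun g => ⟨1, by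
    rw [pow_one]; exact Subtype.ext (by simpa using hB2 g.1 g.2)⟩
  obtain ⟨k, hk⟩ := IsPGroup.iff_card.1 hp
  have hk3 : k < 3 := by
    by_contra hk3
    push Not at hk3
    obtain ⟨H, hH⟩ := Sylow.exists_subgroup_card_pow_prime_of_le_card Nat.prime_two hp (n := 3)
      (by rw [hk]; exact Nat.pow_le_pow_right (by norm_num) hk3)
    apply hno (H.map B.subtype)
    · intro a ha b hb
      obtain ⟨a', -, rfl⟩ := ha
      obtain ⟨b', -, rfl⟩ := hb
      exact hBc _ a'.2 _ b'.2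
    · intro a ha
      obtain ⟨a', -, rfl⟩ := ha
      exact hB2 _ a'.2
    · rw [Subgroup.card_map_of_injective B.subtype_injective, hH]
      norm_num
  interval_cases k <;> simp [hk]

lemma mem_of_invol (hno : NoE8 S) (A : Subgroup S) (hAc : ∀ a ∈ A, ∀ b ∈ A, a * b = b * a)
    (hA2 : ∀ a ∈ A, a ^ 2 = 1) (hA4 : Nat.card A = 4) (t : S) (ht2 : t ^ 2 = 1)
    (htc : ∀ a ∈ A, t * a = a * t) : t ∈ A := by
  by_contra htA
  have hTc : ∀ x ∈ (A : Set S) ∪ {t}, ∀ y ∈ (A : Set S) ∪ {t}, x * y = y * x := by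
    intro x hx y hy
    rcases hx with hx | hx <;> rcases hy with hy | hy
    · exact hAc x hx y hy
    · rw [Set.mem_singleton_iff] at hy; rw [hy]; exact (htc x hx).symm
    · rw [Set.mem_singleton_iff] at hx; rw [hx]; exact htc y hy
    · rw [Set.mem_singleton_iff] at hx hy; rw [hx, hy]
  have h1 : ∀ b ∈ Subgroup.closure ((A : Set S) ∪ {t}), ∀ x ∈ (A : Set S) ∪ {t},
      b * x = x * b := by
    intro b hb x hx
    induction hb using Subgroup.closure_induction with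
    | mem y hy => exact hTc y hy x hx
    | one => simp
    | mul y z _ _ hy hz => exact (Commute.mul_left (show Commute y x from hy) hz).eq
    | inv y _ hy => exact (Commute.inv_left (show Commute y x from hy)).eq
  have hBc : ∀ a ∈ Subgroup.closure ((A : Set S) ∪ {t}),
      ∀ b ∈ Subgroup.closure ((A : Set S) ∪ {t}), a * b = b * a := by
    intro a ha b hb
    induction hb using Subgroup.closure_induction with
    | mem y hy => exact h1 a ha y hy
    | one => simp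
    | mul y z _ _ hy hz => exact (Commute.mul_right (show Commute a y from hy) hz).eq
    | inv y _ hy => exact (Commute.inv_right (show Commute a y from hy)).eq
  have hB2 : ∀ a ∈ Subgroup.closure ((A : Set S) ∪ {t}), a ^ 2 = 1 := by
    intro a ha
    induction ha using Subgroup.closure_induction with
    | mem y hy =>
      rcases hy with hy | hy
      · exact hA2 y hy
      · rw [Set.mem_singleton_iff] at hy; rw [hy]; exact ht2
    | one => simp
    | mul y z hy' hz' hy hz =>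
      rw [Commute.mul_pow (show Commute y z from hBc y hy' z hz'), hy, hz, one_mul]
    | inv y _ hy => rw [inv_pow, hy, inv_one]
  have hAB : A ≤ Subgroup.closure ((A : Set S) ∪ {t}) := fun x hx =>
    Subgroup.subset_closure (Or.inl hx)
  have htB : t ∈ Subgroup.closure ((A : Set S) ∪ {t}) :=
    Subgroup.subset_closure (Or.inr rfl)
  have hc := card_le_four hno _ hBc hB2
  have hle := Subgroup.card_le_of_le hAB
  have heq : A = Subgroup.closure ((A : Set S) ∪ {t}) :=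
    Subgroup.eq_of_le_of_card_ge hAB (by omega)
  exact htA (heq ▸ htB)

end e8

section sums
variable {H : Type*} [Group H] [Fintype H]

open Classical in
/-- sum of a `±1`-valued function, multiplicative on a subgroup, over that subgroup -/
lemma sum_pm (R : Subgroup H) (g : H → ℤ) (hmul : ∀ u ∈ R, ∀ v ∈ R, g (u * v) = g u * g v)
    (hpm : ∀ u ∈ R, g u = 1 ∨ g u = -1) :
    ((∀ u ∈ R, g u = 1) → (∑ u : H, if u ∈ R then g u else 0) = (Nat.card R : ℤ)) ∧
    ((¬ ∀ u ∈ R, g u = 1) → (∑ u : H, if u ∈ R then g u else 0) = 0) := by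
  constructor
  · intro h
    have h1 : (∑ u : H, if u ∈ R then g u else 0) = ∑ u : H, if u ∈ R then (1 : ℤ) else 0 := by
      apply Finset.sum_congr rfl
      intro u _
      by_cases hu : u ∈ R
      · rw [if_pos hu, if_pos hu, h u hu]
      · rw [if_neg hu, if_neg hu]
    rw [h1, Finset.sum_boole, Nat.card_eq_fintype_card, Fintype.card_subtype]
  · intro h
    push Not at h
    obtain ⟨u₀, hu₀, hne⟩ := h
    have hg0 : g u₀ = -1 := by
      rcases hpm u₀ hu₀ with h1 | h1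
      · exact absurd h1 hne
      · exact h1
    have h2 : (∑ u : H, if u ∈ R then g u else 0)
        = ∑ u : H, if u₀ * u ∈ R then g (u₀ * u) else 0 :=
      (Fintype.sum_equiv (Equiv.mulLeft u₀) _ _ (fun u => rfl)).symm
    have h3 : (∑ u : H, if u₀ * u ∈ R then g (u₀ * u) else 0)
        = - ∑ u : H, if u ∈ R then g u else 0 := by
      rw [← Finset.sum_neg_distrib]
      apply Finset.sum_congr rfl
      intro u _
      by_cases hu : u ∈ R
      · rw [if_pos hu, if_pos (R.mul_mem hu₀ hu), hmul u₀ hu₀ u hu, hg0]; ring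
      · rw [if_neg hu, if_neg (fun h' => hu ((Subgroup.mul_mem_cancel_left R hu₀).1 h'))]; ring
    linarith

lemma sum_hom (g : H → ℤ) (hmul : ∀ u v, g (u * v) = g u * g v)
    (hpm : ∀ u, g u = 1 ∨ g u = -1) :
    ((∀ u, g u = 1) → (∑ u : H, g u) = (Fintype.card H : ℤ)) ∧
    ((¬ ∀ u, g u = 1) → (∑ u : H, g u) = 0) := by
  classical
  have h := sum_pm (⊤ : Subgroup H) g (fun u _ v _ => hmul u v) (fun u _ => hpm u)
  have e : (∑ u : H, if u ∈ (⊤ : Subgroup H) then g u else 0) = ∑ u : H, g u := by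
    apply Finset.sum_congr rfl
    intro u _
    rw [if_pos (Subgroup.mem_top u)]
  rw [e] at h
  constructor
  · intro h1
    rw [h.1 (fun u _ => h1 u), Subgroup.card_top, Nat.card_eq_fintype_card]
  · intro h1
    exact h.2 (fun h2 => h1 (fun u => h2 u (Subgroup.mem_top u)))

/-- the Gauss sum of a quadratic form with values `±1` -/
lemma gauss (f : H → ℤ) (χ : H → H → ℤ)
    (hf : ∀ x, f x = 1 ∨ f x = -1) (hχ : ∀ x u, χ x u = 1 ∨ χ x u = -1)
    (hmul : ∀ x u, f (x * u) = f x * χ x u * f u)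
    (hχl : ∀ x y u, χ (x * y) u = χ x u * χ y u)
    (hχr : ∀ x u v, χ x (u * v) = χ x u * χ x v) :
    ∃ ρ : ℕ, ρ ∣ Fintype.card H ∧
      ((∑ x, f x) ^ 2 = 0 ∨ (∑ x, f x) ^ 2 = (Fintype.card H : ℤ) * ρ) := by
  classical
  have hχ1 : ∀ x, χ x 1 = 1 := by
    intro x
    have h := hχr x 1 1
    rw [mul_one] at h
    rcases hχ x 1 with h1 | h1
    · exact h1
    · rw [h1] at h; norm_num at h
  let R : Subgroup H :=
    { carrier := {u | ∀ x, χ x u = 1}
      one_mem' := hχ1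
      mul_mem' := by
        intro u v hu hv x
        rw [hχr, hu x, hv x, mul_one]
      inv_mem' := by
        intro u hu x
        have h := hχr x u u⁻¹
        rw [mul_inv_cancel, hχ1, hu x, one_mul] at h
        exact h.symm }
  have hR : ∀ u, u ∈ R ↔ ∀ x, χ x u = 1 := fun u => Iff.rfl
  have hff : ∀ x, f x * f x = 1 := by
    intro x
    rcases hf x with h | h <;> rw [h] <;> norm_num
  have hinner : ∀ u, (∑ x, χ x u) = if u ∈ R then (Fintype.card H : ℤ) else 0 := by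
    intro u
    have hs := sum_hom (fun x => χ x u) (fun x y => hχl x y u) (fun x => hχ x u)
    by_cases hu : u ∈ R
    · rw [if_pos hu]; exact hs.1 ((hR u).1 hu)
    · rw [if_neg hu]; exact hs.2 (fun h' => hu ((hR u).2 h'))
  have h1 : (∑ x, f x) ^ 2 = ∑ x, ∑ u, f x * f (x * u) := by
    rw [sq, Finset.sum_mul_sum]
    apply Finset.sum_congr rfl
    intro x _
    exact (Fintype.sum_equiv (Equiv.mulLeft x) (fun u => f x * f (x * u)) (fun y => f x * f y)
      (fun u => rfl)).symm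
  have h2 : (∑ x, ∑ u, f x * f (x * u)) = ∑ u, (∑ x, χ x u) * f u := by
    rw [Finset.sum_comm]
    apply Finset.sum_congr rfl
    intro u _
    rw [Finset.sum_mul]
    apply Finset.sum_congr rfl
    intro x _
    rw [hmul]
    calc f x * (f x * χ x u * f u) = (f x * f x) * χ x u * f u := by ring
      _ = χ x u * f u := by rw [hff, one_mul]
  have h3 : (∑ u, (∑ x, χ x u) * f u)
      = (Fintype.card H : ℤ) * ∑ u, if u ∈ R then f u else 0 := by
    rw [Finset.mul_sum]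
    apply Finset.sum_congr rfl
    intro u _
    rw [hinner]
    by_cases hu : u ∈ R
    · rw [if_pos hu, if_pos hu]
    · rw [if_neg hu, if_neg hu]; ring
  have h4 := sum_pm R f (by
      intro u _ v hv
      rw [hmul, (hR v).1 hv u, mul_one]) (fun u _ => hf u)
  refine ⟨Nat.card R, ?_, ?_⟩
  · rw [← Nat.card_eq_fintype_card]
    exact Subgroup.card_subgroup_dvd_card R
  · rw [h1, h2, h3]
    by_cases h : ∀ u ∈ R, f u = 1
    · right; rw [h4.1 h]
    · left; rw [h4.2 h, mul_zero]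

end sums

lemma arith (m n ρ : ℕ) (h1 : 2 ^ m = 4 + 3 * n) (h3 : 3 ∣ n) (hn : 0 < n) (hρ : ρ ∣ 2 ^ m)
    (hS : ((4 : ℤ) - n) ^ 2 = 0 ∨ ((4 : ℤ) - n) ^ 2 = ((2 ^ m : ℕ) : ℤ) * ρ) : False := by
  rcases hS with hS | hS
  · have h4 : (4 : ℤ) - n = 0 := by exact pow_eq_zero_iff (by norm_num) |>.1 hS
    have h5 : n = 4 := by omega
    omega
  · have h6 : ((2 ^ m : ℕ) : ℤ) ∣ 256 := by
      refine ⟨9 * (ρ : ℤ) - 3 * n + 28, ?_⟩
      have h1' : ((2 ^ m : ℕ) : ℤ) = 4 + 3 * n := by exact_mod_cast h1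
      rw [h1'] at hS ⊢
      nlinarith
    have h7 : 2 ^ m ∣ 2 ^ 8 := by
      have : (2 ^ m : ℕ) ∣ 256 := by exact_mod_cast h6
      simpa using this
    have h8 : m ≤ 8 := (Nat.pow_dvd_pow_iff_le_right (by norm_num)).1 h7
    interval_cases m <;> norm_num at h1 <;> try omega
    have h9 : n = 84 := by omega
    subst h9
    norm_num at hS
    have h10 : ρ = 25 := by omega
    subst h10
    norm_num at hρ


section core
variable {S : Type*} [Group S] [Finite S]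

/-- a commutator -/
def kk (x u : S) : S := x⁻¹ * u * x * u⁻¹

omit [Finite S] in
lemma sq_mul (x u : S) : (x * u) ^ 2 = x ^ 2 * kk x u * u ^ 2 := by
  unfold kk; simp only [pow_two]; group

/-- a minimal invariant subgroup of `Q` containing `Z` on which `c` acts nontrivially -/
structure MinBad (Q Z P : Subgroup S) (c d : S) : Prop where
  hQ : IsPGroup 2 Q
  hZP : Z ≤ P
  hPQ : P ≤ Q
  hZcen : ∀ z ∈ Z, ∀ x ∈ Q, z * x = x * z
  hZ4 : Nat.card Z = 4
  hZ2 : ∀ z ∈ Z, z ^ 2 = 1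
  hinv : ∀ x ∈ Q, x ^ 2 = 1 → x ∈ Z
  hc3 : c ^ 3 = 1
  hcZ : ∀ z ∈ Z, cj c z = z
  hdZ : ∀ z ∈ Z, cj d z ∈ Z
  hdfix : ∀ z ∈ Z, cj d z = z → z = 1
  hcd : c * d = d * c
  hcP : ∀ x ∈ P, cj c x ∈ P
  hdP : ∀ x ∈ P, cj d x ∈ P
  hbad : ¬ ∀ x ∈ P, cj c x = x
  hmin : ∀ P' : Subgroup S, P' ≤ P → Z ≤ P' → (∀ x ∈ P', cj c x ∈ P') →
    (∀ x ∈ P', cj d x ∈ P') → P' ≠ P → ∀ x ∈ P', cj c x = x

namespace MinBad
variable {Q Z P : Subgroup S} {c d : S} (h : MinBad Q Z P c d)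
include h

omit [Finite S] in
lemma three_tor {a : S} (ha : a ∈ P) (h3 : a ^ 3 = 1) : a = 1 := by
  obtain ⟨k, hk⟩ := h.hQ ⟨a, h.hPQ ha⟩
  have hk' : a ^ 2 ^ k = 1 := by simpa using congrArg Subtype.val hk
  have h1 : orderOf a ∣ 3 := orderOf_dvd_of_pow_eq_one h3
  have h2 : orderOf a ∣ 2 ^ k := orderOf_dvd_of_pow_eq_one hk'
  have h4 : Nat.Coprime 3 (2 ^ k) := Nat.Coprime.pow_right k (by norm_num)
  have h5 : orderOf a = 1 := Nat.eq_one_of_dvd_coprimes h4 h1 h2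
  exact orderOf_eq_one_iff.1 h5

omit [Finite S] in
lemma fix_of_comm {x : S} (hx : x ∈ P) (hfix : cj c (x⁻¹ * cj c x) = x⁻¹ * cj c x) :
    cj c x = x := by
  have haP : x⁻¹ * cj c x ∈ P := P.mul_mem (P.inv_mem hx) (h.hcP x hx)
  obtain ⟨a, ha_def⟩ : ∃ a, a = x⁻¹ * cj c x := ⟨_, rfl⟩
  rw [← ha_def] at haP hfix
  have hxa : cj c x = x * a := by rw [ha_def]; group
  have e2 : cj c (cj c x) = x * a * a := by rw [hxa, cj_mul, hfix, hxa]
  have e3 : cj c (cj c (cj c x)) = x * a * a * a := by rw [e2, cj_mul, cj_mul, hfix, hxa]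
  have e4 : x * a * a * a = x := by rw [← e3, cj_cube h.hc3]
  have e5 : a ^ 3 = 1 := by
    calc a ^ 3 = x⁻¹ * (x * a * a * a) := by rw [pow_succ, pow_two]; group
      _ = x⁻¹ * x := by rw [e4]
      _ = 1 := by group
  rw [hxa, h.three_tor haP e5, mul_one]

omit [Finite S] in
lemma gen : P ≤ Subgroup.closure ((Z : Set S) ∪ {a | ∃ x ∈ P, a = x⁻¹ * cj c x}) := by
  have hTP : Subgroup.closure ((Z : Set S) ∪ {a | ∃ x ∈ P, a = x⁻¹ * cj c x}) ≤ P := by
    rw [Subgroup.closure_le]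
    rintro y (hy | ⟨x, hx, rfl⟩)
    · exact h.hZP hy
    · exact P.mul_mem (P.inv_mem hx) (h.hcP x hx)
  have hZT : Z ≤ Subgroup.closure ((Z : Set S) ∪ {a | ∃ x ∈ P, a = x⁻¹ * cj c x}) :=
    fun z hz => Subgroup.subset_closure (Or.inl hz)
  have hcT : ∀ y ∈ Subgroup.closure ((Z : Set S) ∪ {a | ∃ x ∈ P, a = x⁻¹ * cj c x}),
      cj c y ∈ Subgroup.closure ((Z : Set S) ∪ {a | ∃ x ∈ P, a = x⁻¹ * cj c x}) := by
    intro y hy
    induction hy using Subgroup.closure_induction with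
    | mem y hy =>
      rcases hy with hy | ⟨x, hx, rfl⟩
      · rw [h.hcZ y hy]; exact Subgroup.subset_closure (Or.inl hy)
      · rw [cj_mul, cj_inv]
        exact Subgroup.subset_closure (Or.inr ⟨cj c x, h.hcP x hx, rfl⟩)
    | one => rw [cj_one']; exact Subgroup.one_mem _
    | mul y z _ _ hy hz => rw [cj_mul]; exact Subgroup.mul_mem _ hy hz
    | inv y _ hy => rw [cj_inv]; exact Subgroup.inv_mem _ hy
  have hdT : ∀ y ∈ Subgroup.closure ((Z : Set S) ∪ {a | ∃ x ∈ P, a = x⁻¹ * cj c x}),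
      cj d y ∈ Subgroup.closure ((Z : Set S) ∪ {a | ∃ x ∈ P, a = x⁻¹ * cj c x}) := by
    intro y hy
    induction hy using Subgroup.closure_induction with
    | mem y hy =>
      rcases hy with hy | ⟨x, hx, rfl⟩
      · exact Subgroup.subset_closure (Or.inl (h.hdZ y hy))
      · rw [cj_mul, cj_inv, ← cj_comm h.hcd]
        exact Subgroup.subset_closure (Or.inr ⟨cj d x, h.hdP x hx, rfl⟩)
    | one => rw [cj_one']; exact Subgroup.one_mem _
    | mul y z _ _ hy hz => rw [cj_mul]; exact Subgroup.mul_mem _ hy hz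
    | inv y _ hy => rw [cj_inv]; exact Subgroup.inv_mem _ hy
  by_contra hne
  have hne' : Subgroup.closure ((Z : Set S) ∪ {a | ∃ x ∈ P, a = x⁻¹ * cj c x}) ≠ P :=
    fun e => hne (by rw [e])
  have hfix := h.hmin _ hTP hZT hcT hdT hne'
  apply h.hbad
  intro x hx
  apply h.fix_of_comm hx
  exact hfix _ (Subgroup.subset_closure (Or.inr ⟨x, hx, rfl⟩))

omit [Finite S] in
lemma ind (K : Subgroup S) (hZK : Z ≤ K) (hK : ∀ x ∈ P, x⁻¹ * cj c x ∈ K) : P ≤ K := by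
  refine le_trans h.gen ?_
  rw [Subgroup.closure_le]
  rintro y (hy | ⟨x, hx, rfl⟩)
  · exact hZK hy
  · exact hK x hx

lemma card_gt : 4 < Nat.card P := by
  by_contra hle
  push Not at hle
  have : Z = P := Subgroup.eq_of_le_of_card_ge h.hZP (by rw [h.hZ4]; exact hle)
  apply h.hbad
  intro x hx
  exact h.hcZ x (this ▸ hx)

lemma fixF : ∀ y ∈ Subgroup.closure ((Z : Set S) ∪ {y | ∃ x ∈ P, y = x ^ 2}), cj c y = y := by
  have hTP : Subgroup.closure ((Z : Set S) ∪ {y | ∃ x ∈ P, y = x ^ 2}) ≤ P := by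
    rw [Subgroup.closure_le]
    rintro y (hy | ⟨x, hx, rfl⟩)
    · exact h.hZP hy
    · exact P.pow_mem hx 2
  have hZT : Z ≤ Subgroup.closure ((Z : Set S) ∪ {y | ∃ x ∈ P, y = x ^ 2}) :=
    fun z hz => Subgroup.subset_closure (Or.inl hz)
  have hgT : ∀ g : S, (∀ z ∈ Z, cj g z ∈ Z) → (∀ x ∈ P, cj g x ∈ P) →
      ∀ y ∈ Subgroup.closure ((Z : Set S) ∪ {y | ∃ x ∈ P, y = x ^ 2}),
      cj g y ∈ Subgroup.closure ((Z : Set S) ∪ {y | ∃ x ∈ P, y = x ^ 2}) := by
    intro g hgZ hgP y hy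
    induction hy using Subgroup.closure_induction with
    | mem y hy =>
      rcases hy with hy | ⟨x, hx, rfl⟩
      · exact Subgroup.subset_closure (Or.inl (hgZ y hy))
      · rw [cj_pow]; exact Subgroup.subset_closure (Or.inr ⟨cj g x, hgP x hx, rfl⟩)
    | one => rw [cj_one']; exact Subgroup.one_mem _
    | mul y z _ _ hy hz => rw [cj_mul]; exact Subgroup.mul_mem _ hy hz
    | inv y _ hy => rw [cj_inv]; exact Subgroup.inv_mem _ hy
  have hne : Subgroup.closure ((Z : Set S) ∪ {y | ∃ x ∈ P, y = x ^ 2}) ≠ P := by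
    intro heq
    have : Fact (Nat.Prime 2) := ⟨Nat.prime_two⟩
    have hP2 : IsPGroup 2 P := h.hQ.to_le h.hPQ
    obtain ⟨m, hm⟩ := IsPGroup.iff_card.1 hP2
    have hgt := h.card_gt
    have hm3 : 3 ≤ m := by
      by_contra hm3
      push Not at hm3
      have h22 : 2 ^ m ≤ 2 ^ 2 := Nat.pow_le_pow_right (by norm_num) (by omega)
      norm_num at h22
      omega
    have hZp : Nat.card (Z.subgroupOf P) = 2 ^ 2 := by
      rw [Nat.card_congr (Subgroup.subgroupOfEquivOfLe h.hZP).toEquiv, h.hZ4]; norm_num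
    obtain ⟨K, hK, hZK⟩ := Sylow.exists_subgroup_card_pow_prime_le 2 (m := m - 1)
      (by rw [hm]; exact pow_dvd_pow 2 (by omega)) (Z.subgroupOf P) hZp (by omega)
    have hidx : K.index = 2 := by
      have hci := K.card_mul_index
      rw [hK, hm] at hci
      have e : 2 ^ m = 2 ^ (m - 1) * 2 := by
        rw [← pow_succ]; congr 1; omega
      rw [e] at hci
      exact Nat.eq_of_mul_eq_mul_left (by positivity) hci
    have hTK : Subgroup.closure ((Z : Set S) ∪ {y | ∃ x ∈ P, y = x ^ 2}) ≤ K.map P.subtype := by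
      rw [Subgroup.closure_le]
      rintro y (hy | ⟨x, hx, rfl⟩)
      · exact ⟨⟨y, h.hZP hy⟩, hZK (by rw [Subgroup.mem_subgroupOf]; exact hy), rfl⟩
      · exact ⟨⟨x, hx⟩ ^ 2, Subgroup.sq_mem_of_index_two hidx _, rfl⟩
    rw [heq] at hTK
    have hle : Nat.card P ≤ Nat.card (K.map P.subtype) := Subgroup.card_le_of_le hTK
    rw [Subgroup.card_map_of_injective P.subtype_injective, hK, hm] at hle
    have hlt : 2 ^ (m - 1) < 2 ^ m := Nat.pow_lt_pow_right (by norm_num) (by omega)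
    omega
  exact h.hmin _ hTP hZT (hgT c (fun z hz => by rw [h.hcZ z hz]; exact hz) h.hcP)
    (hgT d h.hdZ h.hdP) hne

lemma sq_fixed {x : S} (hx : x ∈ P) : cj c (x ^ 2) = x ^ 2 :=
  h.fixF _ (Subgroup.subset_closure (Or.inr ⟨x, hx, rfl⟩))

lemma kk_fixed {x u : S} (hx : x ∈ P) (hu : u ∈ P) : cj c (kk x u) = kk x u := by
  apply h.fixF
  have e : kk x u = (x⁻¹) ^ 2 * (x * u) ^ 2 * (u⁻¹) ^ 2 := by
    unfold kk; simp only [pow_two]; group
  rw [e]
  have hmem : ∀ y ∈ P, y ^ 2 ∈ Subgroup.closure ((Z : Set S) ∪ {y | ∃ x ∈ P, y = x ^ 2}) :=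
    fun y hy => Subgroup.subset_closure (Or.inr ⟨y, hy, rfl⟩)
  exact Subgroup.mul_mem _ (Subgroup.mul_mem _ (hmem _ (P.inv_mem hx))
    (hmem _ (P.mul_mem hx hu))) (hmem _ (P.inv_mem hu))

omit [Finite S] h in
lemma kk_mem {x u : S} (hx : x ∈ P) (hu : u ∈ P) : kk x u ∈ P := by
  unfold kk; exact P.mul_mem (P.mul_mem (P.mul_mem (P.inv_mem hx) hu) hx) (P.inv_mem hu)

lemma central {a : S} (ha : a ∈ P) (hfa : cj c a = a) : ∀ x ∈ P, a * x = x * a := by
  have hK : P ≤ Subgroup.centralizer {a} := by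
    apply h.ind
    · intro z hz
      rw [Subgroup.mem_centralizer_iff]
      intro y hy
      rw [Set.mem_singleton_iff] at hy
      rw [hy]
      exact (h.hZcen z hz a (h.hPQ ha)).symm
    · intro x hx
      rw [Subgroup.mem_centralizer_iff]
      intro y hy
      rw [Set.mem_singleton_iff] at hy
      rw [hy]
      have h1 : c * a = a * c := (cj_eq_iff c a).1 hfa
      have h1' : a * c⁻¹ = c⁻¹ * a := by
        rw [eq_inv_mul_iff_mul_eq, ← mul_assoc, h1, mul_assoc, mul_inv_cancel, mul_one]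
      have h2 : cj c (x * a * x⁻¹) = x * a * x⁻¹ := by
        have e : x * a * x⁻¹ = a * kk a x := by unfold kk; group
        rw [e, cj_mul, hfa, h.kk_fixed ha hx]
      have h2' : c * (x * a * x⁻¹) = x * a * x⁻¹ * c := (cj_eq_iff c _).1 h2
      have e1 : x⁻¹ * c * x * a = a * x⁻¹ * c * x := by
        have l : x⁻¹ * (c * (x * a * x⁻¹)) * x = x⁻¹ * c * x * a := by group
        have r : x⁻¹ * (x * a * x⁻¹ * c) * x = a * x⁻¹ * c * x := by group
        rw [← l, ← r, h2']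
      unfold cj
      calc a * (x⁻¹ * (c * x * c⁻¹)) = (a * x⁻¹ * c * x) * c⁻¹ := by group
        _ = (x⁻¹ * c * x * a) * c⁻¹ := by rw [e1]
        _ = x⁻¹ * c * x * (a * c⁻¹) := by group
        _ = x⁻¹ * c * x * (c⁻¹ * a) := by rw [h1']
        _ = x⁻¹ * (c * x * c⁻¹) * a := by group
  intro x hx
  have hx' := hK hx
  rw [Subgroup.mem_centralizer_iff] at hx'
  exact hx' a rfl

lemma sq_central {x y : S} (hx : x ∈ P) (hy : y ∈ P) : x ^ 2 * y = y * x ^ 2 :=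
  h.central (P.pow_mem hx 2) (h.sq_fixed hx) y hy

lemma kk_central {x u w : S} (hx : x ∈ P) (hu : u ∈ P) (hw : w ∈ P) :
    kk x u * w = w * kk x u :=
  h.central (kk_mem hx hu) (h.kk_fixed hx hu) w hw

lemma kk_mul_left {x y u : S} (hx : x ∈ P) (hy : y ∈ P) (hu : u ∈ P) :
    kk (x * y) u = kk x u * kk y u := by
  have hc := h.kk_central hx hu (P.inv_mem hy)
  calc kk (x * y) u = y⁻¹ * kk x u * (u * y * u⁻¹) := by unfold kk; group
    _ = kk x u * y⁻¹ * (u * y * u⁻¹) := by rw [hc]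
    _ = kk x u * kk y u := by unfold kk; group

lemma kk_mul_right {x u v : S} (hx : x ∈ P) (hu : u ∈ P) (hv : v ∈ P) :
    kk x (u * v) = kk x u * kk x v := by
  have hc := h.kk_central hx hv (P.inv_mem hu)
  calc kk x (u * v) = x⁻¹ * u * x * (kk x v * u⁻¹) := by unfold kk; group
    _ = x⁻¹ * u * x * (u⁻¹ * kk x v) := by rw [hc]
    _ = kk x u * kk x v := by unfold kk; group

lemma kk_sq {x u : S} (hx : x ∈ P) (hu : u ∈ P) : kk x u ^ 2 = 1 := by
  rw [pow_two, ← h.kk_mul_left hx hx hu, ← pow_two]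
  have e := h.sq_central hx hu
  unfold kk
  calc (x ^ 2)⁻¹ * u * x ^ 2 * u⁻¹ = (x ^ 2)⁻¹ * (u * x ^ 2) * u⁻¹ := by group
    _ = (x ^ 2)⁻¹ * (x ^ 2 * u) * u⁻¹ := by rw [e]
    _ = 1 := by group

lemma kk_mem_Z {x u : S} (hx : x ∈ P) (hu : u ∈ P) : kk x u ∈ Z :=
  h.hinv _ (h.hPQ (kk_mem hx hu)) (h.kk_sq hx hu)

lemma pow4_mul {x u : S} (hx : x ∈ P) (hu : u ∈ P) : (x * u) ^ 4 = x ^ 4 * u ^ 4 := by
  have hc1 : Commute (x ^ 2) (kk x u) := h.sq_central hx (kk_mem hx hu)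
  have hc2 : Commute (x ^ 2 * kk x u) (u ^ 2) :=
    (h.sq_central hu (P.mul_mem (P.pow_mem hx 2) (kk_mem hx hu))).symm
  calc (x * u) ^ 4 = ((x * u) ^ 2) ^ 2 := by rw [← pow_mul]
    _ = (x ^ 2 * kk x u * u ^ 2) ^ 2 := by rw [sq_mul]
    _ = (x ^ 2) ^ 2 * (kk x u) ^ 2 * (u ^ 2) ^ 2 := by rw [hc2.mul_pow, hc1.mul_pow]
    _ = x ^ 4 * u ^ 4 := by rw [h.kk_sq hx hu, mul_one, ← pow_mul, ← pow_mul]

lemma pow4 : ∀ x ∈ P, x ^ 4 = 1 := by
  have key : ∀ y ∈ Subgroup.closure ((Z : Set S) ∪ {a | ∃ x ∈ P, a = x⁻¹ * cj c x}),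
      y ∈ P ∧ y ^ 4 = 1 := by
    intro y hy
    induction hy using Subgroup.closure_induction with
    | mem y hy =>
      rcases hy with hy | ⟨x, hx, rfl⟩
      · refine ⟨h.hZP hy, ?_⟩
        rw [show (4 : ℕ) = 2 * 2 from rfl, pow_mul, h.hZ2 y hy, one_pow]
      · have hx' := P.inv_mem hx
        have hcx := h.hcP x hx
        refine ⟨P.mul_mem hx' hcx, ?_⟩
        rw [h.pow4_mul hx' hcx, ← cj_pow, show (4 : ℕ) = 2 * 2 from rfl, pow_mul x, cj_pow,
          h.sq_fixed hx, ← pow_mul, inv_pow, inv_mul_cancel]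
    | one => exact ⟨P.one_mem, one_pow 4⟩
    | mul y z _ _ hy hz =>
      exact ⟨P.mul_mem hy.1 hz.1, by rw [h.pow4_mul hy.1 hz.1, hy.2, hz.2, one_mul]⟩
    | inv y _ hy => exact ⟨P.inv_mem hy.1, by rw [inv_pow, hy.2, inv_one]⟩
  intro x hx
  exact (key x (h.gen hx)).2

lemma sq_mem_Z {x : S} (hx : x ∈ P) : x ^ 2 ∈ Z := by
  apply h.hinv _ (h.hPQ (P.pow_mem hx 2))
  rw [← pow_mul]; exact h.pow4 x hx

lemma fix_mem_Z {a : S} (ha : a ∈ P) (hfa : cj c a = a) : a ∈ Z := by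
  by_contra haZ
  have hz0 : a ^ 2 ∈ Z := h.sq_mem_Z ha
  have hz01 : a ^ 2 ≠ 1 := fun e => haZ (h.hinv a (h.hPQ ha) e)
  have hZc : ∀ a ∈ Z, ∀ b ∈ Z, a * b = b * a :=
    fun a ha b hb => h.hZcen a ha b (h.hPQ (h.hZP hb))
  obtain ⟨-, -, h3, -, hcases⟩ := v4_fpf Z h.hZ4 h.hZ2 hZc d h.hdZ h.hdfix hz0 hz01
  have hda : cj d a ∈ P := h.hdP a ha
  have hda' : cj c (cj d a) = cj d a := by rw [cj_comm h.hcd, hfa]
  have hroot : ∀ z ∈ Z, ∃ b ∈ P, cj c b = b ∧ b ^ 2 = z := by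
    intro z hz
    rcases hcases z hz with e | e | e | e
    · exact ⟨1, P.one_mem, cj_one' c, by rw [e, one_pow]⟩
    · exact ⟨a, ha, hfa, e.symm⟩
    · exact ⟨cj d a, hda, hda', by rw [e, cj_pow]⟩
    · refine ⟨cj d (cj d a), h.hdP _ hda, by rw [cj_comm h.hcd, hda'], ?_⟩
      rw [e, ← h3, cj_pow, cj_pow]
  apply h.hbad
  intro x hx
  obtain ⟨b, hb, hfb, hb2⟩ := hroot _ (h.sq_mem_Z hx)
  have hbx : Commute x b⁻¹ :=
    Commute.inv_right (show Commute x b from (h.central hb hfb x hx).symm)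
  have hy : x * b⁻¹ ∈ P := P.mul_mem hx (P.inv_mem hb)
  have hy2 : (x * b⁻¹) ^ 2 = 1 := by
    rw [hbx.mul_pow, inv_pow, hb2, mul_inv_cancel]
  have hyZ : x * b⁻¹ ∈ Z := h.hinv _ (h.hPQ hy) hy2
  have e : cj c x = cj c ((x * b⁻¹) * b) := by rw [inv_mul_cancel_right]
  rw [e, cj_mul, h.hcZ _ hyZ, hfb, inv_mul_cancel_right]

omit [Finite S] in
open Classical in
lemma fib_one [Fintype S] :
    (Finset.univ.filter (fun x : S => x ∈ P ∧ x ^ 2 = 1)).card = 4 := by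
  have e : Finset.univ.filter (fun x : S => x ∈ P ∧ x ^ 2 = 1)
      = Finset.univ.filter (fun x : S => x ∈ Z) := by
    ext x
    simp only [Finset.mem_filter, Finset.mem_univ, true_and]
    exact ⟨fun hx => h.hinv x (h.hPQ hx.1) hx.2, fun hx => ⟨h.hZP hx, h.hZ2 x hx⟩⟩
  rw [e, ← h.hZ4, Nat.card_eq_fintype_card, Fintype.card_subtype]

omit [Finite S] in
open Classical in
lemma fib_le [Fintype S] (z : S) :
    (Finset.univ.filter (fun x : S => x ∈ P ∧ x ^ 2 = z)).card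
      ≤ (Finset.univ.filter (fun x : S => x ∈ P ∧ x ^ 2 = cj d z)).card := by
  apply Finset.card_le_card_of_injOn (cj d)
  · intro x hx
    simp only [Finset.coe_filter, Finset.mem_univ, true_and, Set.mem_ofPred_eq] at hx ⊢
    exact ⟨h.hdP x hx.1, by rw [← cj_pow, hx.2]⟩
  · intro x _ y _ hxy
    exact cj_inj d hxy

open Classical in
lemma fib_dvd [Fintype S] {z : S} (hz1 : z ≠ 1) :
    3 ∣ (Finset.univ.filter (fun x : S => x ∈ P ∧ x ^ 2 = z)).card := by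
  have hmem : ∀ x : S, x ∈ Finset.univ.filter (fun x : S => x ∈ P ∧ x ^ 2 = z)
      ↔ x ∈ P ∧ x ^ 2 = z := by
    intro x; simp
  let f : Function.End (Finset.univ.filter (fun x : S => x ∈ P ∧ x ^ 2 = z)) :=
    fun x => ⟨cj c x.1, (hmem _).2 ⟨h.hcP _ ((hmem _).1 x.2).1, by
      rw [← cj_pow, h.sq_fixed ((hmem _).1 x.2).1]; exact ((hmem _).1 x.2).2⟩⟩
  have : Fact (Nat.Prime 3) := ⟨Nat.prime_three⟩
  have hf : f ^ 3 ^ 1 = 1 := by
    rw [pow_one]
    funext x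
    apply Subtype.ext
    show cj c (cj c (cj c x.1)) = x.1
    exact cj_cube h.hc3 _
  have hmod := Equiv.Perm.card_fixedPoints_modEq (p := 3) (n := 1) hf
  have hempty : Fintype.card (Function.fixedPoints f) = 0 := by
    rw [Fintype.card_eq_zero_iff]
    constructor
    rintro ⟨x, hx⟩
    have hx' : cj c x.1 = x.1 := congrArg Subtype.val hx
    have hxP := ((hmem _).1 x.2).1
    have hxZ := h.fix_mem_Z hxP hx'
    have h2 := h.hZ2 _ hxZ
    rw [((hmem _).1 x.2).2] at h2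
    exact hz1 h2
  rw [hempty, Fintype.card_coe] at hmod
  exact (Nat.modEq_zero_iff_dvd).1 hmod

open Classical in
lemma sum_fib [Fintype S] [Fintype P] {z₁ : S} (hz₁ : z₁ ∈ Z) (hz₁1 : z₁ ≠ 1) (φ : S → ℤ) :
    ∑ x : P, φ ((x : S) ^ 2) = 4 * φ 1
      + ((Finset.univ.filter (fun x : S => x ∈ P ∧ x ^ 2 = z₁)).card : ℤ)
        * (φ z₁ + φ (cj d z₁) + φ (z₁ * cj d z₁)) := by
  have hZc : ∀ a ∈ Z, ∀ b ∈ Z, a * b = b * a :=
    fun a ha b hb => h.hZcen a ha b (h.hPQ (h.hZP hb))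
  obtain ⟨h2, h3, h4, h5, hcases⟩ := v4_fpf Z h.hZ4 h.hZ2 hZc d h.hdZ h.hdfix hz₁ hz₁1
  have a1 := h.fib_le z₁
  have a2 := h.fib_le (cj d z₁)
  have a3 := h.fib_le (z₁ * cj d z₁)
  rw [h4] at a2
  rw [h5] at a3
  obtain ⟨z₂, hz₂⟩ : ∃ z₂, z₂ = cj d z₁ := ⟨_, rfl⟩
  rw [← hz₂] at h2 h3 a1 a2 a3 hcases ⊢
  have hb : ∑ x : P, φ ((x : S) ^ 2) = ∑ x ∈ Finset.univ.filter (fun x : S => x ∈ P), φ (x ^ 2) :=
    (Finset.sum_subtype _ (by simp) (fun x => φ (x ^ 2))).symm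
  have hmaps : ∀ x ∈ Finset.univ.filter (fun x : S => x ∈ P),
      x ^ 2 ∈ ({1, z₁, z₂, z₁ * z₂} : Finset S) := by
    intro x hx
    have hxP : x ∈ P := by simpa using hx
    have hc := hcases _ (h.sq_mem_Z hxP)
    simp only [Finset.mem_insert, Finset.mem_singleton]
    exact hc
  have hinner : ∀ b : S, ∑ x ∈ (Finset.univ.filter (fun x : S => x ∈ P)).filter
      (fun x => x ^ 2 = b), φ (x ^ 2)
      = ((Finset.univ.filter (fun x : S => x ∈ P ∧ x ^ 2 = b)).card : ℤ) * φ b := by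
    intro b
    rw [Finset.filter_filter]
    have hc : ∀ x ∈ Finset.univ.filter (fun x : S => x ∈ P ∧ x ^ 2 = b), φ (x ^ 2) = φ b := by
      intro x hx
      simp only [Finset.mem_filter, Finset.mem_univ, true_and] at hx
      rw [hx.2]
    rw [Finset.sum_congr rfl hc, Finset.sum_const, nsmul_eq_mul]
  have hz₁z₁ : z₁ * z₁ = 1 := by rw [← pow_two]; exact h.hZ2 z₁ hz₁
  have d1 : z₁ * z₂ ≠ 1 := fun e => h3 (mul_left_cancel (e.trans hz₁z₁.symm))
  have d2 : z₁ ≠ z₁ * z₂ := fun e => h2 (by simpa using e.symm)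
  have d3 : z₂ ≠ z₁ * z₂ := fun e => hz₁1 (by simpa using e.symm)
  rw [hb, ← Finset.sum_fiberwise_of_maps_to hmaps]
  simp only [hinner]
  rw [Finset.sum_insert, Finset.sum_insert, Finset.sum_insert, Finset.sum_singleton, h.fib_one]
  · have e2 : (Finset.univ.filter (fun x : S => x ∈ P ∧ x ^ 2 = z₂)).card
        = (Finset.univ.filter (fun x : S => x ∈ P ∧ x ^ 2 = z₁)).card := by omega
    have e3 : (Finset.univ.filter (fun x : S => x ∈ P ∧ x ^ 2 = z₁ * z₂)).card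
        = (Finset.univ.filter (fun x : S => x ∈ P ∧ x ^ 2 = z₁)).card := by omega
    rw [e2, e3]
    push_cast
    ring
  · simp only [Finset.mem_singleton]; exact d3
  · simp only [Finset.mem_insert, Finset.mem_singleton, not_or]
    exact ⟨Ne.symm h3, d2⟩
  · simp only [Finset.mem_insert, Finset.mem_singleton, not_or]
    exact ⟨Ne.symm hz₁1, Ne.symm h2, Ne.symm d1⟩

lemma contra : False := by
  classical
  let _ : Fintype S := Fintype.ofFinite S
  let _ : Fintype P := Fintype.ofFinite P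
  have hZc : ∀ a ∈ Z, ∀ b ∈ Z, a * b = b * a :=
    fun a ha b hb => h.hZcen a ha b (h.hPQ (h.hZP hb))
  obtain ⟨z₁, hz₁, hz₁1⟩ : ∃ z ∈ Z, z ≠ 1 := by
    by_contra hcon
    push Not at hcon
    have hbot : Z = ⊥ := (Subgroup.eq_bot_iff_forall Z).2 hcon
    have h4 := h.hZ4
    rw [hbot, Subgroup.card_bot] at h4
    norm_num at h4
  obtain ⟨h2, h3, h4, h5, hcases⟩ := v4_fpf Z h.hZ4 h.hZ2 hZc d h.hdZ h.hdfix hz₁ hz₁1
  have hz₂ : cj d z₁ ∈ Z := h.hdZ z₁ hz₁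
  have hK2 : Nat.card (Subgroup.zpowers z₁) = 2 := by
    have : Fact (Nat.Prime 2) := ⟨Nat.prime_two⟩
    rw [Nat.card_zpowers]; exact orderOf_eq_prime (h.hZ2 z₁ hz₁) hz₁1
  have hKZ : Subgroup.zpowers z₁ ≤ Z := by rw [Subgroup.zpowers_le]; exact hz₁
  have hidx : ((Subgroup.zpowers z₁).subgroupOf Z).index = 2 := by
    have hci := ((Subgroup.zpowers z₁).subgroupOf Z).card_mul_index
    rw [Nat.card_congr (Subgroup.subgroupOfEquivOfLe hKZ).toEquiv, hK2, h.hZ4] at hci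
    omega
  have hKmul : ∀ a ∈ Z, ∀ b ∈ Z, (a * b ∈ Subgroup.zpowers z₁ ↔
      (a ∈ Subgroup.zpowers z₁ ↔ b ∈ Subgroup.zpowers z₁)) := by
    intro a ha b hb
    have hi := Subgroup.mul_mem_iff_of_index_two hidx (a := ⟨a, ha⟩) (b := ⟨b, hb⟩)
    simpa [Subgroup.mem_subgroupOf] using hi
  let lam : S → ℤ := fun z => if z ∈ Subgroup.zpowers z₁ then 1 else -1
  have hlam_pm : ∀ z, lam z = 1 ∨ lam z = -1 := by
    intro z; by_cases hz : z ∈ Subgroup.zpowers z₁ <;> simp [lam, hz]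
  have hlam_mul : ∀ a ∈ Z, ∀ b ∈ Z, lam (a * b) = lam a * lam b := by
    intro a ha b hb
    have hi := hKmul a ha b hb
    by_cases h1 : a ∈ Subgroup.zpowers z₁ <;> by_cases h2 : b ∈ Subgroup.zpowers z₁ <;>
      simp [lam, h1, h2, hi]
  have hlam1 : lam 1 = 1 := by simp [lam]
  have hlamz₁ : lam z₁ = 1 := by simp [lam, Subgroup.mem_zpowers]
  have hlamz₂ : lam (cj d z₁) = -1 := by
    have hnot : cj d z₁ ∉ Subgroup.zpowers z₁ := by
      intro hmem
      have h3le := three_le_card (Subgroup.zpowers z₁) (Subgroup.mem_zpowers z₁) hmem hz₁1 h2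
        (Ne.symm h3)
      omega
    simp [lam, hnot]
  have hlamz₃ : lam (z₁ * cj d z₁) = -1 := by
    rw [hlam_mul z₁ hz₁ _ hz₂, hlamz₁, hlamz₂]; norm_num
  obtain ⟨ρ, hρ, hS⟩ := gauss (H := P) (fun x => lam ((x : S) ^ 2))
    (fun x u => lam (kk (x : S) (u : S)))
    (fun x => hlam_pm _) (fun x u => hlam_pm _)
    (by
      intro x u
      show lam (((x * u : P) : S) ^ 2) = _
      rw [Subgroup.coe_mul, sq_mul,
        hlam_mul _ (Z.mul_mem (h.sq_mem_Z x.2) (h.kk_mem_Z x.2 u.2)) _ (h.sq_mem_Z u.2),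
        hlam_mul _ (h.sq_mem_Z x.2) _ (h.kk_mem_Z x.2 u.2)])
    (by
      intro x y u
      show lam (kk ((x * y : P) : S) u) = _
      rw [Subgroup.coe_mul, h.kk_mul_left x.2 y.2 u.2,
        hlam_mul _ (h.kk_mem_Z x.2 u.2) _ (h.kk_mem_Z y.2 u.2)])
    (by
      intro x u v
      show lam (kk (x : S) ((u * v : P) : S)) = _
      rw [Subgroup.coe_mul, h.kk_mul_right x.2 u.2 v.2,
        hlam_mul _ (h.kk_mem_Z x.2 u.2) _ (h.kk_mem_Z x.2 v.2)])
  have hsum1 := h.sum_fib hz₁ hz₁1 lam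
  have hsum2 := h.sum_fib hz₁ hz₁1 (fun _ => 1)
  rw [hlam1, hlamz₁, hlamz₂, hlamz₃] at hsum1
  simp only [Finset.sum_const, Finset.card_univ, nsmul_eq_mul, mul_one] at hsum2
  have hdvd := h.fib_dvd (z := z₁) hz₁1
  obtain ⟨n, hn⟩ : ∃ n, n = (Finset.univ.filter (fun x : S => x ∈ P ∧ x ^ 2 = z₁)).card :=
    ⟨_, rfl⟩
  rw [← hn] at hsum1 hsum2 hdvd
  have hP2 : IsPGroup 2 P := h.hQ.to_le h.hPQ
  obtain ⟨m, hm⟩ := IsPGroup.iff_card.1 hP2
  have hcard : Fintype.card P = 2 ^ m := by rw [← Nat.card_eq_fintype_card]; exact hm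
  have hgt := h.card_gt
  rw [Nat.card_eq_fintype_card] at hgt
  have hc' : (Fintype.card P : ℤ) = 4 + 3 * n := by rw [hsum2]; ring
  have hc'' : Fintype.card P = 4 + 3 * n := by exact_mod_cast hc'
  apply arith m n ρ (by rw [← hcard]; exact hc'') hdvd (by omega) (by rw [← hcard]; exact hρ)
  have hsum1' : ∑ x : P, lam ((x : S) ^ 2) = 4 - n := by rw [hsum1]; ring
  rw [hsum1', hcard] at hS
  exact hS

end MinBad

/-- the core lemma: an element of order 3 centralizing `Z` and commuting with `d`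
centralizes `Q` -/
theorem core (Q Z : Subgroup S) (c d : S)
    (hQ : IsPGroup 2 Q) (hZQ : Z ≤ Q) (hZcen : ∀ z ∈ Z, ∀ x ∈ Q, z * x = x * z)
    (hZ4 : Nat.card Z = 4) (hZ2 : ∀ z ∈ Z, z ^ 2 = 1)
    (hinv : ∀ x ∈ Q, x ^ 2 = 1 → x ∈ Z)
    (hcQ : ∀ x ∈ Q, cj c x ∈ Q) (hdQ : ∀ x ∈ Q, cj d x ∈ Q)
    (hc3 : c ^ 3 = 1) (hcZ : ∀ z ∈ Z, cj c z = z)
    (hdZ : ∀ z ∈ Z, cj d z ∈ Z) (hdfix : ∀ z ∈ Z, cj d z = z → z = 1)
    (hcd : c * d = d * c) : ∀ x ∈ Q, cj c x = x := by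
  by_contra hcon
  have hfin : {P : Subgroup S | Z ≤ P ∧ P ≤ Q ∧ (∀ x ∈ P, cj c x ∈ P) ∧
      (∀ x ∈ P, cj d x ∈ P) ∧ ¬ ∀ x ∈ P, cj c x = x}.Finite := Set.toFinite _
  obtain ⟨P, hP, hmin⟩ := Set.exists_min_image _ (fun P : Subgroup S => Nat.card P) hfin
    ⟨Q, hZQ, le_rfl, hcQ, hdQ, hcon⟩
  obtain ⟨hZP, hPQ, hcP, hdP, hbad⟩ := hP
  have hMB : MinBad Q Z P c d :=
    { hQ := hQ, hZP := hZP, hPQ := hPQ, hZcen := hZcen, hZ4 := hZ4, hZ2 := hZ2, hinv := hinv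
      hc3 := hc3, hcZ := hcZ, hdZ := hdZ, hdfix := hdfix, hcd := hcd, hcP := hcP, hdP := hdP
      hbad := hbad
      hmin := by
        intro P' hP'P hZP' hcP' hdP' hne
        by_contra hb
        have hle := hmin P' ⟨hZP', hP'P.trans hPQ, hcP', hdP', hb⟩
        exact hne (Subgroup.eq_of_le_of_card_ge hP'P hle) }
  exact hMB.contra

end core

section main

/-- a nontrivial normal subgroup of a `p`-group meets the centre -/
lemma normal_inf_center {P : Type*} [Group P] [Finite P] {p : ℕ} [Fact p.Prime]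
    (hP : IsPGroup p P) (N : Subgroup P) [N.Normal] (hN : N ≠ ⊥) :
    ∃ x ∈ N, x ≠ 1 ∧ ∀ y : P, y * x = x * y := by
  have hNp : IsPGroup p N := hP.to_subgroup N
  have hdvd : p ∣ Nat.card N := by
    have hnt : Nontrivial N := (Subgroup.nontrivial_iff_ne_bot N).2 hN
    obtain ⟨n, hn0, hn⟩ := hNp.nontrivial_iff_card.mp hnt
    exact hn.symm ▸ dvd_pow_self _ (ne_of_gt hn0)
  have hfix : (1 : N) ∈ MulAction.fixedPoints (ConjAct P) N := by
    intro g
    apply Subtype.ext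
    rw [ConjAct.Subgroup.val_conj_smul]
    simp
  obtain ⟨b, hb, hne⟩ := (hP.of_equiv ConjAct.toConjAct).exists_fixed_point_of_prime_dvd_card_of_fixed_point
    N hdvd hfix
  refine ⟨b.1, b.2, fun e => hne (Subtype.ext e.symm), ?_⟩
  intro y
  have h1 := hb (ConjAct.toConjAct y)
  have h2 := congrArg Subtype.val h1
  rw [ConjAct.Subgroup.val_conj_smul, ConjAct.toConjAct_smul] at h2
  exact mul_inv_eq_iff_eq_mul.1 h2

variable {S : Type*} [Group S] [Finite S]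

theorem main (Q : Subgroup S) (hQn : Q.Normal) (hQ2 : IsPGroup 2 Q)
    (hchar : Subgroup.centralizer (Q : Set S) ≤ Q) (g : S) (hg : orderOf g = 6) (d : S)
    (hd1 : d ≠ 1) (hd : IsPGroup 3 (Subgroup.zpowers d)) (W : Subgroup S)
    (hWc : ∀ a ∈ W, ∀ b ∈ W, a * b = b * a) (hW2 : ∀ a ∈ W, a ^ 2 = 1) (hW1 : W ≠ ⊥)
    (hdW : ∀ w ∈ W, cj d w ∈ W) (hfpf : ∀ w ∈ W, cj d w = w → w = 1) (hno : NoE8 S) :
    False := by
  -- Step 1: `W` has order 4
  obtain ⟨w₁, hw₁, hw₁1⟩ : ∃ w ∈ W, w ≠ 1 := by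
    by_contra hcon
    push Not at hcon
    exact hW1 ((Subgroup.eq_bot_iff_forall W).2 hcon)
  have hw₂ : cj d w₁ ∈ W := hdW w₁ hw₁
  have hw₂1 : cj d w₁ ≠ 1 := cj_ne_one d hw₁1
  have hw₁₂ : w₁ ≠ cj d w₁ := fun e => hw₁1 (hfpf w₁ hw₁ e.symm)
  have hW4 : Nat.card W = 4 := by
    have h3 := three_le_card W hw₁ hw₂ hw₁1 hw₂1 hw₁₂
    rcases card_le_four hno W hWc hW2 with h | h | h <;> omega
  -- Step 2: `Z = Ω₁(Z(Q))`
  let Z : Subgroup S :=
    { carrier := {x | x ∈ Q ∧ (∀ y ∈ Q, x * y = y * x) ∧ x ^ 2 = 1}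
      one_mem' := ⟨Q.one_mem, fun y _ => by rw [one_mul, mul_one], one_pow 2⟩
      mul_mem' := by
        rintro a b ⟨ha, hac, ha2⟩ ⟨hb, hbc, hb2⟩
        refine ⟨Q.mul_mem ha hb, fun y hy => ?_, ?_⟩
        · rw [mul_assoc, hbc y hy, ← mul_assoc, hac y hy, mul_assoc]
        · rw [Commute.mul_pow (show Commute a b from hac b hb), ha2, hb2, one_mul]
      inv_mem' := by
        rintro a ⟨ha, hac, ha2⟩
        refine ⟨Q.inv_mem ha, fun y hy => ?_, ?_⟩
        · exact (Commute.inv_left (show Commute a y from hac y hy)).eq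
        · rw [inv_pow, ha2, inv_one] }
  have hZQ : Z ≤ Q := fun x hx => hx.1
  have hZcen : ∀ z ∈ Z, ∀ x ∈ Q, z * x = x * z := fun z hz x hx => hz.2.1 x hx
  have hZ2 : ∀ z ∈ Z, z ^ 2 = 1 := fun z hz => hz.2.2
  have hZc : ∀ a ∈ Z, ∀ b ∈ Z, a * b = b * a := fun a ha b hb => hZcen a ha b (hZQ hb)
  have hcjQ : ∀ g : S, ∀ x ∈ Q, cj g x ∈ Q := fun g x hx => hQn.conj_mem x hx g
  have hZn : ∀ g : S, ∀ z ∈ Z, cj g z ∈ Z := by
    intro g z hz
    refine ⟨hcjQ g z hz.1, fun y hy => ?_, by rw [← cj_pow, hz.2.2, cj_one']⟩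
    have hy' : cj g⁻¹ y ∈ Q := hcjQ g⁻¹ y hy
    have e := hz.2.1 _ hy'
    have e' := congrArg (cj g) e
    rw [cj_mul, cj_mul, cj_cj, mul_inv_cancel, cj_one] at e'
    exact e'
  have hQ1 : Q ≠ ⊥ := by
    intro hQ
    have hdQ : d ∈ Q := hchar (by
      rw [hQ, Subgroup.mem_centralizer_iff]
      intro y hy
      rw [Subgroup.coe_bot, Set.mem_singleton_iff] at hy
      rw [hy, one_mul, mul_one])
    rw [hQ, Subgroup.mem_bot] at hdQ
    exact hd1 hdQ
  obtain ⟨z₀, hz₀, hz₀1⟩ : ∃ z ∈ Z, z ≠ 1 := by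
    have : Fact (Nat.Prime 2) := ⟨Nat.prime_two⟩
    have hnt : Nontrivial Q := (Subgroup.nontrivial_iff_ne_bot Q).2 hQ1
    have hcn : Nontrivial (Subgroup.center Q) := hQ2.center_nontrivial
    have hc2 : IsPGroup 2 (Subgroup.center Q) := hQ2.to_subgroup _
    obtain ⟨n, hn0, hn⟩ := hc2.nontrivial_iff_card.mp hcn
    have hdvd : 2 ∣ Nat.card (Subgroup.center Q) := hn.symm ▸ dvd_pow_self _ (ne_of_gt hn0)
    obtain ⟨x, hx⟩ := exists_prime_orderOf_dvd_card' 2 hdvd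
    have hx2 : x ^ 2 = 1 := by rw [← hx]; exact pow_orderOf_eq_one x
    have hx2' : ((x : Q) : S) ^ 2 = 1 := by
      have e := congrArg (fun t : Subgroup.center Q => ((t : Q) : S)) hx2
      simpa using e
    refine ⟨((x : Q) : S), ⟨(x : Q).2, fun y hy => ?_, hx2'⟩, ?_⟩
    · have e := Subgroup.mem_center_iff.1 x.2 ⟨y, hy⟩
      exact (congrArg Subtype.val e).symm
    · intro e
      have hx1 : x = 1 := by
        apply Subtype.ext; apply Subtype.ext; exact e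
      rw [hx1, orderOf_one] at hx
      norm_num at hx
  have hZcard := card_le_four hno Z hZc hZ2
  have hZne1 : Nat.card Z ≠ 1 := by
    intro h1
    have hbot := (Subgroup.card_eq_one (H := Z)).1 h1
    rw [hbot, Subgroup.mem_bot] at hz₀
    exact hz₀1 hz₀
  have hZ4 : Nat.card Z = 4 := by
    rcases hZcard with h | h | h
    · exact absurd h hZne1
    · exfalso
      have hcen : ∀ g : S, cj g z₀ = z₀ := by
        intro g
        by_contra hne
        have h3 := three_le_card Z hz₀ (hZn g z₀ hz₀) hz₀1 (cj_ne_one g hz₀1) (Ne.symm hne)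
        omega
      have hz₀W : z₀ ∈ W := mem_of_invol hno W hWc hW2 hW4 z₀ (hZ2 z₀ hz₀)
        (fun a _ => ((cj_eq_iff a z₀).1 (hcen a)).symm)
      exact hz₀1 (hfpf z₀ hz₀W (hcen d))
    · exact h
  have hinvZ : ∀ t : S, t ^ 2 = 1 → (∀ z ∈ Z, t * z = z * t) → t ∈ Z :=
    fun t ht htc => mem_of_invol hno Z hZc hZ2 hZ4 t ht htc
  -- Step 3: `W = Z`
  have hWZ : W = Z := by
    have hw₁2 := hW2 w₁ hw₁
    have hw₂2 := hW2 _ hw₂
    obtain ⟨a, haZ, ha1, hfa1, hfa2⟩ := exists_fixed₂ Z hZ2 hZc w₁ (cj d w₁) hw₁2 hw₂2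
      (hWc w₁ hw₁ _ hw₂) (hZn w₁) (hZn _) hz₀ hz₀1
    have hWcases := v4_cases W hW4 hw₁ hw₂ hw₁2 hw₁1 hw₂1 hw₁₂
    have haW : a ∈ W := by
      apply mem_of_invol hno W hWc hW2 hW4 a (hZ2 a haZ)
      intro w hw
      have e1 : w₁ * a = a * w₁ := (cj_eq_iff _ _).1 hfa1
      have e2 : cj d w₁ * a = a * cj d w₁ := (cj_eq_iff _ _).1 hfa2
      rcases hWcases w hw with h | h | h | h
      · rw [h, one_mul, mul_one]
      · rw [h]; exact e1.symm
      · rw [h]; exact e2.symm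
      · rw [h, ← mul_assoc, ← e1, mul_assoc, ← e2, ← mul_assoc]
    have hb : cj d a ∈ W ⊓ Z := ⟨hdW a haW, hZn d a haZ⟩
    have h3 := three_le_card (W ⊓ Z) ⟨haW, haZ⟩ hb ha1 (cj_ne_one d ha1)
      (fun e => ha1 (hfpf a haW e.symm))
    have hdvd : Nat.card (W ⊓ Z : Subgroup S) ∣ 4 := hW4 ▸ Subgroup.card_dvd_of_le inf_le_left
    have h4 : Nat.card (W ⊓ Z : Subgroup S) = 4 := by
      have hle : Nat.card (W ⊓ Z : Subgroup S) ≤ 4 := Nat.le_of_dvd (by norm_num) hdvd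
      obtain ⟨k, hk⟩ : ∃ k, k = Nat.card (W ⊓ Z : Subgroup S) := ⟨_, rfl⟩
      rw [← hk] at hle hdvd h3 ⊢
      interval_cases k
      · norm_num at hdvd
      · rfl
    have e1 : W ⊓ Z = W := Subgroup.eq_of_le_of_card_ge inf_le_left (by rw [h4, hW4])
    have e2 : W ⊓ Z = Z := Subgroup.eq_of_le_of_card_ge inf_le_right (by rw [h4, hZ4])
    exact e1.symm.trans e2
  have hdfix : ∀ z ∈ Z, cj d z = z → z = 1 := fun z hz => hfpf z (hWZ ▸ hz)
  -- Step 4: the element of order 6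
  have hg6 : g ^ 6 = 1 := by rw [← hg]; exact pow_orderOf_eq_one g
  obtain ⟨c, hc⟩ : ∃ c, c = g ^ 2 := ⟨_, rfl⟩
  obtain ⟨t, ht⟩ : ∃ t, t = g ^ 3 := ⟨_, rfl⟩
  have hc3 : c ^ 3 = 1 := by rw [hc, ← pow_mul]; exact hg6
  have ht2 : t ^ 2 = 1 := by rw [ht, ← pow_mul]; exact hg6
  have hc1 : c ≠ 1 := by
    intro e
    rw [hc] at e
    have h6 := orderOf_dvd_of_pow_eq_one e
    rw [hg] at h6
    norm_num at h6
  have ht1 : t ≠ 1 := by
    intro e
    rw [ht] at e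
    have h6 := orderOf_dvd_of_pow_eq_one e
    rw [hg] at h6
    norm_num at h6
  have hgt : cj g t = t := by
    rw [cj_eq_iff, ht, ← pow_succ', ← pow_succ]
  have hcZ : ∀ z ∈ Z, cj c z = z := by
    by_cases hfixg : ∃ z ∈ Z, z ≠ 1 ∧ cj g z = z
    · obtain ⟨z₁, hz₁, hz₁1, hz₁f⟩ := hfixg
      intro z hz
      rw [hc, pow_two, ← cj_cj]
      exact v4_fix Z hZ4 hZ2 g (hZn g) hz₁ hz₁1 hz₁f z hz
    · exfalso
      push Not at hfixg
      have hfp : ∀ z ∈ Z, cj g z = z → z = 1 := fun z hz hf => by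
        by_contra h1
        exact hfixg z hz h1 hf
      have htZ : t ∈ Z := by
        apply hinvZ t ht2
        intro z hz
        rw [← cj_eq_iff]
        by_cases hz1 : z = 1
        · rw [hz1, cj_one']
        obtain ⟨-, -, h3, h4, -⟩ := v4_fpf Z hZ4 hZ2 hZc g (hZn g) hfp hz hz1
        rw [ht, pow_succ, pow_two, ← cj_cj, ← cj_cj, h3, h4]
      exact ht1 (hfp t htZ hgt)
  -- Step 5: an element of order 3 centralizing `Z` and commuting with `d`
  have : Fact (Nat.Prime 3) := ⟨Nat.prime_three⟩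
  obtain ⟨R, hdR⟩ := hd.exists_le_sylow
  have hdR' : d ∈ (R : Subgroup S) := hdR (Subgroup.mem_zpowers d)
  have hZnorm : Z.Normal := ⟨fun z hz g => hZn g z hz⟩
  have hC₀n : (Subgroup.centralizer (Z : Set S)).Normal := Subgroup.normal_centralizer
  have hcC₀ : c ∈ Subgroup.centralizer (Z : Set S) := by
    rw [Subgroup.mem_centralizer_iff]
    intro z hz
    exact ((cj_eq_iff c z).1 (hcZ z hz)).symm
  have hc_ord : orderOf c = 3 := orderOf_eq_prime hc3 hc1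
  obtain ⟨R', hcR'⟩ := Cfsg.Agent.H73.exists_sylow_mem (p := 3) c 1 (by rw [hc_ord, pow_one])
  obtain ⟨x, hx⟩ := MulAction.exists_smul_eq S R R'
  rw [← hx, Cfsg.Agent.H73.sylow_mem_smul_iff] at hcR'
  have hc₁C : x⁻¹ * c * x ∈ Subgroup.centralizer (Z : Set S) := by
    have hcm := hC₀n.conj_mem c hcC₀ x⁻¹
    simpa using hcm
  have hc₁1 : x⁻¹ * c * x ≠ 1 := by
    intro e
    apply hc1
    have e' : c = x * (x⁻¹ * c * x) * x⁻¹ := by group
    rw [e', e]; group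
  have hN : ((Subgroup.centralizer (Z : Set S)).subgroupOf (R : Subgroup S)) ≠ ⊥ := by
    intro e
    have hmem : (⟨x⁻¹ * c * x, hcR'⟩ : (R : Subgroup S)) ∈
        (Subgroup.centralizer (Z : Set S)).subgroupOf (R : Subgroup S) := by
      rw [Subgroup.mem_subgroupOf]; exact hc₁C
    rw [e, Subgroup.mem_bot] at hmem
    exact hc₁1 (congrArg Subtype.val hmem)
  obtain ⟨y, hyN, hy1, hycen⟩ := normal_inf_center (p := 3) R.isPGroup'
    ((Subgroup.centralizer (Z : Set S)).subgroupOf (R : Subgroup S)) hN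
  obtain ⟨k, hk⟩ := IsPGroup.iff_orderOf.1 R.isPGroup' y
  have hk0 : k ≠ 0 := by
    rintro rfl
    rw [pow_zero, orderOf_eq_one_iff] at hk
    exact hy1 hk
  have h3dvd : 3 ∣ orderOf y := by rw [hk]; exact dvd_pow_self 3 hk0
  have hc'ord : orderOf (y ^ (orderOf y / 3)) = 3 :=
    orderOf_pow_orderOf_div (by rw [hk]; positivity) h3dvd
  obtain ⟨c', hc'⟩ : ∃ c' : (R : Subgroup S), c' = y ^ (orderOf y / 3) := ⟨_, rfl⟩
  rw [← hc'] at hc'ord
  have hc'N : c' ∈ (Subgroup.centralizer (Z : Set S)).subgroupOf (R : Subgroup S) := by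
    rw [hc']; exact Subgroup.pow_mem _ hyN _
  rw [Subgroup.mem_subgroupOf] at hc'N
  have hc'3 : (c' : S) ^ 3 = 1 := by
    have e : c' ^ 3 = 1 := by
      have e0 := pow_orderOf_eq_one c'
      rwa [hc'ord] at e0
    have e' := congrArg Subtype.val e
    simpa using e'
  have hc'1 : (c' : S) ≠ 1 := by
    intro e
    have e' : c' = 1 := Subtype.ext e
    rw [e', orderOf_one] at hc'ord
    norm_num at hc'ord
  have hc'd : (c' : S) * d = d * (c' : S) := by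
    have e : Commute (⟨d, hdR'⟩ : (R : Subgroup S)) c' := by
      rw [hc']
      exact Commute.pow_right (hycen ⟨d, hdR'⟩) _
    exact (congrArg Subtype.val e.eq).symm
  have hc'Z : ∀ z ∈ Z, cj (c' : S) z = z := by
    intro z hz
    rw [cj_eq_iff]
    exact (Subgroup.mem_centralizer_iff.1 hc'N z hz).symm
  -- Step 6: the core lemma
  have hcore := core Q Z (c' : S) d hQ2 hZQ hZcen hZ4 hZ2
    (fun x hx hx2 => hinvZ x hx2 (fun z hz => (hZcen z hz x hx).symm))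
    (hcjQ _) (hcjQ d) hc'3 hc'Z (hZn d) hdfix hc'd
  have hc'Q : (c' : S) ∈ Q := hchar (by
    rw [Subgroup.mem_centralizer_iff]
    intro y hy
    exact ((cj_eq_iff _ _).1 (hcore y hy)).symm)
  obtain ⟨k2, hk2⟩ := hQ2 ⟨(c' : S), hc'Q⟩
  have hk2' : (c' : S) ^ 2 ^ k2 = 1 := by simpa using congrArg Subtype.val hk2
  have h1 : orderOf (c' : S) ∣ 3 := orderOf_dvd_of_pow_eq_one hc'3
  have h2 : orderOf (c' : S) ∣ 2 ^ k2 := orderOf_dvd_of_pow_eq_one hk2'
  have h5 : orderOf (c' : S) = 1 :=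
    Nat.eq_one_of_dvd_coprimes (Nat.Coprime.pow_right k2 (by norm_num)) h1 h2
  exact hc'1 (orderOf_eq_one_iff.1 h5)

end main

end Cfsg.Agent.H73.R2
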