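import Mathlib
import Cfsg.Agent.H9.S77Defs

/-!
# Auxiliary counting lemmas for the S0429 pieces SIX and PAIR (helper73)
-/

set_option autoImplicit false
open Finset Classical Cfsg.Agent.H9.S77

namespace Cfsg.Agent.H73.S77

universe u
variable {V : Type u} [Fintype V]

/-- In a plane `C` through `u ≠ v`, the vertices `y ∈ C` lying in `W(u,v)` with `t(y) = 1` are
exactly those of `C \ Ln u v`; there are 16 of them. -/
lemma plane_T_card (G : SimpleGraph V) (hL : StLine G) (hS : StSub G)
    (C : Finset V) (hC : IsPlane G C) (u v : V) (hu : u ∈ C) (hv : v ∈ C) (huv : u ≠ v) :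
    (C.filter (fun y => y ∈ Wset G u v ∧ tc G u v y = 1)).card = 16 := by
  have hna : NA G u v := ⟨huv, hC.1 u hu v hv⟩
  obtain ⟨hsub, ht⟩ := hS C hC u hu v hv huv
  have h5 := (hL u v hna).1
  have hEq : C.filter (fun y => y ∈ Wset G u v ∧ tc G u v y = 1) = C \ Ln G u v := by
    ext y
    simp only [mem_filter, mem_sdiff]
    constructor
    · rintro ⟨hy, hyW, hy1⟩
      refine ⟨hy, ?_⟩
      intro hyL
      simp only [Ln, mem_insert, Zset, mem_filter] at hyL
      simp only [Wset, mem_filter, mem_univ, true_and] at hyW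
      rcases hyL with rfl | rfl | ⟨_, h0⟩
      · exact hyW.1 rfl
      · exact hyW.2.1 rfl
      · omega
    · rintro ⟨hy, hyL⟩
      refine ⟨hy, ?_, ht y hy hyL⟩
      simp only [Wset, mem_filter, mem_univ, true_and]
      have hyu : y ≠ u := fun h => hyL (by rw [h]; simp [Ln])
      have hyv : y ≠ v := fun h => hyL (by rw [h]; simp [Ln])
      exact ⟨hyu, hyv, hC.1 u hu y hy, hC.1 v hv y hy⟩
  rw [hEq, card_sdiff_of_subset hsub, hC.2, h5]

/-- Counting pairs fibrewise over the first coordinate. -/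
lemma card_pairs (X : Finset V) (T : V → Finset V) (n : ℕ) (hT : ∀ x ∈ X, (T x).card = n) :
    ((univ : Finset (V × V)).filter (fun p => p.1 ∈ X ∧ p.2 ∈ T p.1)).card = X.card * n := by
  have hEq : (univ : Finset (V × V)).filter (fun p => p.1 ∈ X ∧ p.2 ∈ T p.1)
      = (X.sigma T).map (Equiv.sigmaEquivProd V V).toEmbedding := by
    ext ⟨a, b⟩
    simp only [mem_filter, mem_univ, true_and, mem_map, mem_sigma, Equiv.coe_toEmbedding,
      Equiv.sigmaEquivProd_apply, Sigma.exists]
    constructor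
    · rintro ⟨ha, hb⟩
      exact ⟨a, b, ⟨ha, hb⟩, rfl⟩
    · rintro ⟨a', b', ⟨ha, hb⟩, h⟩
      simp only [Prod.mk.injEq] at h
      obtain ⟨rfl, rfl⟩ := h
      exact ⟨ha, hb⟩
  rw [hEq, card_map, card_sigma]
  exact Finset.sum_const_nat hT

end Cfsg.Agent.H73.S77
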