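import Mathlib
import Cfsg.Agent.H9.S77Defs
import Cfsg.Agent.H73.S77Aux

/-!
# S0429 piece PAIR (helper73): two non-adjacent vertices lie in exactly two planes
-/

set_option autoImplicit false
open Finset Classical Cfsg.Agent.H9.S77

namespace Cfsg.Agent.H73.S77

universe u

theorem pair : Cfsg.Agent.H9.S77.PiecePair.{u} := by
  intro V _ G h hK hL hS hU hE u v hna
  set P := (planes G).filter (fun C => u ∈ C ∧ v ∈ C) with hP
  set T := (Wset G u v).filter (fun w => tc G u v w = 1) with hT
  have hT32 : T.card = 32 := (hK u v hna).2.2.1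
  have key := Finset.sum_card_bipartiteAbove_eq_sum_card_bipartiteBelow (s := P) (t := T)
    (fun C y => y ∈ C)
  have hleft : ∀ C ∈ P, (T.bipartiteAbove (fun C y => y ∈ C) C).card = 16 := by
    intro C hCP
    simp only [hP, mem_filter, planes, mem_univ, true_and] at hCP
    obtain ⟨hC, huC, hvC⟩ := hCP
    have h16 := plane_T_card G hL hS C hC u v huC hvC hna.1
    rw [← h16]
    congr 1
    ext y
    simp only [bipartiteAbove, hT, mem_filter]
    tauto
  have hright : ∀ y ∈ T, (P.bipartiteBelow (fun C y => y ∈ C) y).card = 1 := by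
    intro y hyT
    simp only [hT, mem_filter, Wset, mem_univ, true_and] at hyT
    obtain ⟨⟨hyu, hyv, hnuy, hnvy⟩, hy1⟩ := hyT
    have hyL : y ∉ Ln G u v := by
      intro hyL
      simp only [Ln, mem_insert, Zset, mem_filter] at hyL
      rcases hyL with rfl | rfl | ⟨_, h0⟩
      · exact hyu rfl
      · exact hyv rfl
      · omega
    obtain ⟨C, hC, huC, hvC, hyC⟩ := hE u v y hna ⟨fun e => hyu e.symm, hnuy⟩
      ⟨fun e => hyv e.symm, hnvy⟩ hy1
    rw [Finset.card_eq_one]
    refine ⟨C, ?_⟩
    ext C'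
    simp only [bipartiteBelow, hP, mem_filter, planes, mem_univ, true_and, mem_singleton]
    constructor
    · rintro ⟨⟨hC', huC', hvC'⟩, hyC'⟩
      exact hU C' C hC' hC u v y huC' hvC' hyC' huC hvC hyC hna.1 hyL
    · rintro rfl
      exact ⟨⟨hC, huC, hvC⟩, hyC⟩
  rw [Finset.sum_const_nat hleft, Finset.sum_const_nat hright, hT32] at key
  omega

example : Cfsg.Agent.H9.S77.PiecePair.{u} := pair

end Cfsg.Agent.H73.S77

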