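import Mathlib
import Cfsg.Agent.H9.S77Defs
import Cfsg.Agent.H73.S77Aux

/-!
# S0429 piece SIX (helper73): every vertex lies in exactly six planes
-/

set_option autoImplicit false
open Finset Classical Cfsg.Agent.H9.S77

namespace Cfsg.Agent.H73.S77

universe u

/-- The number of vertices distinct from and non-adjacent to `o` is 60. -/
lemma card_NA {V : Type u} [Fintype V] (G : SimpleGraph V) (h : Hyp G) (o : V) :
    ((univ : Finset V).filter (fun x => NA G o x)).card = 60 := by
  have hEq : (univ : Finset V).filter (fun x => NA G o x) = (insert o (nb G o))ᶜ := by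
    ext x
    rw [mem_filter, mem_compl, mem_insert, mem_nb]
    simp only [mem_univ, true_and, not_or]
    constructor
    · intro hx
      exact ⟨fun e => hx.1 e.symm, hx.2⟩
    · rintro ⟨h1, h2⟩
      exact ⟨fun e => h1 e.symm, h2⟩
  have ho : o ∉ nb G o := by simp
  rw [hEq, card_compl, card_insert_of_notMem ho, h.card, h.deg]

theorem six : Cfsg.Agent.H9.S77.PieceSix.{u} := by
  intro V _ G h hK hL hS hU hE o
  set P := (planes G).filter (fun C => o ∈ C) with hP
  set X : Finset V := univ.filter (fun x => NA G o x) with hX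
  set T : V → Finset V := fun x => (Wset G o x).filter (fun w => tc G o x w = 1) with hT
  set S : Finset (V × V) := univ.filter (fun p => p.1 ∈ X ∧ p.2 ∈ T p.1) with hSdef
  have hScard : S.card = 60 * 32 := by
    rw [hSdef, card_pairs X T 32, hX, card_NA G h o]
    intro x hx
    simp only [hX, mem_filter, mem_univ, true_and] at hx
    exact (hK o x hx).2.2.1
  have key := Finset.sum_card_bipartiteAbove_eq_sum_card_bipartiteBelow (s := P) (t := S)
    (fun C p => p.1 ∈ C ∧ p.2 ∈ C)
  have hleft : ∀ C ∈ P, (S.bipartiteAbove (fun C p => p.1 ∈ C ∧ p.2 ∈ C) C).card = 20 * 16 := by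
    intro C hCP
    simp only [hP, mem_filter, planes, mem_univ, true_and] at hCP
    obtain ⟨hC, hoC⟩ := hCP
    have hEq : S.bipartiteAbove (fun C p => p.1 ∈ C ∧ p.2 ∈ C) C
        = (univ : Finset (V × V)).filter (fun p => p.1 ∈ C.erase o ∧
            p.2 ∈ C.filter (fun y => y ∈ Wset G o p.1 ∧ tc G o p.1 y = 1)) := by
      ext ⟨x, y⟩
      simp only [bipartiteAbove, hSdef, hX, hT, mem_filter, mem_univ, true_and, mem_erase]
      constructor
      · rintro ⟨⟨hox, hyW, hy1⟩, hxC, hyC⟩
        exact ⟨⟨fun e => hox.1 e.symm, hxC⟩, hyC, hyW, hy1⟩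
      · rintro ⟨⟨hxo, hxC⟩, hyC, hyW, hy1⟩
        exact ⟨⟨⟨fun e => hxo e.symm, hC.1 o hoC x hxC⟩, hyW, hy1⟩, hxC, hyC⟩
    rw [hEq]
    have h1 := card_pairs (C.erase o)
      (fun x => C.filter (fun y => y ∈ Wset G o x ∧ tc G o x y = 1)) 16 (by
        intro x hx
        rw [mem_erase] at hx
        exact plane_T_card G hL hS C hC o x hoC hx.2 (fun e => hx.1 e.symm))
    rw [card_erase_of_mem hoC, hC.2] at h1
    exact h1
  have hright : ∀ p ∈ S, (P.bipartiteBelow (fun C p => p.1 ∈ C ∧ p.2 ∈ C) p).card = 1 := by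
    rintro ⟨x, y⟩ hp
    simp only [hSdef, hX, hT, mem_filter, mem_univ, true_and, Wset] at hp
    obtain ⟨hox, ⟨hyo, hyx, hnoy, hnxy⟩, hy1⟩ := hp
    have hyL : y ∉ Ln G o x := by
      intro hyL
      simp only [Ln, mem_insert, Zset, mem_filter] at hyL
      rcases hyL with rfl | rfl | ⟨_, h0⟩
      · exact hyo rfl
      · exact hyx rfl
      · omega
    obtain ⟨C, hC, hoC, hxC, hyC⟩ := hE o x y hox ⟨fun e => hyo e.symm, hnoy⟩
      ⟨fun e => hyx e.symm, hnxy⟩ hy1
    rw [Finset.card_eq_one]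
    refine ⟨C, ?_⟩
    ext C'
    simp only [bipartiteBelow, hP, mem_filter, planes, mem_univ, true_and, mem_singleton]
    constructor
    · rintro ⟨⟨hC', hoC'⟩, hxC', hyC'⟩
      exact hU C' C hC' hC o x y hoC' hxC' hyC' hoC hxC hyC hox.1 hyL
    · rintro rfl
      exact ⟨⟨hC, hoC⟩, hxC, hyC⟩
  rw [Finset.sum_const_nat hleft, Finset.sum_const_nat hright, hScard] at key
  omega

example : Cfsg.Agent.H9.S77.PieceSix.{u} := six

end Cfsg.Agent.H73.S77

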