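import Mathlib
import Cfsg.Prelude.Def_GeometricClasses

/-!
helper73: piece S5982-GLUE1 for helper99: an element conjugate into the similarity group of a
unitary form with an orthonormal basis `B` is, in the basis `g * B`, a unitary similarity of the
standard form.
-/

set_option autoImplicit false

open scoped MatrixGroups

namespace Cfsg.Agent.H73.Uni

variable {F : Type*} [Field F] [Fintype F]

omit [Fintype F] in
theorem mulVec_single_one_apply {n : ℕ} (s : Matrix (Fin n) (Fin n) F) (i k : Fin n) :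
    (s.mulVec (Pi.single i 1)) k = s k i := by
  simp [Matrix.mulVec, dotProduct, Pi.single_apply]

theorem sim_of_mem {q₀ n : ℕ} (hF : Fintype.card F = q₀ ^ 2)
    (f : (Fin n → F) → (Fin n → F) → F) (B : Matrix (Fin n) (Fin n) F) (hB : IsUnit B.det)
    (hfB : ∀ u v : Fin n → F, f (B.mulVec u) (B.mulVec v) = ∑ i, u i * (v i) ^ q₀)
    (x g : GL (Fin n) F) (h : g⁻¹ * x * g ∈ Cfsg.Geo.similarityGroup f) :
    ∃ (s : Matrix (Fin n) (Fin n) F) (c : F), c ≠ 0 ∧
      (x : Matrix (Fin n) (Fin n) F) * ((g : Matrix (Fin n) (Fin n) F) * B)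
        = ((g : Matrix (Fin n) (Fin n) F) * B) * s ∧
      s.transpose * s.map (fun a => a ^ q₀) = c • (1 : Matrix (Fin n) (Fin n) F) := by
  classical
  have hq0 : q₀ ≠ 0 := by
    rintro rfl
    have h1 : 1 < Fintype.card F := Fintype.one_lt_card
    rw [hF] at h1
    norm_num at h1
  obtain ⟨c, hc⟩ := h
  set y : Matrix (Fin n) (Fin n) F := ((g⁻¹ * x * g : GL (Fin n) F) : Matrix (Fin n) (Fin n) F)
    with hy
  have hBB : B * B⁻¹ = 1 := Matrix.mul_nonsing_inv B hB
  have hBB' : B⁻¹ * B = 1 := Matrix.nonsing_inv_mul B hB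
  have hgy : (g : Matrix (Fin n) (Fin n) F) * y = (x : Matrix (Fin n) (Fin n) F) * g := by
    rw [hy, ← Units.val_mul, ← Units.val_mul]
    congr 1
    group
  refine ⟨B⁻¹ * y * B, (c : F), c.ne_zero, ?_, ?_⟩
  · calc (x : Matrix (Fin n) (Fin n) F) * ((g : Matrix (Fin n) (Fin n) F) * B)
        = ((x : Matrix (Fin n) (Fin n) F) * g) * B := by rw [Matrix.mul_assoc]
      _ = ((g : Matrix (Fin n) (Fin n) F) * y) * B := by rw [hgy]
      _ = (g : Matrix (Fin n) (Fin n) F) * (B * B⁻¹) * y * B := by rw [hBB, Matrix.mul_one]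
      _ = ((g : Matrix (Fin n) (Fin n) F) * B) * (B⁻¹ * y * B) := by
          simp only [Matrix.mul_assoc]
  · set s : Matrix (Fin n) (Fin n) F := B⁻¹ * y * B with hs
    have hBs : B * s = y * B := by
      rw [hs, ← Matrix.mul_assoc, ← Matrix.mul_assoc, hBB, Matrix.one_mul]
    ext i j
    have key := hfB (s.mulVec (Pi.single i 1)) (s.mulVec (Pi.single j 1))
    have e1 : ∀ w : Fin n → F, B.mulVec (s.mulVec w) = y.mulVec (B.mulVec w) := by
      intro w
      rw [Matrix.mulVec_mulVec, Matrix.mulVec_mulVec, hBs]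
    rw [e1, e1, hc, hfB] at key
    rw [Matrix.mul_apply]
    have e2 : ∑ k, s.transpose i k * (s.map (fun a => a ^ q₀)) k j
        = ∑ k, (s.mulVec (Pi.single i 1)) k * ((s.mulVec (Pi.single j 1)) k) ^ q₀ := by
      apply Finset.sum_congr rfl
      intro k _
      rw [mulVec_single_one_apply, mulVec_single_one_apply]
      rfl
    rw [e2, ← key]
    have e3 : ∑ k, (Pi.single i (1 : F) : Fin n → F) k * ((Pi.single j (1 : F) : Fin n → F) k) ^ q₀
        = if i = j then 1 else 0 := by
      simp only [Pi.single_apply]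
      rw [Finset.sum_eq_single i]
      · by_cases hij : i = j
        · simp [hij]
        · simp [hij, hq0]
      · intro k _ hk
        simp [hk]
      · intro hi
        exact absurd (Finset.mem_univ i) hi
    rw [e3, Matrix.smul_apply, Matrix.one_apply, smul_eq_mul]

example {q₀ n : ℕ} (hF : Fintype.card F = q₀ ^ 2)
    (f : (Fin n → F) → (Fin n → F) → F) (B : Matrix (Fin n) (Fin n) F) (hB : IsUnit B.det)
    (hfB : ∀ u v : Fin n → F, f (B.mulVec u) (B.mulVec v) = ∑ i, u i * (v i) ^ q₀)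
    (x g : GL (Fin n) F) (h : g⁻¹ * x * g ∈ Cfsg.Geo.similarityGroup f) :
    ∃ (s : Matrix (Fin n) (Fin n) F) (c : F), c ≠ 0 ∧
      (x : Matrix (Fin n) (Fin n) F) * ((g : Matrix (Fin n) (Fin n) F) * B)
        = ((g : Matrix (Fin n) (Fin n) F) * B) * s ∧
      s.transpose * s.map (fun a => a ^ q₀) = c • (1 : Matrix (Fin n) (Fin n) F) :=
  sim_of_mem hF f B hB hfB x g h

end Cfsg.Agent.H73.Uni

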