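import Mathlib
import Cfsg.Prelude.Def_GeometricClasses
import Cfsg.Agent.H7.Herm

/-!
helper73: piece S5982-GLUE2 for helper99: a matrix which, in the basis `g * B` (`B` an orthonormal
basis of the unitary form `f`), is a unitary similarity of the standard form is conjugate by `g`
into the similarity group of `f`.
-/

set_option autoImplicit false

open scoped MatrixGroups

namespace Cfsg.Agent.H73.Uni

variable {F : Type*} [Field F] [Fintype F]

/-- the standard Hermitian form is multiplied by `c` under a unitary similarity with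
multiplier `c`. -/
theorem std_form_sim {q₀ n : ℕ} (hF : Fintype.card F = q₀ ^ 2)
    (s : Matrix (Fin n) (Fin n) F) (c : F)
    (hs : s.transpose * s.map (fun a => a ^ q₀) = c • (1 : Matrix (Fin n) (Fin n) F))
    (u v : Fin n → F) :
    ∑ i, (s.mulVec u) i * ((s.mulVec v) i) ^ q₀ = c * ∑ i, u i * (v i) ^ q₀ := by
  classical
  have h1 : ∀ i, ((s.mulVec v) i) ^ q₀
      = ((s.map (fun a => a ^ q₀)).mulVec (fun j => (v j) ^ q₀)) i := by
    intro i
    simp only [Matrix.mulVec, dotProduct, Matrix.map_apply]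
    rw [Cfsg.Agent.H7.sum_pow_q hF]
    apply Finset.sum_congr rfl
    intro j _
    rw [mul_pow]
  have h2 : ∑ i, (s.mulVec u) i * ((s.mulVec v) i) ^ q₀
      = dotProduct (s.mulVec u) ((s.map (fun a => a ^ q₀)).mulVec (fun j => (v j) ^ q₀)) := by
    simp only [dotProduct]
    apply Finset.sum_congr rfl
    intro i _
    rw [h1]
  have h3 : dotProduct (s.mulVec u) ((s.map (fun a => a ^ q₀)).mulVec (fun j => (v j) ^ q₀))
      = dotProduct u ((s.transpose * s.map (fun a => a ^ q₀)).mulVec (fun j => (v j) ^ q₀)) := by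
    rw [← Matrix.mulVec_mulVec, Matrix.dotProduct_mulVec u, Matrix.vecMul_transpose]
  rw [h2, h3, hs, Matrix.smul_mulVec, Matrix.one_mulVec, dotProduct_smul, smul_eq_mul]
  rfl

theorem mem_of_sim {q₀ n : ℕ} (hF : Fintype.card F = q₀ ^ 2)
    (f : (Fin n → F) → (Fin n → F) → F) (B : Matrix (Fin n) (Fin n) F) (hB : IsUnit B.det)
    (hfB : ∀ u v : Fin n → F, f (B.mulVec u) (B.mulVec v) = ∑ i, u i * (v i) ^ q₀)
    (x g : GL (Fin n) F) (s : Matrix (Fin n) (Fin n) F) (c : F) (hc : c ≠ 0)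
    (h : (x : Matrix (Fin n) (Fin n) F) * ((g : Matrix (Fin n) (Fin n) F) * B)
        = ((g : Matrix (Fin n) (Fin n) F) * B) * s)
    (hs : s.transpose * s.map (fun a => a ^ q₀) = c • (1 : Matrix (Fin n) (Fin n) F)) :
    g⁻¹ * x * g ∈ Cfsg.Geo.similarityGroup f := by
  classical
  have hBB : B * B⁻¹ = 1 := Matrix.mul_nonsing_inv B hB
  have hginv : ((g⁻¹ : GL (Fin n) F) : Matrix (Fin n) (Fin n) F) * (g : Matrix (Fin n) (Fin n) F)
      = 1 := by
    rw [← Units.val_mul, inv_mul_cancel, Units.val_one]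
  have hyB : ((g⁻¹ * x * g : GL (Fin n) F) : Matrix (Fin n) (Fin n) F) * B = B * s := by
    rw [Units.val_mul, Units.val_mul, Matrix.mul_assoc, Matrix.mul_assoc, h, ← Matrix.mul_assoc,
      ← Matrix.mul_assoc, hginv, Matrix.one_mul]
  refine ⟨Units.mk0 c hc, fun u v => ?_⟩
  have hu : u = B.mulVec (B⁻¹.mulVec u) := by
    rw [Matrix.mulVec_mulVec, hBB, Matrix.one_mulVec]
  have hv : v = B.mulVec (B⁻¹.mulVec v) := by
    rw [Matrix.mulVec_mulVec, hBB, Matrix.one_mulVec]
  have e1 : ∀ w : Fin n → F,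
      ((g⁻¹ * x * g : GL (Fin n) F) : Matrix (Fin n) (Fin n) F).mulVec (B.mulVec w)
        = B.mulVec (s.mulVec w) := by
    intro w
    rw [Matrix.mulVec_mulVec, Matrix.mulVec_mulVec, hyB]
  rw [Units.val_mk0]
  conv_lhs => rw [hu, hv]
  conv_rhs => rw [hu, hv]
  rw [e1, e1, hfB, hfB, std_form_sim hF s c hs]

example {q₀ n : ℕ} (hF : Fintype.card F = q₀ ^ 2)
    (f : (Fin n → F) → (Fin n → F) → F) (B : Matrix (Fin n) (Fin n) F) (hB : IsUnit B.det)
    (hfB : ∀ u v : Fin n → F, f (B.mulVec u) (B.mulVec v) = ∑ i, u i * (v i) ^ q₀)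
    (x g : GL (Fin n) F) (s : Matrix (Fin n) (Fin n) F) (c : F) (hc : c ≠ 0)
    (h : (x : Matrix (Fin n) (Fin n) F) * ((g : Matrix (Fin n) (Fin n) F) * B)
        = ((g : Matrix (Fin n) (Fin n) F) * B) * s)
    (hs : s.transpose * s.map (fun a => a ^ q₀) = c • (1 : Matrix (Fin n) (Fin n) F)) :
    g⁻¹ * x * g ∈ Cfsg.Geo.similarityGroup f :=
  mem_of_sim hF f B hB hfB x g s c hc h hs

end Cfsg.Agent.H73.Uni

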