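import Mathlib
import Cfsg.Agent.H7.Herm

/-!
helper73: piece S5982-MULT for helper99: the multiplier `c` of a unitary similarity is fixed by the
Frobenius, and if `x ^ r = z • 1` then `z ^ (q₀ + 1) = c ^ r`.
-/

set_option autoImplicit false

open scoped MatrixGroups

namespace Cfsg.Agent.H73.Uni

variable {F : Type*} [Field F] [Fintype F]

omit [Fintype F] in
theorem conj_pow_eq {n : ℕ} (x P s : Matrix (Fin n) (Fin n) F) (h : x * P = P * s) (k : ℕ) :
    x ^ k * P = P * s ^ k := by
  induction k with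
  | zero => simp
  | succ k ih =>
    rw [pow_succ, pow_succ, Matrix.mul_assoc, h, ← Matrix.mul_assoc, ih, Matrix.mul_assoc]

omit [Fintype F] in
theorem sim_pow {n : ℕ} (φ : F →+* F) (s : Matrix (Fin n) (Fin n) F) (c : F)
    (hs : s.transpose * s.map φ = c • (1 : Matrix (Fin n) (Fin n) F)) (k : ℕ) :
    (s ^ k).transpose * (s ^ k).map φ = c ^ k • (1 : Matrix (Fin n) (Fin n) F) := by
  induction k with
  | zero => simp
  | succ k ih =>
    have h1 : (s ^ (k + 1)).transpose = (s ^ k).transpose * s.transpose := by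
      rw [pow_succ', Matrix.transpose_mul]
    have h2 : (s ^ (k + 1)).map φ = s.map φ * (s ^ k).map φ := by
      rw [pow_succ', Matrix.map_mul]
    rw [h1, h2, Matrix.mul_assoc, ← Matrix.mul_assoc s.transpose, hs, Matrix.smul_mul,
      Matrix.one_mul, Matrix.mul_smul, ih, smul_smul, pow_succ']

theorem multiplier_of_unitary_sim (q₀ n : ℕ) (hF : Fintype.card F = q₀ ^ 2) (hn : 0 < n)
    (x P s : Matrix (Fin n) (Fin n) F) (hP : IsUnit P.det) (c : F)
    (h : x * P = P * s)
    (hs : s.transpose * s.map (fun a => a ^ q₀) = c • (1 : Matrix (Fin n) (Fin n) F))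
    (r : ℕ) (z : F) (hx : x ^ r = z • (1 : Matrix (Fin n) (Fin n) F)) :
    c ^ q₀ = c ∧ z ^ (q₀ + 1) = c ^ r := by
  classical
  obtain ⟨φ, hφ⟩ := Cfsg.Agent.H7.exists_frobQ hF
  have hfun : (fun a : F => a ^ q₀) = ⇑φ := funext fun a => (hφ a).symm
  rw [hfun] at hs
  have hφφ : ∀ a : F, φ (φ a) = a := by
    intro a
    rw [hφ, hφ, Cfsg.Agent.H7.pow_q_pow_q hF]
  have i0 : Fin n := ⟨0, hn⟩
  have hPP : P⁻¹ * P = 1 := Matrix.nonsing_inv_mul P hP
  constructor
  · -- `c ^ q₀ = c`
    have h1 : ((s.transpose * s.map φ).map φ).transpose = s.transpose * s.map φ := by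
      have hss : s.map (⇑φ ∘ ⇑φ) = s := by
        ext i j
        simp [hφφ]
      rw [Matrix.map_mul, Matrix.transpose_mul, Matrix.map_map, Matrix.transpose_map,
        Matrix.transpose_transpose, hss]
    rw [hs] at h1
    have h2 := congrFun (congrFun h1 i0) i0
    simp only [Matrix.transpose_apply, Matrix.map_apply, Matrix.smul_apply, Matrix.one_apply_eq,
      smul_eq_mul, mul_one] at h2
    rw [← hφ]
    exact h2
  · -- `z ^ (q₀ + 1) = c ^ r`
    have hsr : s ^ r = z • (1 : Matrix (Fin n) (Fin n) F) := by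
      have h1 := conj_pow_eq x P s h r
      rw [hx, Matrix.smul_mul, Matrix.one_mul] at h1
      calc s ^ r = (P⁻¹ * P) * s ^ r := by rw [hPP, Matrix.one_mul]
        _ = P⁻¹ * (P * s ^ r) := by rw [Matrix.mul_assoc]
        _ = P⁻¹ * (z • P) := by rw [h1]
        _ = z • (1 : Matrix (Fin n) (Fin n) F) := by rw [Matrix.mul_smul, hPP]
    have h3 := sim_pow φ s c hs r
    rw [hsr] at h3
    have h4 := congrFun (congrFun h3 i0) i0
    simp only [Matrix.mul_apply, Matrix.transpose_apply, Matrix.map_apply, Matrix.smul_apply,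
      Matrix.one_apply, smul_eq_mul] at h4
    rw [Finset.sum_eq_single i0] at h4
    · simp only [if_true, mul_one] at h4
      rw [hφ] at h4
      rw [pow_succ, mul_comm, h4]
    · intro k _ hk
      simp [hk]
    · intro hi
      exact absurd (Finset.mem_univ i0) hi

example (q₀ n : ℕ) (hF : Fintype.card F = q₀ ^ 2) (hn : 0 < n)
    (x P s : Matrix (Fin n) (Fin n) F) (hP : IsUnit P.det) (c : F)
    (h : x * P = P * s)
    (hs : s.transpose * s.map (fun a => a ^ q₀) = c • (1 : Matrix (Fin n) (Fin n) F))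
    (r : ℕ) (z : F) (hx : x ^ r = z • (1 : Matrix (Fin n) (Fin n) F)) :
    c ^ q₀ = c ∧ z ^ (q₀ + 1) = c ^ r :=
  multiplier_of_unitary_sim q₀ n hF hn x P s hP c h hs r z hx

end Cfsg.Agent.H73.Uni

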