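import Cfsg.Agent.H58.UqDefs
import Cfsg.Agent.H52.SoAsm
import Cfsg.Agent.H14.SnGL
import Cfsg.Agent.H89.SnGLA
import Cfsg.Agent.H5.SnRed
import Cfsg.Agent.H91.SnFinA
import Cfsg.Agent.H63.SnIfSyl
import Cfsg.Agent.H63.SnIfV
import Cfsg.Agent.H63.SnIfZ
import Cfsg.Agent.H71.SnIfS
import Cfsg.Agent.H71.SnIfK
import Cfsg.Agent.H80.SnIfN
import Cfsg.Agent.H25.SoNC
import Cfsg.Agent.H36.SoWid

/-!
# UQ-SIF (S2950): route B interface for piece S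

From the abstract statement `StSAbs` (in `X = ↥L`, `V = Ω₁Z(O₂(L))`) to `StS`: every
`L`-conjugate of `J(T)` normalizes `W_K` for a `J(T)`-component `K ≤ L`, `L ∈ ℒ(T)`.
-/

set_option autoImplicit false
open Cfsg

universe u

namespace Cfsg.Agent.H73.Uq

/-- UQ-SIF: `StSAbs → StS` (the hypothesis `K ∈ 𝒦₀(T^g)` of `StS` is not used). -/
theorem sB (h : Cfsg.Agent.H58.Uq.StSAbs.{u}) : Cfsg.Agent.H58.Uq.StS.{u} := by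
  intro G _ _ hZNG T hT hT1 L hLT K hKc hKL _ l hl
  obtain ⟨hL, hNsol, hZN⟩ := hZNG
  have F1 := Cfsg.Agent.H52.Sn.facts (Cfsg.Agent.H14.Sn.gl Cfsg.Agent.H89.Sn.gla)
    Cfsg.Agent.H5.Sn.red Cfsg.Agent.H63.Sn.ifSyl Cfsg.Agent.H63.Sn.ifV Cfsg.Agent.H63.Sn.ifZ
    Cfsg.Agent.H71.Sn.ifS Cfsg.Agent.H71.Sn.ifK Cfsg.Agent.H80.Sn.ifN
    hL hNsol hZN T hT hT1 L hLT K hKc hKL
  have hO1 := (Cfsg.Agent.H91.Sn.finA _ _ _ _ _ _ _ F1.hT F1.hTi F1.hC F1.hQ F1.hM F1.hTC F1.hJM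
    F1.hcomm F1.hKgen F1.hKJ F1.hOK F1.hO).1
  have hnc1 := Cfsg.Agent.H25.So.nc _ _ _ _ _ _ _ F1
  have hw1 := Cfsg.Agent.H36.So.wid T L K _ hKc hKL F1 hO1 hnc1
  obtain ⟨hVn, hVel, hQV⟩ := Cfsg.Agent.H63.Sn.ifV L
  have hPS := Cfsg.Agent.H71.Sn.ifS hNsol T L hT1 hLT
  have hred1 := (Cfsg.Agent.H5.Sn.red (T.subgroupOf L)
    ((omegaCenterOf (pCoreOf 2 L)).subgroupOf L) F1.hT F1.hTi hQV F1.hCT).1
  have hc1 : Nat.card ↥⁅(omegaCenterOf (pCoreOf 2 L)).subgroupOf L, K.subgroupOf L⁆ = 4 := by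
    rw [← hKc.2.2.2.2.1, ← hw1]
    exact Nat.card_congr (Subgroup.equivMapOfInjective _ _ (Subgroup.subtype_injective L)).toEquiv
  have hMn := F1.hM
  have hKM : K.subgroupOf L ≤ thompsonSubgroup 2 ↥L := by
    rw [← F1.hKJ]
    exact (Subgroup.commutator_mono le_top F1.hJM).trans
      (Subgroup.commutator_le_right _ _)
  have hOC : (pCoreOf 2 K).subgroupOf L ≤ Subgroup.centralizer
      (((omegaCenterOf (pCoreOf 2 L)).subgroupOf L : Subgroup ↥L) : Set ↥L) :=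
    hO1.trans F1.hQC
  have hmain := h ((omegaCenterOf (pCoreOf 2 L)).subgroupOf L) hVel hPS hred1
    (K.subgroupOf L) ((pCoreOf 2 K).subgroupOf L) hKM F1.hOK hOC F1.hO3 hc1
  rintro _ ⟨j, hj, rfl⟩
  have hjT : j ∈ T := by
    obtain ⟨j', -, rfl⟩ := hj
    exact j'.2
  have hjL : j ∈ L := hLT.1.1 hjT
  have hjM : (⟨j, hjL⟩ : ↥L) ∈ thompsonSubgroup 2 ↥L := F1.hJM (Subgroup.mem_subgroupOf.mpr hj)
  have hyM : (⟨l, hl⟩ : ↥L) * ⟨j, hjL⟩ * (⟨l, hl⟩ : ↥L)⁻¹ ∈ thompsonSubgroup 2 ↥L :=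
    hMn.conj_mem _ hjM _
  have hyN := hmain hyM
  have h2 := Subgroup.le_normalizer_map L.subtype (Subgroup.mem_map_of_mem L.subtype hyN)
  rw [hw1] at h2
  exact h2

end Cfsg.Agent.H73.Uq

example : Cfsg.Agent.H58.Uq.StSAbs.{u} → Cfsg.Agent.H58.Uq.StS.{u} := Cfsg.Agent.H73.Uq.sB

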