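import Mathlib
import Cfsg.Agent.H74.W2PDefs
import Cfsg.Agent.H73.W2PCyc

set_option autoImplicit false

namespace Cfsg.Agent.H73.W2P

open Cfsg.Agent.H74.W2P Equiv MulAction
open scoped Pointwise

variable {Ω : Type*} [Fintype Ω] [DecidableEq Ω]

/-- If `U0` has no `x`-eigenvectors for nontrivial `p`-th roots of unity, all its elements are
`x`-invariant. -/
theorem u0_invariant {G : Subgroup (Perm Ω)} {p : ℕ} {x : Perm Ω} (hyp : Hyp G p x) (a₀ : Ω)
    (h0 : ∀ h : ZMod p, h ≠ 0 → U0 G x a₀ ⊓ Vh x p h = ⊥) :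
    ∀ f ∈ U0 G x a₀, ∀ ω, f (x ω) = f ω := by
  have hp : p.Prime := hyp.hp
  have : NeZero p := ⟨hp.ne_zero⟩
  obtain ⟨τ, hτ⟩ : ∃ τ : (Ω → ℂ) →ₗ[ℂ] (Ω → ℂ), ∀ f ω, τ f ω = f (x ω) :=
    ⟨LinearMap.funLeft ℂ ℂ (x : Ω → Ω), fun f ω => rfl⟩
  have hτU : ∀ f ∈ U0 G x a₀, τ f ∈ U0 G x a₀ := by
    intro f hf
    refine Submodule.span_induction (p := fun f _ => τ f ∈ U0 G x a₀) ?_ ?_ ?_ ?_ hf
    · rintro f ⟨g, hg, rfl⟩
      apply Submodule.subset_span
      refine ⟨g * x, G.mul_mem hg hyp.hxG, ?_⟩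
      funext ω
      rw [hτ]; rfl
    · rw [map_zero]; exact Submodule.zero_mem _
    · intro f₁ f₂ _ _ h1 h2
      rw [map_add]; exact Submodule.add_mem _ h1 h2
    · intro c f₁ _ h1
      rw [map_smul]; exact Submodule.smul_mem _ c h1
  have hxp : ∀ ω, (x ^ p) ω = ω := by
    intro ω
    have : x ^ p = 1 := by rw [← hyp.hxord]; exact pow_orderOf_eq_one x
    rw [this]; rfl
  obtain ⟨W, hW⟩ : ∃ W : Submodule ℂ (Ω → ℂ), W = Submodule.map (τ - 1) (U0 G x a₀) := ⟨_, rfl⟩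
  have hWU : W ≤ U0 G x a₀ := by
    rw [hW]
    rintro _ ⟨u, hu, rfl⟩
    rw [LinearMap.sub_apply, Module.End.one_apply]
    exact Submodule.sub_mem _ (hτU u hu) hu
  have hτW : ∀ w ∈ W, τ w ∈ W := by
    intro w hw
    rw [hW] at hw ⊢
    obtain ⟨u, hu, rfl⟩ := hw
    refine ⟨τ u, hτU u hu, ?_⟩
    simp only [LinearMap.sub_apply, Module.End.one_apply, map_sub]
  by_cases hbot : W = ⊥
  · intro f hf ω
    have h1 : (τ - 1) f ∈ W := by rw [hW]; exact ⟨f, hf, rfl⟩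
    rw [hbot, Submodule.mem_bot] at h1
    have h2 := congrFun h1 ω
    rw [LinearMap.sub_apply, Module.End.one_apply, Pi.sub_apply, hτ, Pi.zero_apply] at h2
    exact sub_eq_zero.mp h2
  · exfalso
    have : Nontrivial ↥W := (Submodule.nontrivial_iff_ne_bot).mpr hbot
    obtain ⟨μ, hμ⟩ := Module.End.exists_eigenvalue (τ.restrict hτW)
    obtain ⟨w, hw⟩ := hμ.exists_hasEigenvector
    have hw0 : (w : Ω → ℂ) ≠ 0 := fun h => hw.2 (Subtype.ext h)
    have hwτ : ∀ ω, (w : Ω → ℂ) (x ω) = μ * (w : Ω → ℂ) ω := by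
      intro ω
      have h1 := congrArg (fun v : ↥W => (v : Ω → ℂ) ω) hw.apply_eq_smul
      simp only [LinearMap.coe_restrict_apply, Submodule.coe_smul, Pi.smul_apply,
        smul_eq_mul] at h1
      exact (hτ (w : Ω → ℂ) ω).symm.trans h1
    have hwpow : ∀ (n : ℕ) ω, (w : Ω → ℂ) ((x ^ n) ω) = μ ^ n * (w : Ω → ℂ) ω := by
      intro n ω
      induction n with
      | zero => simp
      | succ n ih => rw [pow_succ', Equiv.Perm.mul_apply, hwτ, ih, pow_succ]; ring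
    obtain ⟨ω₀, hω₀⟩ : ∃ ω₀, (w : Ω → ℂ) ω₀ ≠ 0 := by
      by_contra hcon
      push Not at hcon
      exact hw0 (funext hcon)
    have hμp : μ ^ p = 1 := by
      have h1 := hwpow p ω₀
      rw [hxp] at h1
      have h2 : (μ ^ p - 1) * (w : Ω → ℂ) ω₀ = 0 := by rw [sub_mul, ← h1]; ring
      exact sub_eq_zero.mp ((mul_eq_zero.mp h2).resolve_right hω₀)
    by_cases hμ1 : μ = 1
    · -- telescoping
      have hmapW : ∀ v ∈ W, ∃ u ∈ U0 G x a₀, (τ - 1) u = v := by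
        intro v hv; rw [hW] at hv; exact hv
      obtain ⟨u, hu, huw⟩ := hmapW (w : Ω → ℂ) w.2
      have hval : ∀ ω, (w : Ω → ℂ) ω = u (x ω) - u ω := by
        intro ω
        rw [← huw, LinearMap.sub_apply, Module.End.one_apply, Pi.sub_apply, hτ]
      have hsum : ∑ k ∈ Finset.range p, (w : Ω → ℂ) ((x ^ k) ω₀) = 0 := by
        have : ∀ k ∈ Finset.range p, (w : Ω → ℂ) ((x ^ k) ω₀) =
            u ((x ^ (k + 1)) ω₀) - u ((x ^ k) ω₀) := by
          intro k _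
          rw [hval, pow_succ', Equiv.Perm.mul_apply]
        rw [Finset.sum_congr rfl this, Finset.sum_range_sub (fun k => u ((x ^ k) ω₀)), hxp]
        simp
      have hsum2 : ∑ k ∈ Finset.range p, (w : Ω → ℂ) ((x ^ k) ω₀) = p * (w : Ω → ℂ) ω₀ := by
        have : ∀ k ∈ Finset.range p, (w : Ω → ℂ) ((x ^ k) ω₀) = (w : Ω → ℂ) ω₀ := by
          intro k _
          rw [hwpow, hμ1, one_pow, one_mul]
        rw [Finset.sum_congr rfl this, Finset.sum_const, Finset.card_range, nsmul_eq_mul]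
      rw [hsum2] at hsum
      have hp0 : (p : ℂ) ≠ 0 := by exact_mod_cast hp.ne_zero
      exact hω₀ ((mul_eq_zero.mp hsum).resolve_left hp0)
    · have hprim : IsPrimitiveRoot (zeta p) p := Complex.isPrimitiveRoot_exp p hp.ne_zero
      obtain ⟨i, hip, hi⟩ := hprim.eq_pow_of_pow_eq_one hμp
      have hi0 : i ≠ 0 := by
        intro h; rw [h, pow_zero] at hi; exact hμ1 hi.symm
      have hh : ((i : ℕ) : ZMod p) ≠ 0 := by
        rw [Ne, ZMod.natCast_eq_zero_iff]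
        intro hdvd
        have := Nat.le_of_dvd (Nat.pos_of_ne_zero hi0) hdvd
        omega
      have hmem : (w : Ω → ℂ) ∈ U0 G x a₀ ⊓ Vh x p ((i : ℕ) : ZMod p) := by
        refine ⟨hWU w.2, ?_⟩
        intro ω
        rw [ZMod.val_cast_of_lt hip, hi]
        exact hwτ ω
      rw [h0 _ hh, Submodule.mem_bot] at hmem
      exact hw0 hmem

/-- S0720-LA3. -/
theorem b_zero_false {G : Subgroup (Perm Ω)} {p : ℕ} {x : Perm Ω} (hyp : Hyp G p x) (a₀ : Ω)
    (h0 : ∀ h : ZMod p, h ≠ 0 → U0 G x a₀ ⊓ Vh x p h = ⊥) : False := by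
  have hinvU := u0_invariant hyp a₀ h0
  -- `σ ∘ g` is `x`-invariant
  have hinv : ∀ g ∈ G, ∀ ω, x.SameCycle a₀ (g (x ω)) ↔ x.SameCycle a₀ (g ω) := by
    intro g hg ω
    have hmem : (fun ω => sig x a₀ (g ω)) ∈ U0 G x a₀ :=
      Submodule.subset_span ⟨g, hg, rfl⟩
    have h1 := hinvU _ hmem ω
    simp only [sig] at h1
    by_cases ha : x.SameCycle a₀ (g (x ω)) <;> by_cases hb : x.SameCycle a₀ (g ω)
    · exact ⟨fun _ => hb, fun _ => ha⟩
    · rw [if_pos ha, if_neg hb] at h1; norm_num at h1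
    · rw [if_neg ha, if_pos hb] at h1; norm_num at h1
    · exact ⟨fun h => absurd h ha, fun h => absurd h hb⟩
  have hinvpow : ∀ g ∈ G, ∀ (n : ℕ) ω, x.SameCycle a₀ (g ((x ^ n) ω)) ↔ x.SameCycle a₀ (g ω) := by
    intro g hg n ω
    induction n with
    | zero => simp
    | succ n ih => rw [pow_succ', Equiv.Perm.mul_apply, hinv g hg, ih]
  have hinvc : ∀ g ∈ G, ∀ ω ω', x.SameCycle ω ω' →
      (x.SameCycle a₀ (g ω') ↔ x.SameCycle a₀ (g ω)) := by
    intro g hg ω ω' h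
    obtain ⟨n, hn⟩ := h.exists_nat_pow_eq
    rw [← hn]; exact hinvpow g hg n ω
  have hcardg : ∀ g : Perm Ω,
      (Finset.univ.filter (fun ω => x.SameCycle a₀ (g ω))).card = p := by
    intro g
    rw [← card_cycle hyp a₀, ← Fintype.card_subtype, ← Fintype.card_subtype]
    exact Fintype.card_congr (Equiv.subtypeEquiv g (fun ω => Iff.rfl))
  have hblock : IsBlock G {ω : Ω | x.SameCycle a₀ ω} := by
    rw [isBlock_iff_smul_eq_or_disjoint]
    intro g
    have hk : ((g⁻¹ : ↥G) : Perm Ω) ∈ G := (g⁻¹).2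
    have hmem : ∀ ω, ω ∈ g • {ω : Ω | x.SameCycle a₀ ω} ↔
        x.SameCycle a₀ (((g⁻¹ : ↥G) : Perm Ω) ω) := by
      intro ω
      rw [Set.mem_smul_set_iff_inv_smul_mem]
      rfl
    by_cases ha : x.SameCycle a₀ (((g⁻¹ : ↥G) : Perm Ω) a₀)
    · left
      have hsub : (Finset.univ.filter (fun ω => x.SameCycle a₀ ω)) ⊆
          (Finset.univ.filter (fun ω => x.SameCycle a₀ (((g⁻¹ : ↥G) : Perm Ω) ω))) := by
        intro ω hω
        simp only [Finset.mem_filter, Finset.mem_univ, true_and] at hω ⊢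
        exact (hinvc _ hk a₀ ω hω).mpr ha
      have heq := Finset.eq_of_subset_of_card_le hsub
        (by rw [hcardg, card_cycle hyp a₀])
      ext ω
      rw [hmem ω]
      have := congrArg (fun s : Finset Ω => ω ∈ s) heq
      simp only [Finset.mem_filter, Finset.mem_univ, true_and] at this
      exact this.symm ▸ Iff.rfl
    · right
      rw [Set.disjoint_left]
      intro ω hω hω'
      rw [hmem ω] at hω
      exact ha ((hinvc _ hk a₀ ω hω').mp hω)
  rcases hyp.hprim.isTrivialBlock_of_isBlock hblock with hs | hu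
  · have h1 : a₀ ∈ {ω : Ω | x.SameCycle a₀ ω} := Equiv.Perm.SameCycle.refl x a₀
    have h2 : x a₀ ∈ {ω : Ω | x.SameCycle a₀ ω} :=
      Equiv.Perm.sameCycle_apply_right.mpr (Equiv.Perm.SameCycle.refl x a₀)
    exact hyp.hxfix a₀ (hs h2 h1)
  · obtain ⟨b, hb⟩ := exists_not_sameCycle hyp a₀
    have : b ∈ {ω : Ω | x.SameCycle a₀ ω} := hu ▸ Set.mem_univ b
    exact hb this

example {G : Subgroup (Perm Ω)} {p : ℕ} {x : Perm Ω} (hyp : Hyp G p x) (a₀ : Ω)
    (h0 : ∀ h : ZMod p, h ≠ 0 → U0 G x a₀ ⊓ Vh x p h = ⊥) : False := b_zero_false hyp a₀ h0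

end Cfsg.Agent.H73.W2P
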