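import Mathlib
import Cfsg.Agent.H74.W2PDefs
import Cfsg.Agent.H73.W2PCyc

set_option autoImplicit false

namespace Cfsg.Agent.H73.W2P

open Cfsg.Agent.H74.W2P Equiv MulAction

variable {Ω : Type*} [Fintype Ω] [DecidableEq Ω]

/-- S0720-LA5. -/
theorem scalU {G : Subgroup (Perm Ω)} {p : ℕ} {x : Perm Ω} (hyp : Hyp G p x) (a₀ : Ω) :
    ScalU G x a₀ := by
  intro A hA f hf
  obtain ⟨a, ha⟩ : ∃ a : ℂ, a = ∑ j, A a₀ j * sig x a₀ j := ⟨_, rfl⟩
  rw [← ha]
  have hcomm : ∀ g ∈ G, ∀ (f : Ω → ℂ) (i : Ω),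
      A.mulVec (fun ω => f (g ω)) i = A.mulVec f (g i) := by
    intro g hg f i
    simp only [Matrix.mulVec, dotProduct]
    rw [← Equiv.sum_comp g (fun j => A (g i) j * f j)]
    apply Finset.sum_congr rfl
    intro j _
    rw [hA g hg i j]
  have hσx : (fun ω => sig x a₀ (x ω)) = sig x a₀ := by
    funext ω; unfold sig; simp only [Equiv.Perm.sameCycle_apply_right]
  have hAσx : ∀ i, A.mulVec (sig x a₀) (x i) = A.mulVec (sig x a₀) i := by
    intro i
    rw [← hcomm x hyp.hxG, hσx]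
  have hpow : ∀ (n : ℕ) (i : Ω), A.mulVec (sig x a₀) ((x ^ n) i) = A.mulVec (sig x a₀) i := by
    intro n i
    induction n with
    | zero => simp
    | succ n ih => rw [pow_succ', Equiv.Perm.mul_apply, hAσx, ih]
  have hconst : ∀ i j, x.SameCycle i j → A.mulVec (sig x a₀) j = A.mulVec (sig x a₀) i := by
    intro i j hij
    obtain ⟨n, hn⟩ := hij.exists_nat_pow_eq
    rw [← hn]; exact hpow n i
  have hα₁ : A.mulVec (sig x a₀) a₀ = a := by
    rw [ha]; simp only [Matrix.mulVec, dotProduct]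
  -- column sums are constant
  have hcol : ∀ j j', ∑ i, A i j = ∑ i, A i j' := by
    intro j j'
    have := hyp.hprim.toIsPretransitive
    obtain ⟨g, hg⟩ := MulAction.exists_smul_eq G j j'
    have hg' : (g : Perm Ω) j = j' := hg
    rw [← hg', ← Equiv.sum_comp (g : Perm Ω) (fun i => A i ((g : Perm Ω) j))]
    apply Finset.sum_congr rfl
    intro i _
    exact (hA g g.2 i j).symm
  have htot : ∑ i, A.mulVec (sig x a₀) i = 0 := by
    simp only [Matrix.mulVec, dotProduct]
    rw [Finset.sum_comm]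
    have : ∀ j, ∑ i, A i j * sig x a₀ j = (∑ i, A i a₀) * sig x a₀ j := by
      intro j
      rw [← Finset.sum_mul, hcol j a₀]
    simp only [this]
    rw [← Finset.mul_sum, sum_sig hyp a₀, mul_zero]
  obtain ⟨b, hb⟩ := exists_not_sameCycle hyp a₀
  have hval : ∀ ω, A.mulVec (sig x a₀) ω =
      if x.SameCycle a₀ ω then a else A.mulVec (sig x a₀) b := by
    intro ω
    by_cases h : x.SameCycle a₀ ω
    · rw [if_pos h, hconst a₀ ω h, hα₁]
    · rw [if_neg h]
      rcases two_cycles hyp a₀ b hb ω with h' | h'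
      · exact absurd h' h
      · exact hconst b ω h'
  have hα₂ : A.mulVec (sig x a₀) b = -a := by
    have h1 : ∑ ω, A.mulVec (sig x a₀) ω =
        ∑ ω, (if x.SameCycle a₀ ω then a else A.mulVec (sig x a₀) b) :=
      Finset.sum_congr rfl (fun ω _ => hval ω)
    rw [htot, Finset.sum_ite, Finset.sum_const, Finset.sum_const, card_cycle hyp a₀,
      card_compl_cycle hyp a₀] at h1
    have hp0 : (p : ℂ) ≠ 0 := by
      exact_mod_cast hyp.hp.ne_zero
    have h2 : (p : ℂ) * (a + A.mulVec (sig x a₀) b) = 0 := by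
      rw [h1]; simp only [nsmul_eq_mul]; ring
    have h3 := (mul_eq_zero.mp h2).resolve_left hp0
    exact eq_neg_of_add_eq_zero_right h3
  have hAσ : ∀ ω, A.mulVec (sig x a₀) ω = a * sig x a₀ ω := by
    intro ω
    rw [hval ω, hα₂]
    unfold sig
    by_cases h : x.SameCycle a₀ ω
    · simp [h]
    · simp [h]
  -- extend to the span
  refine Submodule.span_induction (p := fun f _ => A.mulVec f = a • f) ?_ ?_ ?_ ?_ hf
  · rintro f ⟨g, hg, rfl⟩
    funext i
    rw [hcomm g hg, hAσ]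
    simp
  · simp
  · intro f₁ f₂ _ _ h1 h2
    rw [Matrix.mulVec_add, h1, h2, smul_add]
  · intro c f₁ _ h1
    rw [Matrix.mulVec_smul, h1, smul_comm]

example {G : Subgroup (Perm Ω)} {p : ℕ} {x : Perm Ω} (hyp : Hyp G p x) (a₀ : Ω) :
    ScalU G x a₀ := scalU hyp a₀

end Cfsg.Agent.H73.W2P
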